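import Mathlib.GroupTheory.GroupAction.MultipleTransitivity
import Mathlib.Data.Finset.Card
import Mathlib.Data.Fintype.Card

/-!
Multiple transitivity from moves of a single coordinate.
-/

set_option autoImplicit false

namespace Cfsg.Agent.Lib.Perm

open MulAction

variable {G : Type*} [Group G] {X : Type*} [MulAction G X] [Fintype X]

/-- If any single coordinate of a tuple can be moved to any free value, the action is
multiply transitive. -/
theorem multiply_of_moves {k : ℕ} (hk : k < Fintype.card X)
    (move : ∀ (x : Fin k ↪ X) (i : Fin k) (b : X), (∀ j, j ≠ i → x j ≠ b) →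
      ∃ g : G, (∀ j, j ≠ i → g • x j = x j) ∧ g • x i = b) :
    IsMultiplyPretransitive G X k := by
  classical
  let d : (Fin k ↪ X) → (Fin k ↪ X) → ℕ := fun x y =>
    (Finset.univ.filter fun i => x i ≠ y i).card
  suffices ∀ n x y, d x y = n → ∃ g : G, g • x = y from ⟨fun x y => this _ x y rfl⟩
  intro n
  induction n using Nat.strong_induction_on with
  | _ n ih =>
  intro x y hn
  by_cases hall : ∀ i, x i = y i
  · exact ⟨1, by rw [one_smul]; exact Function.Embedding.ext hall⟩
  push Not at hall
  obtain ⟨i, hi⟩ := hall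
  -- it suffices to move `x i` to `y i` keeping the agreeing coordinates
  suffices key : ∃ g : G, g • x i = y i ∧ ∀ j, x j = y j → g • x j = y j by
    obtain ⟨g, hgi, hgj⟩ := key
    have hlt : d (g • x) y < n := by
      rw [← hn]
      show (Finset.univ.filter fun l => (g • x) l ≠ y l).card <
        (Finset.univ.filter fun l => x l ≠ y l).card
      refine Finset.card_lt_card ((Finset.ssubset_iff_of_subset fun j hj => ?_).mpr
        ⟨i, Finset.mem_filter.mpr ⟨Finset.mem_univ i, hi⟩, ?_⟩)
      · exact Finset.mem_filter.mpr ⟨Finset.mem_univ j,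
          fun e => (Finset.mem_filter.mp hj).2 (hgj j e)⟩
      · exact fun h => (Finset.mem_filter.mp h).2 hgi
    obtain ⟨f, hf⟩ := ih _ hlt (g • x) y rfl
    exact ⟨f * g, by rw [mul_smul, hf]⟩
  by_cases hfree : ∀ j, j ≠ i → x j ≠ y i
  · obtain ⟨g, hg, hgi⟩ := move x i (y i) hfree
    refine ⟨g, hgi, fun j hj => ?_⟩
    rw [hg j (fun e => hi (e ▸ hj)), hj]
  push Not at hfree
  obtain ⟨j, hji, hj⟩ := hfree
  -- first move `x j` to a spare point
  obtain ⟨z, hz⟩ : ∃ z, ∀ l, x l ≠ z := by
    by_contra h
    push Not at h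
    have := Fintype.card_le_of_surjective x h
    rw [Fintype.card_fin] at this
    omega
  obtain ⟨g, hg, hgj⟩ := move x j z (fun l _ => hz l)
  have hfree2 : ∀ l, l ≠ i → (g • x) l ≠ y i := by
    intro l _ hl
    by_cases hlj : l = j
    · rw [Function.Embedding.smul_apply, hlj, hgj] at hl
      exact hz j (hj.trans hl.symm)
    · rw [Function.Embedding.smul_apply, hg l hlj] at hl
      exact hlj (x.injective (hl.trans hj.symm))
  obtain ⟨f, hf, hfi⟩ := move (g • x) i (y i) hfree2
  refine ⟨f * g, by rw [mul_smul]; exact hfi, fun l hl => ?_⟩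
  have hlj : l ≠ j := fun e => hji (y.injective ((e ▸ hl).symm.trans hj))
  have hli : l ≠ i := fun e => hi (e ▸ hl)
  have h1 := hf l hli
  rw [Function.Embedding.smul_apply, hg l hlj] at h1
  rw [mul_smul, hg l hlj, h1, hl]

end Cfsg.Agent.Lib.Perm
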