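import Mathlib.GroupTheory.GroupAction.Basic
import Mathlib.GroupTheory.Perm.Basic
import Mathlib.GroupTheory.Subgroup.Centralizer

/-!
Centralizers of transitive groups in the symmetric group.
-/

set_option autoImplicit false

namespace Cfsg.Agent.Lib.Perm

variable {α : Type*} {G : Subgroup (Equiv.Perm α)} {M : Subgroup G}

/-- Permutations commuting with a transitive group that agree at a point are equal. -/
theorem centralizer_eq_of_apply (ht : MulAction.IsPretransitive M α) {c d : Equiv.Perm α}
    (hc : c ∈ Subgroup.centralizer ((M.map G.subtype : Subgroup (Equiv.Perm α)) : Set (Equiv.Perm α)))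
    (hd : d ∈ Subgroup.centralizer ((M.map G.subtype : Subgroup (Equiv.Perm α)) : Set (Equiv.Perm α)))
    {a : α} (h : c a = d a) : c = d := by
  refine Equiv.ext fun x => ?_
  obtain ⟨⟨⟨m, hmG⟩, hm⟩, rfl⟩ := ht.exists_smul_eq a x
  have hmem : m ∈ M.map G.subtype := ⟨⟨m, hmG⟩, hm, rfl⟩
  show c (m a) = d (m a)
  rw [← Equiv.Perm.mul_apply, ← Equiv.Perm.mul_apply, ← hc m hmem, ← hd m hmem, Equiv.Perm.mul_apply,
    Equiv.Perm.mul_apply, h]

theorem coe_mem_centralizer {g : G} (h : ∀ m ∈ M, m * g = g * m) :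
    (g : Equiv.Perm α) ∈
      Subgroup.centralizer ((M.map G.subtype : Subgroup (Equiv.Perm α)) : Set (Equiv.Perm α)) := by
  rintro _ ⟨m, hm, rfl⟩
  exact congrArg Subtype.val (h m hm)

/-- Normal subgroups meeting trivially commute. -/
theorem commute_of_disjoint_normal {H : Type*} [Group H] {A B : Subgroup H} [A.Normal] [B.Normal]
    (h : A ⊓ B = ⊥) {a b : H} (ha : a ∈ A) (hb : b ∈ B) : a * b = b * a :=
  Subgroup.commute_of_normal_of_disjoint A B inferInstance inferInstance (disjoint_iff.mpr h) a b ha hb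

end Cfsg.Agent.Lib.Perm
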