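import Cfsg.Agent.Lib.Perm.CharOrbital
import Cfsg.Agent.Lib.Perm.CharMult

/-! Rank, multiplicities and subdegrees. -/

set_option autoImplicit false
set_option linter.unusedSectionVars false

namespace Cfsg.Agent.Lib.Perm.CharOrbital

open MulAction Matrix Finset Module
open Cfsg.Agent.Lib.Perm.Orbital Cfsg.Agent.Lib.Char
open scoped ComplexConjugate

variable {G : Type*} [Group G] [Fintype G] {α : Type*} [MulAction G α] [Fintype α] (a : α)
  [IsPretransitive G α]

include a in
theorem exists_mult_fun :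
    ∃ m : IrrCharacter G → ℕ, (∀ χ : IrrCharacter G, classInner (perm (G := G) α) χ = m χ) ∧
      m ⟨fun _ => 1, isIrrCharacter_one⟩ = 1 ∧
      (∑ χ : IrrCharacter G, (m χ : ℂ) * (χ : G → ℂ) 1) = Fintype.card α ∧
      ∑ χ : IrrCharacter G, m χ * m χ = Nat.card (orbitRel.Quotient (stabilizer G a) α) := by
  classical
  choose m hm hm' using fun χ : IrrCharacter G =>
    exists_mult (G := G) (α := α) a (isCharacter_of_isIrr χ.2)
  refine ⟨m, hm', ?_, ?_, ?_⟩
  · have h1 : (m ⟨fun _ => 1, isIrrCharacter_one⟩ : ℂ) = 1 := by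
      rw [← hm, cv_trivial_one a]
    exact_mod_cast h1
  · have h := diag_eq_sum (G := G) a (isInv_one (α := α))
    rw [Matrix.one_apply_eq, mul_one] at h
    rw [h]
    exact sum_congr rfl fun χ _ => by rw [hm, mul_comm]
  · have h := rank_eq_sum (G := G) a
    simp only [hm', map_natCast] at h
    exact_mod_cast h.symm

theorem multfree_and_subdegree (f : ℕ)
    (hf : ∀ χ : G → ℂ, IsIrrCharacter G χ → χ ≠ (fun _ => 1) →
      classInner (perm (G := G) α) χ ≠ 0 → χ 1 = f) :
    (∀ χ : G → ℂ, IsIrrCharacter G χ →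
      classInner (perm (G := G) α) χ = 0 ∨ classInner (perm (G := G) α) χ = 1) ∧
    ∀ b, b ≠ a → Nat.card (orbit (stabilizer G a) b) = f := by
  classical
  obtain ⟨m, hm, hm1, hdeg, hsq⟩ := exists_mult_fun (G := G) a
  set t : IrrCharacter G := ⟨fun _ => 1, isIrrCharacter_one⟩ with ht
  have : Fintype (orbitRel.Quotient (stabilizer G a) α) := Fintype.ofFinite _
  set q₀ := cls (G := G) a a
  let k : orbitRel.Quotient (stabilizer G a) α → ℕ := fun q => Nat.card {y // cls a y = q}
  have hksum : 1 + ∑ q ∈ univ.erase q₀, k q = Fintype.card α := by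
    have h1 : k q₀ = 1 := by
      simp only [k]
      rw [Nat.card_eq_one_iff_unique]
      exact ⟨⟨fun x y => Subtype.ext (((cls_eq_self_iff a).mp x.2).trans
        ((cls_eq_self_iff a).mp y.2).symm)⟩, ⟨⟨a, rfl⟩⟩⟩
    rw [← h1, add_sum_erase univ k (mem_univ q₀), ← Nat.card_eq_fintype_card, ← Nat.card_sigma]
    exact Nat.card_congr (Equiv.sigmaFiberEquiv _)
  have hdvd : ∀ q ∈ univ.erase q₀, f ∣ k q ∧ 0 < k q := by
    intro q hq
    have hne : Quotient.out q ≠ a := fun e =>
      ne_of_mem_erase hq (by rw [← cls_out a q, e])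
    refine ⟨?_, ?_⟩
    · have := dvd_subdegree a f (fun χ h1 h2 h3 => ⟨1, by rw [hf χ h1 h2 h3, Nat.cast_one, mul_one]⟩)
        hne
      rwa [card_suborbit a (cls_out a q)] at this
    · have : Nonempty {y // cls a y = q} := ⟨⟨_, cls_out a q⟩⟩
      exact Nat.card_pos
  have hS : 1 + f * ∑ χ ∈ univ.erase t, m χ = Fintype.card α := by
    have h : ((1 + f * ∑ χ ∈ univ.erase t, m χ : ℕ) : ℂ) = (Fintype.card α : ℂ) := by
      rw [← hdeg, ← add_sum_erase univ (fun χ => (m χ : ℂ) * (χ : G → ℂ) 1) (mem_univ t), hm1,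
        show (t : G → ℂ) 1 = 1 from rfl]
      push_cast
      rw [mul_sum, one_mul]
      congr 1
      refine sum_congr rfl fun χ hχ => ?_
      by_cases h0 : m χ = 0
      · simp [h0]
      · rw [hf χ.1 χ.2 (fun e => ne_of_mem_erase hχ (Subtype.ext e))
          (by rw [hm]; exact_mod_cast h0), mul_comm]
    exact_mod_cast h
  have hr : 1 + ∑ χ ∈ univ.erase t, m χ * m χ = (univ.erase q₀).card + 1 := by
    rw [card_erase_add_one (mem_univ q₀), card_univ, ← Nat.card_eq_fintype_card, ← hsq,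
      ← add_sum_erase univ (fun χ => m χ * m χ) (mem_univ t), hm1, one_mul]
  have hkf : ∀ q ∈ univ.erase q₀, f ≤ k q := fun q hq =>
    Nat.le_of_dvd (hdvd q hq).2 (hdvd q hq).1
  have h1 := card_nsmul_le_sum _ _ _ hkf
  rw [smul_eq_mul] at h1
  rcases Nat.eq_zero_or_pos f with hf0 | hfpos
  · have hempty : univ.erase q₀ = (∅ : Finset (orbitRel.Quotient (stabilizer G a) α)) := by
      rw [eq_empty_iff_forall_notMem]
      intro q hq
      have h2 := single_le_sum (f := k) (fun x _ => Nat.zero_le _) hq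
      have := (hdvd q hq).2
      rw [hf0, zero_mul, add_zero] at hS
      omega
    rw [hempty, card_empty] at hr
    refine ⟨fun χ hχ => ?_, fun b hb => ?_⟩
    · by_cases he : (⟨χ, hχ⟩ : IrrCharacter G) = t
      · right; rw [show χ = (t : G → ℂ) from congrArg Subtype.val he, hm, hm1, Nat.cast_one]
      · left
        have := single_le_sum (f := fun χ => m χ * m χ) (fun x _ => Nat.zero_le _)
          (mem_erase.mpr ⟨he, mem_univ _⟩)
        have h0 : m ⟨χ, hχ⟩ * m ⟨χ, hχ⟩ = 0 := by omega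
        rw [show classInner (perm (G := G) α) χ = (m ⟨χ, hχ⟩ : ℂ) from hm ⟨χ, hχ⟩,
          mul_self_eq_zero.mp h0, Nat.cast_zero]
    · have hmem : cls (G := G) a b ∈ univ.erase q₀ :=
        mem_erase.mpr ⟨fun e => hb ((cls_eq_self_iff a).mp e), mem_univ _⟩
      simp [hempty] at hmem
  have hle : (univ.erase q₀).card ≤ ∑ χ ∈ univ.erase t, m χ := by
    refine le_of_mul_le_mul_left (a := f) ?_ hfpos
    have h1' : f * (univ.erase q₀).card ≤ ∑ q ∈ univ.erase q₀, k q := by rw [mul_comm]; exact h1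
    omega
  have hsqle : ∀ χ ∈ univ.erase t, m χ ≤ m χ * m χ := fun χ _ => Nat.le_mul_self _
  have hsum_eq : ∑ χ ∈ univ.erase t, m χ = ∑ χ ∈ univ.erase t, m χ * m χ :=
    le_antisymm (sum_le_sum hsqle) (by omega)
  have heach := (sum_eq_sum_iff_of_le hsqle).mp hsum_eq
  refine ⟨fun χ hχ => ?_, fun b hb => ?_⟩
  · rw [show classInner (perm (G := G) α) χ = (m ⟨χ, hχ⟩ : ℂ) from hm ⟨χ, hχ⟩]
    by_cases he : (⟨χ, hχ⟩ : IrrCharacter G) = t
    · right; rw [he, hm1, Nat.cast_one]
    · have hh := heach ⟨χ, hχ⟩ (mem_erase.mpr ⟨he, mem_univ _⟩)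
      rcases Nat.eq_zero_or_pos (m ⟨χ, hχ⟩) with h0 | hp
      · left; simp [h0]
      · right
        have : m ⟨χ, hχ⟩ * 1 = m ⟨χ, hχ⟩ * m ⟨χ, hχ⟩ := by rw [mul_one]; exact hh
        rw [← Nat.eq_of_mul_eq_mul_left hp this, Nat.cast_one]
  · have hmem : cls (G := G) a b ∈ univ.erase q₀ :=
      mem_erase.mpr ⟨fun e => hb ((cls_eq_self_iff a).mp e), mem_univ _⟩
    have heq : ∑ q ∈ univ.erase q₀, f = ∑ q ∈ univ.erase q₀, k q := by
      refine le_antisymm (sum_le_sum hkf) ?_
      rw [sum_const, smul_eq_mul]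
      have : (univ.erase q₀).card = ∑ χ ∈ univ.erase t, m χ := by omega
      rw [this, mul_comm]
      omega
    rw [card_suborbit a (b := b) rfl]
    exact ((sum_eq_sum_iff_of_le hkf).mp heq _ hmem).symm

theorem multfree_of_rank_le_five
    (h5 : Nat.card (orbitRel.Quotient (stabilizer G a) α) ≤ 5) :
    ∀ χ : G → ℂ, IsIrrCharacter G χ →
      classInner (perm (G := G) α) χ = 0 ∨ classInner (perm (G := G) α) χ = 1 := by
  classical
  intro χ hχ
  obtain ⟨m, hm, hm1, -, hsq⟩ := exists_mult_fun (G := G) a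
  set t : IrrCharacter G := ⟨fun _ => 1, isIrrCharacter_one⟩ with ht
  have hmc : classInner (perm (G := G) α) χ = (m ⟨χ, hχ⟩ : ℂ) := hm ⟨χ, hχ⟩
  rcases Nat.lt_or_ge (m ⟨χ, hχ⟩) 2 with hlt | hge
  · rw [hmc]
    rcases Nat.eq_zero_or_pos (m ⟨χ, hχ⟩) with h0 | hp
    · left; simp [h0]
    · right; rw [show m ⟨χ, hχ⟩ = 1 by omega, Nat.cast_one]
  exfalso
  have hne : (⟨χ, hχ⟩ : IrrCharacter G) ≠ t := fun e => by rw [e, hm1] at hge; omega
  obtain ⟨n, hn⟩ := exists_natDegree (isCharacter_of_isIrr hχ)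
  have honly : ∀ ψ : IrrCharacter G, ψ ≠ t → m ψ ≠ 0 → ψ = ⟨χ, hχ⟩ := by
    intro ψ h1 h2
    by_contra h3
    have hs := sum_le_sum_of_subset (f := fun x => m x * m x)
      (subset_univ ({t, ⟨χ, hχ⟩, ψ} : Finset (IrrCharacter G)))
    rw [sum_insert (by simp [hne.symm, Ne.symm h1]), sum_insert (by simp [Ne.symm h3]),
      sum_singleton, hm1, hsq] at hs
    have := Nat.pos_of_ne_zero h2
    have : 4 ≤ m ⟨χ, hχ⟩ * m ⟨χ, hχ⟩ := Nat.mul_le_mul hge hge
    have : 1 ≤ m ψ * m ψ := Nat.mul_pos (Nat.pos_of_ne_zero h2) (Nat.pos_of_ne_zero h2)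
    omega
  have := (multfree_and_subdegree a n (fun ψ hψ h1 h2 => ?_)).1 χ hχ
  · rw [hmc] at this
    rcases this with h | h <;> norm_cast at h <;> omega
  · have := honly ⟨ψ, hψ⟩ (fun e => h1 (congrArg Subtype.val e)) (by
      intro e; apply h2; rw [show classInner (perm (G := G) α) ψ = (m ⟨ψ, hψ⟩ : ℂ) from hm ⟨ψ, hψ⟩,
        e, Nat.cast_zero])
    rw [show ψ = χ from congrArg Subtype.val this, hn]

/-- Symmetric invariant matrices from a swapping hypothesis. -/
theorem isInv_symm (hsw : ∀ x y : α, ∃ g : G, g • x = y ∧ g • y = x) {C : Matrix α α ℂ}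
    (h : IsInv G C) : Cᵀ = C := by
  ext x y
  obtain ⟨g, hgx, hgy⟩ := hsw x y
  rw [Matrix.transpose_apply]
  have := h g x y
  rwa [hgx, hgy] at this

theorem generous_of_real (hreal : ∀ χ : G → ℂ, IsIrrCharacter G χ →
      classInner (perm (G := G) α) χ ≠ 0 →
        classInner (perm (G := G) α) χ = 1 ∧ ∀ g : G, conj (χ g) = χ g) (b : α) :
    ∃ g : G, g • a = b ∧ g • b = a := by
  classical
  set A := rel (G := G) a (cls a b) with hA
  have hAI : IsInv G A := isInv_rel a _
  set B := A - Aᵀ with hB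
  have hBI : IsInv G B := fun g x y => by
    simp [hB, Matrix.sub_apply, hAI g x y, hAI g y x]
  have hcv : ∀ χ : IrrCharacter G, cv a (χ : G → ℂ) (Bᵀ * B) = 0 := by
    intro χ
    have hc := isCharacter_of_isIrr χ.2
    by_cases h0 : classInner (perm (G := G) α) (χ : G → ℂ) = 0
    · exact cv_eq_zero a hc (by rw [← classInner_perm a hc, h0])
        (isInv_mul (isInv_transpose hBI) hBI)
    obtain ⟨h1, hr⟩ := hreal χ.1 χ.2 h0
    rw [cv_mul a hc (by rw [← classInner_perm a hc, h1]) (isInv_transpose hBI) hBI]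
    have hT : cv a (χ : G → ℂ) Aᵀ = cv a (χ : G → ℂ) A := by
      simp only [cv, Matrix.transpose_apply]
      congr 1
      refine Fintype.sum_equiv (Equiv.inv G) _ _ fun g => ?_
      simp only [Equiv.inv_apply, char_inv hc, hr]
      congr 1
      have := hAI g⁻¹ (g • a) a
      rw [inv_smul_smul] at this
      exact this.symm
    rw [show cv a (χ : G → ℂ) B = 0 by rw [hB, cv_sub, hT, sub_self], mul_zero]
  have hd := diag_eq_sum a (isInv_mul (isInv_transpose hBI) hBI)
  simp only [hcv, mul_zero, sum_const_zero] at hd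
  have : Nonempty α := ⟨a⟩
  have hd' : (Bᵀ * B) a a = 0 :=
    (mul_eq_zero.mp hd).resolve_left (Nat.cast_ne_zero.mpr Fintype.card_ne_zero)
  have hBreal : ∀ x y, conj (B x y) = B x y := fun x y => by
    rcases rel_zero_or_one a (cls (G := G) a b) x y with h | h <;>
      rcases rel_zero_or_one a (cls (G := G) a b) y x with h' | h' <;>
        simp [hB, hA, h, h']
  have hsum : ∑ x, Complex.normSq (B x a) = 0 := by
    have e : (((∑ x, Complex.normSq (B x a)) : ℝ) : ℂ) = 0 := by
      rw [← hd', Matrix.mul_apply]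
      push_cast
      exact sum_congr rfl fun x _ => by rw [← Complex.mul_conj, hBreal, Matrix.transpose_apply]
    exact_mod_cast e
  have hz := Complex.normSq_eq_zero.mp
    ((sum_eq_zero_iff_of_nonneg fun x _ => Complex.normSq_nonneg _).mp hsum b (mem_univ b))
  rw [hB, Matrix.sub_apply, Matrix.transpose_apply, sub_eq_zero, hA, rel_apply_base,
    if_pos rfl] at hz
  simp only [rel, Matrix.of_apply] at hz
  split_ifs at hz with hex
  · obtain ⟨g, hg, hq⟩ := hex
    obtain ⟨h, hh, hhb⟩ := (cls_eq_iff a).mp hq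
    exact ⟨g * h, by rw [mul_smul, hh, hg], by rw [mul_smul, hhb, smul_inv_smul]⟩
  · exact absurd hz zero_ne_one

theorem classSum_identity {n : ℕ} (ρ : Representation ℂ G (Fin n → ℂ)) [ρ.IsIrreducible]
    (h y : G) : (∑ x : G, ρ.character (h * (x * y * x⁻¹))) * ρ.character 1 =
      (Fintype.card G : ℂ) * ρ.character h * ρ.character y := by
  set T : Module.End ℂ (Fin n → ℂ) := ∑ x : G, ρ (x * y * x⁻¹) with hT
  have hcomm : ∀ g, T * ρ g = ρ g * T := by
    intro g
    simp only [hT, sum_mul, mul_sum, ← map_mul]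
    refine Fintype.sum_equiv (Equiv.mulLeft g⁻¹) _ _ fun x => ?_
    simp only [Equiv.coe_mulLeft]
    congr 1
    group
  obtain ⟨c, hc⟩ :=
    (Representation.IsIrreducible.algebraMap_intertwiningMap_bijective_of_isAlgClosed (ρ := ρ)).2
      ⟨T, fun g => hcomm g⟩
  have hc' : T = c • 1 := LinearMap.ext fun v =>
    (congrArg (fun F : Representation.IntertwiningMap ρ ρ => F v) hc).symm
  have h1 : ∀ g, LinearMap.trace ℂ _ (ρ g * T) = c * ρ.character g := fun g => by
    rw [hc', mul_smul_comm, mul_one, map_smul, smul_eq_mul]; rfl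
  have h2 : ∀ g, LinearMap.trace ℂ _ (ρ g * T) =
      ∑ x : G, ρ.character (g * (x * y * x⁻¹)) := fun g => by
    rw [hT, mul_sum, map_sum]
    exact sum_congr rfl fun x _ => by rw [← map_mul]; rfl
  have h0 := h2 1
  rw [h1] at h0
  simp only [one_mul, Representation.char_conj, sum_const, card_univ, nsmul_eq_mul] at h0
  rw [← h2 h, h1]
  linear_combination ρ.character h * h0

include a in
theorem real_of_generous (hsw : ∀ x y : α, ∃ g : G, g • x = y ∧ g • y = x) {χ : G → ℂ}
    (hχ : IsIrrCharacter G χ) (h0 : classInner (perm (G := G) α) χ ≠ 0) (g : G) :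
    conj (χ g) = χ g := by
  classical
  have hc := isCharacter_of_isIrr hχ
  obtain ⟨m, hm, hm'⟩ := exists_mult (G := G) (α := α) a hc
  have hm0 : (m : ℂ) ≠ 0 := by rwa [← hm']
  set H := (univ : Finset G).filter (fun h => h • a = a) with hH
  set s : G → ℂ := fun y => ∑ h ∈ H, χ (h * y) with hs
  have hmemH : ∀ h, h ∈ H ↔ h • a = a := fun h => by simp [hH]
  have hreal : ∀ y, conj (s y) = s y := by
    intro y
    obtain ⟨g, hga, hgy⟩ := hsw a (y • a)
    have hh1 : (y⁻¹ * g) • a = a := by rw [mul_smul, hga, inv_smul_smul]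
    have hh2 : (g * y) • a = a := by rw [mul_smul, hgy]
    -- `y⁻¹` lies in the double coset of `y`
    set h1 := y⁻¹ * g with hh1def
    set h2 := g * y with hh2def
    have hy : y⁻¹ = h1 * y * h2⁻¹ := by rw [hh1def, hh2def]; group
    have hconj : conj (s y) = ∑ h ∈ H, χ (h * y⁻¹) := by
      simp only [hs, map_sum]
      refine sum_nbij' (fun h => h⁻¹) (fun h => h⁻¹) ?_ ?_ (fun _ _ => inv_inv _)
        (fun _ _ => inv_inv _) fun h _ => ?_
      · intro h hh; rw [hmemH] at hh ⊢; rw [inv_smul_eq_iff, hh]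
      · intro h hh; rw [hmemH] at hh ⊢; rw [inv_smul_eq_iff, hh]
      rw [← char_inv hc, ← isClassFunction_of_isIrr hχ (h * y)⁻¹ y]
      congr 1
      group
    rw [hconj, hy]
    refine sum_nbij' (fun h => h2⁻¹ * h * h1) (fun k => h2 * k * h1⁻¹) ?_ ?_
      (fun _ _ => by group) (fun _ _ => by group) fun h _ => ?_
    · intro h hh; rw [hmemH] at hh ⊢; rw [mul_smul, mul_smul, hh1, hh, inv_smul_eq_iff, hh2]
    · intro h hh; rw [hmemH] at hh ⊢
      rw [mul_smul, mul_smul, inv_smul_eq_iff.mpr hh1.symm, hh, hh2]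
    rw [← isClassFunction_of_isIrr hχ (h * (h1 * y * h2⁻¹)) h2⁻¹]
    congr 1
    group
  obtain ⟨n, ρ, hρ, rfl⟩ := hχ
  have hsumH : ∑ h ∈ H, ρ.character h = (Nat.card (stabilizer G a) : ℂ) * m := by
    rw [← hm, conj_natCast_cv, mul_inv_cancel_left₀ (card_stab_ne a)]
  have key : (∑ x : G, s (x * g * x⁻¹)) * ρ.character 1 =
      (Fintype.card G : ℂ) * ((Nat.card (stabilizer G a) : ℂ) * m) * ρ.character g := by
    simp only [hs]
    rw [sum_comm, sum_mul, sum_congr rfl fun h _ => classSum_identity ρ h g, ← hsumH, mul_sum,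
      sum_mul]
  have hk := congrArg conj key
  simp only [map_mul, map_sum, hreal, map_natCast, Representation.char_one] at hk key
  rw [key] at hk
  refine (mul_left_cancel₀ ?_ hk).symm
  exact mul_ne_zero (Nat.cast_ne_zero.mpr Fintype.card_ne_zero) (mul_ne_zero (card_stab_ne a) hm0)

end Cfsg.Agent.Lib.Perm.CharOrbital
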