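import Mathlib.LinearAlgebra.BilinearForm.Properties
import Mathlib.LinearAlgebra.FiniteDimensional.Lemmas
import Mathlib.LinearAlgebra.Dimension.Constructions
import Mathlib.Data.Fintype.EquivFin
import Mathlib.Algebra.CharP.Two
import Mathlib.Tactic.Module
import Mathlib.Tactic.LinearCombination

/-!
Linear maps whose square is a scalar: monomial bases, invariant plane decompositions for
alternating forms, and the distribution of an involution's orbits over blocks of equal size.
-/

set_option autoImplicit false

namespace Cfsg.Agent.Lib.Perm.InvolDecomp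

section Blocks

variable {ι : Type*} [DecidableEq ι] {π : ι → ι}

theorem exists_invariant_subset (hπ : ∀ i, π (π i) = i) :
    ∀ (m : ℕ) (s : Finset ι), (∀ i ∈ s, π i ∈ s) → m ≤ s.card →
      (Even m ∨ ∃ i ∈ s, π i = i) →
      ∃ B ⊆ s, B.card = m ∧ ∀ i ∈ B, π i ∈ B := by
  intro m
  induction m using Nat.strong_induction_on with
  | _ m ih =>
    intro s hs hm hcond
    by_cases hfix : m ≤ (s.filter fun i => π i = i).card
    · obtain ⟨B, hB, hBc⟩ := Finset.exists_subset_card_eq hfix
      refine ⟨B, hB.trans (Finset.filter_subset _ _), hBc, fun i hi => ?_⟩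
      rw [(Finset.mem_filter.1 (hB hi)).2]
      exact hi
    push Not at hfix
    obtain ⟨i, hi, hne⟩ : ∃ i ∈ s, π i ≠ i := by
      by_contra h
      push Not at h
      rw [Finset.filter_true_of_mem h] at hfix
      omega
    have h2 : 2 ≤ m := by
      rcases hcond with h | ⟨j, hj, hjf⟩
      · obtain ⟨r, rfl⟩ := h; omega
      · have : 0 < (s.filter fun i => π i = i).card :=
          Finset.card_pos.2 ⟨j, Finset.mem_filter.2 ⟨hj, hjf⟩⟩
        omega
    set s' := s \ {i, π i}
    have hsub : ({i, π i} : Finset ι) ⊆ s := by
      intro x hx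
      simp only [Finset.mem_insert, Finset.mem_singleton] at hx
      rcases hx with rfl | rfl
      · exact hi
      · exact hs i hi
    have hc : s'.card = s.card - 2 := by
      rw [Finset.card_sdiff_of_subset hsub, Finset.card_pair hne.symm]
    have hs' : ∀ j ∈ s', π j ∈ s' := by
      intro j hj
      simp only [s', Finset.mem_sdiff, Finset.mem_insert, Finset.mem_singleton, not_or] at hj ⊢
      refine ⟨hs j hj.1, fun h => hj.2.2 ?_, fun h => hj.2.1 ?_⟩
      · rw [← h, hπ]
      · rw [← hπ j, h, hπ]
    have hcond' : Even (m - 2) ∨ ∃ j ∈ s', π j = j := by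
      rcases hcond with h | ⟨j, hj, hjf⟩
      · obtain ⟨r, rfl⟩ := h; exact Or.inl ⟨r - 1, by omega⟩
      · refine Or.inr ⟨j, ?_, hjf⟩
        simp only [s', Finset.mem_sdiff, Finset.mem_insert, Finset.mem_singleton, not_or]
        exact ⟨hj, fun h => hne (h ▸ hjf), fun h => hne (by rw [h, hπ] at hjf; exact hjf.symm)⟩
    obtain ⟨B, hB, hBc, hBi⟩ := ih (m - 2) (by omega) s' hs' (by omega) hcond'
    have hd : Disjoint B {i, π i} := Finset.disjoint_of_subset_left hB Finset.sdiff_disjoint
    refine ⟨B ∪ {i, π i}, Finset.union_subset (hB.trans Finset.sdiff_subset) hsub, ?_, ?_⟩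
    · rw [Finset.card_union_of_disjoint hd, hBc, Finset.card_pair hne.symm]; omega
    · intro j hj
      rw [Finset.mem_union] at hj ⊢
      rcases hj with hj | hj
      · exact Or.inl (hBi j hj)
      · refine Or.inr ?_
        simp only [Finset.mem_insert, Finset.mem_singleton] at hj ⊢
        rcases hj with rfl | rfl
        · exact Or.inr rfl
        · exact Or.inl (hπ i)

theorem exists_blocks_aux [Fintype ι] (hπ : ∀ i, π (π i) = i) {a : ℕ} (ha : 0 < a) :
    ∀ (t : ℕ) (s : Finset ι), (∀ i ∈ s, π i ∈ s) → s.card = a * t →
      ∃ (f : ι → ℕ) (σ : ℕ → ℕ), (∀ k, σ (σ k) = k) ∧ (∀ k, k < t → σ k < t) ∧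
        (∀ i ∈ s, f i < t ∧ f (π i) = σ (f i)) ∧
        ∀ k, k < t → (s.filter fun i => f i = k).card = a := by
  intro t
  induction t using Nat.strong_induction_on with
  | _ t ih =>
    intro s hs hcard
    rcases Nat.eq_zero_or_pos t with rfl | ht
    · refine ⟨fun _ => 0, id, fun _ => rfl, fun k hk => hk, fun i hi => ?_, fun k hk => absurd hk (Nat.not_lt_zero k)⟩
      rw [Nat.mul_zero, Finset.card_eq_zero] at hcard
      rw [hcard] at hi
      exact absurd hi (Finset.notMem_empty i)
    have hat : a ≤ s.card := hcard ▸ Nat.le_mul_of_pos_right a ht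
    by_cases hcond : Even a ∨ ∃ i ∈ s, π i = i
    · -- one invariant block
      obtain ⟨B, hB, hBc, hBi⟩ := exists_invariant_subset hπ a s hs hat hcond
      have hBi' : ∀ i, π i ∈ B → i ∈ B := fun i h => hπ i ▸ hBi _ h
      obtain ⟨f, σ, hσ, hσt, hf, hfc⟩ := ih (t - 1) (by omega) (s \ B)
        (fun i hi => by
          rw [Finset.mem_sdiff] at hi ⊢
          exact ⟨hs i hi.1, fun h => hi.2 (hBi' i h)⟩)
        (by rw [Finset.card_sdiff_of_subset hB, hcard, hBc, Nat.mul_sub_one])
      let σ' : ℕ → ℕ := fun k => if k < t - 1 then σ k else k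
      refine ⟨fun i => if i ∈ B then t - 1 else f i, σ', fun k => ?_, fun k hk => ?_,
        fun i hi => ?_, fun k hk => ?_⟩
      · simp only [σ']
        by_cases h : k < t - 1
        · rw [if_pos h, if_pos (hσt k h), hσ]
        · rw [if_neg h, if_neg h]
      · simp only [σ']
        split_ifs with h
        · have := hσt k h; omega
        · exact hk
      · by_cases h : i ∈ B
        · simp only [σ', if_pos h, if_pos (hBi i h)]
          exact ⟨by omega, by rw [if_neg (by omega)]⟩
        · have h1 := hf i (Finset.mem_sdiff.2 ⟨hi, h⟩)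
          simp only [σ', if_neg h, if_neg (fun h' => h (hBi' i h'))]
          rw [if_pos h1.1]
          exact ⟨by omega, h1.2⟩
      · rcases (show k = t - 1 ∨ k < t - 1 by omega) with rfl | hk'
        · rw [← hBc]
          congr 1
          ext i
          simp only [Finset.mem_filter]
          constructor
          · rintro ⟨hi, h⟩
            by_contra hiB
            rw [if_neg hiB] at h
            have := (hf i (Finset.mem_sdiff.2 ⟨hi, hiB⟩)).1
            omega
          · exact fun h => ⟨hB h, if_pos h⟩
        · rw [← hfc k hk']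
          congr 1
          ext i
          simp only [Finset.mem_filter, Finset.mem_sdiff]
          by_cases h : i ∈ B <;> simp [h]
          omega
    · -- two blocks exchanged
      push Not at hcond
      obtain ⟨hodd, hmv⟩ := hcond
      let e := Fintype.equivFin ι
      let R := s.filter fun i => e i < e (π i)
      have hsplit : s = R ∪ R.image π := by
        ext i
        simp only [Finset.mem_union, Finset.mem_image, R, Finset.mem_filter]
        constructor
        · intro hi
          rcases lt_trichotomy (e i) (e (π i)) with h | h | h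
          · exact Or.inl ⟨hi, h⟩
          · exact absurd (e.injective h).symm (hmv i hi)
          · exact Or.inr ⟨π i, ⟨hs i hi, by rwa [hπ]⟩, hπ i⟩
        · rintro (⟨hi, -⟩ | ⟨j, ⟨hj, -⟩, rfl⟩)
          · exact hi
          · exact hs j hj
      have hdisj : Disjoint R (R.image π) := by
        rw [Finset.disjoint_left]
        intro i hi hi'
        obtain ⟨j, hj, rfl⟩ := Finset.mem_image.1 hi'
        simp only [R, Finset.mem_filter, hπ] at hi hj
        exact lt_asymm hi.2 hj.2
      have hinj : Function.Injective π := fun x y h => by rw [← hπ x, h, hπ]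
      have hR : s.card = 2 * R.card := by
        conv_lhs => rw [hsplit]
        rw [Finset.card_union_of_disjoint hdisj, Finset.card_image_of_injective _ hinj]; ring
      have ht2 : 2 ≤ t := by
        by_contra h
        obtain rfl : t = 1 := by omega
        rw [Nat.mul_one, hR] at hcard
        exact hodd ⟨R.card, by omega⟩
      obtain ⟨B, hB, hBc⟩ := Finset.exists_subset_card_eq (s := R) (n := a) (by
        have : 2 * a ≤ 2 * R.card := by
          rw [← hR, hcard, Nat.mul_comm 2 a]
          exact Nat.mul_le_mul_left a ht2
        omega)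
      have hBs : B ⊆ s := hB.trans (Finset.filter_subset _ _)
      have hBd : ∀ i, i ∈ B → π i ∉ B := fun i hi hi' => by
        have h1 := (Finset.mem_filter.1 (hB hi)).2
        have h2 := (Finset.mem_filter.1 (hB hi')).2
        rw [hπ] at h2
        exact lt_asymm h1 h2
      set B2 := B ∪ B.image π
      have hB2c : B2.card = 2 * a := by
        rw [Finset.card_union_of_disjoint (Finset.disjoint_of_subset_left hB
          (Finset.disjoint_of_subset_right (Finset.image_subset_image hB) hdisj)),
          Finset.card_image_of_injective _ hinj, hBc]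
        ring
      have hmem2 : ∀ i, i ∈ B2 ↔ (i ∈ B ∨ π i ∈ B) := fun i => by
        simp only [B2, Finset.mem_union, Finset.mem_image]
        constructor
        · rintro (h | ⟨j, hj, rfl⟩)
          · exact Or.inl h
          · exact Or.inr (by rwa [hπ])
        · rintro (h | h)
          · exact Or.inl h
          · exact Or.inr ⟨π i, h, hπ i⟩
      have hB2s : B2 ⊆ s := fun i hi => by
        rcases (hmem2 i).1 hi with h | h
        · exact hBs h
        · exact hπ i ▸ hs _ (hBs h)
      obtain ⟨f, σ, hσ, hσt, hf, hfc⟩ := ih (t - 2) (by omega) (s \ B2)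
        (fun i hi => by
          rw [Finset.mem_sdiff, hmem2] at hi ⊢
          refine ⟨hs i hi.1, ?_⟩
          rw [hπ]
          tauto)
        (by rw [Finset.card_sdiff_of_subset hB2s, hcard, hB2c, Nat.mul_sub, Nat.mul_comm 2 a])
      let σ' : ℕ → ℕ := fun k => if k < t - 2 then σ k else
        if k = t - 2 then t - 1 else if k = t - 1 then t - 2 else k
      refine ⟨fun i => if i ∈ B then t - 1 else if π i ∈ B then t - 2 else f i, σ', fun k => ?_,
        fun k hk => ?_, fun i hi => ?_, fun k hk => ?_⟩
      · simp only [σ']
        by_cases h : k < t - 2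
        · rw [if_pos h, if_pos (hσt k h), hσ]
        · rw [if_neg h]; split_ifs <;> omega
      · simp only [σ']
        split_ifs with h
        · have := hσt k h; omega
        all_goals omega
      · by_cases h : i ∈ B
        · simp only [σ', if_pos h, if_neg (hBd i h), hπ]
          refine ⟨by omega, ?_⟩
          rw [if_neg (by omega), if_neg (by omega), if_pos trivial]
        by_cases h' : π i ∈ B
        · simp only [σ', if_neg h, if_pos h']
          refine ⟨by omega, ?_⟩
          rw [if_neg (by omega), if_pos trivial]
        · have h1 := hf i (Finset.mem_sdiff.2 ⟨hi, by rw [hmem2]; tauto⟩)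
          simp only [σ', if_neg h, if_neg h', hπ]
          rw [if_pos h1.1]
          exact ⟨by omega, h1.2⟩
      · rcases (show k = t - 1 ∨ k = t - 2 ∨ k < t - 2 by omega) with rfl | rfl | hk'
        · rw [← hBc]
          congr 1
          ext i
          simp only [Finset.mem_filter]
          refine ⟨fun ⟨hi, h⟩ => ?_, fun h => ⟨hBs h, if_pos h⟩⟩
          by_contra hiB
          rw [if_neg hiB] at h
          split_ifs at h with h'
          · omega
          · have := (hf i (Finset.mem_sdiff.2 ⟨hi, by rw [hmem2]; tauto⟩)).1
            omega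
        · rw [← hBc, ← Finset.card_image_of_injective B hinj]
          congr 1
          ext i
          simp only [Finset.mem_filter, Finset.mem_image]
          constructor
          · rintro ⟨hi, h⟩
            refine ⟨π i, ?_, hπ i⟩
            by_contra hiB
            split_ifs at h with h'
            · omega
            · have := (hf i (Finset.mem_sdiff.2 ⟨hi, by rw [hmem2]; tauto⟩)).1
              omega
          · rintro ⟨j, hj, rfl⟩
            refine ⟨hs j (hBs hj), ?_⟩
            rw [if_neg (hBd j hj), hπ, if_pos hj]
        · rw [← hfc k hk']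
          congr 1
          ext i
          simp only [Finset.mem_filter, Finset.mem_sdiff, hmem2]
          by_cases h : i ∈ B
          · simp [h]; omega
          by_cases h' : π i ∈ B
          · simp [h, h']; omega
          · simp [h, h']

/-- The orbits of an involution can be distributed over `t` blocks of size `a` permuted by it. -/
theorem exists_blocks [Fintype ι] (hπ : ∀ i, π (π i) = i) {a t : ℕ} (ha : 0 < a)
    (hcard : Fintype.card ι = a * t) :
    ∃ (f : ι → Fin t) (σ : Equiv.Perm (Fin t)), (∀ i, f (π i) = σ (f i)) ∧
      ∀ k, (Finset.univ.filter fun i => f i = k).card = a := by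
  obtain ⟨f, σ, hσ, hσt, hf, hfc⟩ := exists_blocks_aux hπ ha t Finset.univ
    (fun i _ => Finset.mem_univ _) (by rw [Finset.card_univ, hcard])
  have hinv : Function.Involutive fun k : Fin t => (⟨σ k, hσt k k.2⟩ : Fin t) :=
    fun k => Fin.ext (hσ k)
  refine ⟨fun i => ⟨f i, (hf i (Finset.mem_univ _)).1⟩, hinv.toPerm _,
    fun i => Fin.ext (hf i (Finset.mem_univ _)).2, fun k => ?_⟩
  rw [← hfc k k.2]
  congr 1
  ext i
  simp [Fin.ext_iff]

end Blocks

section Linear

variable {F V : Type*} [Field F] [AddCommGroup V] [Module F V] [FiniteDimensional F V]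

/-- A linear map with scalar square has a monomial basis for an involution. -/
theorem exists_monomial_basis (g : V →ₗ[F] V) {z : F} (hz : z ≠ 0) (hg : ∀ v, g (g v) = z • v)
    (hsq : (2 : F) = 0 → IsSquare z) :
    ∃ (n : ℕ) (b : Module.Basis (Fin n) F V) (π : Fin n → Fin n), (∀ i, π (π i) = i) ∧
      ∀ i, ∃ c : F, g (b i) = c • b (π i) := by
  suffices h : ∃ (ι : Type) (_ : Fintype ι) (b : ι → V) (π : ι → ι), LinearIndependent F b ∧
      (⊤ : Submodule F V) ≤ Submodule.span F (Set.range b) ∧ (∀ i, π (π i) = i) ∧
      ∀ i, ∃ c : F, g (b i) = c • b (π i) by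
    obtain ⟨ι, _, b, π, hli, hsp, hπ, hb⟩ := h
    let e := Fintype.equivFin ι
    refine ⟨Fintype.card ι, (Module.Basis.mk hli hsp).reindex e, fun i => e (π (e.symm i)),
      fun i => by simp [hπ], fun i => ?_⟩
    obtain ⟨c, hc⟩ := hb (e.symm i)
    exact ⟨c, by simp [hc]⟩
  by_cases hs : IsSquare z
  · obtain ⟨c, hc⟩ := hs
    have hc0 : c ≠ 0 := fun h => hz (by simp [hc, h])
    by_cases h2 : (2 : F) = 0
    · -- a square-zero part
      set N : V →ₗ[F] V := g - c • LinearMap.id with hN
      have hgN : ∀ v, g v = c • v + N v := fun v => by simp [hN]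
      have hNN : ∀ v, N (N v) = 0 := by
        intro v
        simp only [hN, LinearMap.sub_apply, LinearMap.smul_apply, LinearMap.id_apply, map_sub,
          map_smul, hg, hc]
        linear_combination (norm := module) h2 • ((c * c) • v - c • g v)
      obtain ⟨C, hC⟩ := Submodule.exists_isCompl (LinearMap.ker N)
      let bC := Module.finBasis F C
      let u : Fin (Module.finrank F C) → V := fun i => bC i
      have hu : LinearIndependent F u :=
        bC.linearIndependent.map' C.subtype (Submodule.ker_subtype C)
      have huspan : Submodule.span F (Set.range u) = C := by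
        rw [show Set.range u = C.subtype '' Set.range bC by
          rw [← Set.range_comp]; rfl, Submodule.span_image, bC.span_eq, Submodule.map_top,
          Submodule.range_subtype]
      have hinj : ∀ x ∈ C, N x = 0 → x = 0 := fun x hx h =>
        (Submodule.mem_bot F).1 (hC.inf_eq_bot ▸ ⟨h, hx⟩)
      set R := Submodule.span F (Set.range fun i => N (u i)) with hR
      have hRk : R ≤ LinearMap.ker N := by
        rw [hR, Submodule.span_le]
        rintro _ ⟨i, rfl⟩
        exact hNN (u i)
      obtain ⟨E, hE⟩ := Submodule.exists_isCompl (R.comap (LinearMap.ker N).subtype)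
      let bE := Module.finBasis F E
      let w : Fin (Module.finrank F E) → V := fun i => ((bE i : LinearMap.ker N) : V)
      let b : (Fin (Module.finrank F C) ⊕ Fin (Module.finrank F C)) ⊕ Fin (Module.finrank F E) → V :=
        Sum.elim (Sum.elim u fun i => g (u i)) w
      refine ⟨_, inferInstance, b, Sum.map Sum.swap id, ?_, ?_, ?_, ?_⟩
      · rw [Fintype.linearIndependent_iff]
        intro l hl
        simp only [Fintype.sum_sum_type, b, Sum.elim_inl, Sum.elim_inr, hgN, smul_add, smul_smul,
          Finset.sum_add_distrib] at hl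
        have hw0 : ∀ i, N (w i) = 0 := fun i => (bE i : LinearMap.ker N).2
        have h1 : ∑ i, (l (.inl (.inl i)) + l (.inl (.inr i)) * c) • u i = 0 := by
          refine hinj _ (Submodule.sum_mem _ fun i _ => C.smul_mem _ (bC i).2) ?_
          have h := congrArg N hl
          simp only [map_add, map_sum, map_smul, hNN, hw0, smul_zero, Finset.sum_const_zero,
            add_zero, map_zero] at h
          simp only [map_add, map_sum, map_smul, add_smul, Finset.sum_add_distrib]
          linear_combination (norm := module) h
        have h1' := Fintype.linearIndependent_iff.1 hu _ h1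
        have h2' : ∑ i, l (.inl (.inr i)) • N (u i) + ∑ i, l (.inr i) • w i = 0 := by
          rw [← hl]
          rw [Finset.sum_congr rfl (fun i _ => add_smul (l (.inl (.inl i)))
            (l (.inl (.inr i)) * c) (u i)), Finset.sum_add_distrib] at h1
          linear_combination (norm := module) - h1
        set y : LinearMap.ker N := ∑ i, l (.inr i) • (bE i : LinearMap.ker N) with hy
        have hyR : y ∈ R.comap (LinearMap.ker N).subtype := by
          have hyv : (y : V) = ∑ i, l (.inr i) • w i := by simp [hy, w]
          show (y : V) ∈ R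
          rw [hyv, show (∑ i, l (.inr i) • w i) = -∑ i, l (.inl (.inr i)) • N (u i) from
            eq_neg_of_add_eq_zero_right h2']
          exact R.neg_mem (Submodule.sum_mem _ fun i _ =>
            R.smul_mem _ (Submodule.subset_span ⟨i, rfl⟩))
        have hy0 : y = 0 := (Submodule.mem_bot F).1 (hE.inf_eq_bot ▸
          ⟨hyR, Submodule.sum_mem _ fun i _ => E.smul_mem _ (bE i).2⟩)
        have hl3 : ∀ i, l (.inr i) = 0 := by
          have : LinearIndependent F fun i => (bE i : LinearMap.ker N) :=
            bE.linearIndependent.map' E.subtype (Submodule.ker_subtype E)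
          exact Fintype.linearIndependent_iff.1 this _ hy0
        simp only [hl3, zero_smul, Finset.sum_const_zero, add_zero] at h2'
        have h4 : ∑ i, l (.inl (.inr i)) • u i = 0 := by
          refine hinj _ (Submodule.sum_mem _ fun i _ => C.smul_mem _ (bC i).2) ?_
          simpa [map_sum] using h2'
        have hl2 := Fintype.linearIndependent_iff.1 hu _ h4
        rintro ((i | i) | i)
        · simpa [hl2 i] using h1' i
        · exact hl2 i
        · exact hl3 i
      · set S := Submodule.span F (Set.range b)
        have hu' : ∀ i, u i ∈ S := fun i => Submodule.subset_span ⟨.inl (.inl i), rfl⟩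
        have hCS : C ≤ S := by
          rw [← huspan, Submodule.span_le]; rintro _ ⟨i, rfl⟩; exact hu' i
        have hRS : R ≤ S := by
          rw [hR, Submodule.span_le]
          rintro _ ⟨i, rfl⟩
          have h : g (u i) ∈ S := Submodule.subset_span ⟨.inl (.inr i), rfl⟩
          have := S.sub_mem h (S.smul_mem c (hu' i))
          rwa [hgN, add_sub_cancel_left] at this
        have hES : E.map (LinearMap.ker N).subtype ≤ S := by
          rw [show E.map (LinearMap.ker N).subtype = Submodule.span F (Set.range w) by
            rw [show Set.range w = (LinearMap.ker N).subtype '' (E.subtype '' Set.range bE) by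
              rw [← Set.range_comp, ← Set.range_comp]; rfl, Submodule.span_image,
              Submodule.span_image, bE.span_eq, Submodule.map_top, Submodule.range_subtype],
            Submodule.span_le]
          rintro _ ⟨i, rfl⟩
          exact Submodule.subset_span ⟨.inr i, rfl⟩
        have hker : LinearMap.ker N ≤ S := by
          intro x hx
          have hx' : (⟨x, hx⟩ : LinearMap.ker N) ∈ R.comap (LinearMap.ker N).subtype ⊔ E :=
            hE.sup_eq_top ▸ Submodule.mem_top
          obtain ⟨r, hr, e, he, hre⟩ := Submodule.mem_sup.1 hx'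
          rw [show x = (r : V) + (e : V) from (congrArg Subtype.val hre).symm]
          exact S.add_mem (hRS hr) (hES ⟨e, he, rfl⟩)
        rw [← hC.sup_eq_top]
        exact sup_le hker hCS
      · rintro ((i | i) | i) <;> rfl
      · rintro ((i | i) | i)
        · exact ⟨1, by simp [b]⟩
        · exact ⟨z, by simp [b, hg]⟩
        · refine ⟨c, ?_⟩
          have := hgN (w i)
          rw [show N (w i) = 0 from (bE i : LinearMap.ker N).2, add_zero] at this
          simpa [b] using this
    · -- two eigenspaces
      set P := LinearMap.ker (g - c • LinearMap.id)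
      set M := LinearMap.ker (g + c • LinearMap.id)
      have hP : ∀ v, v ∈ P ↔ g v = c • v := fun v => by simp [P, sub_eq_zero]
      have hM : ∀ v, v ∈ M ↔ g v = -(c • v) := fun v => by simp [M, add_eq_zero_iff_eq_neg]
      have h2c : (2 * c : F) ≠ 0 := mul_ne_zero h2 hc0
      let bP := Module.finBasis F P
      let bM := Module.finBasis F M
      let b : Fin (Module.finrank F P) ⊕ Fin (Module.finrank F M) → V :=
        Sum.elim (fun i => bP i) (fun i => bM i)
      refine ⟨_, inferInstance, b, id, ?_, ?_, fun _ => rfl, ?_⟩
      · refine LinearIndependent.sum_type (bP.linearIndependent.map' P.subtype P.ker_subtype)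
          (bM.linearIndependent.map' M.subtype M.ker_subtype) ?_
        rw [Submodule.disjoint_def]
        intro x hx hx'
        have hxP : x ∈ P := by
          refine Submodule.span_le.2 ?_ hx
          rintro _ ⟨i, rfl⟩; exact (bP i).2
        have hxM : x ∈ M := by
          refine Submodule.span_le.2 ?_ hx'
          rintro _ ⟨i, rfl⟩; exact (bM i).2
        rw [hP] at hxP
        rw [hM] at hxM
        have : (2 * c) • x = 0 := by linear_combination (norm := module) hxM - hxP
        exact (smul_eq_zero.1 this).resolve_left h2c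
      · intro v _
        set x := (2 * c)⁻¹ • (c • v + g v) with hxdef
        set y := (2 * c)⁻¹ • (c • v - g v) with hydef
        have hx : x ∈ P := by
          rw [hP, hxdef, map_smul, map_add, map_smul, hg, hc]
          module
        have hy : y ∈ M := by
          rw [hM, hydef, map_smul, map_sub, map_smul, hg, hc]
          module
        have hv : v = x + y := by
          rw [hxdef, hydef, ← smul_add, show c • v + g v + (c • v - g v) = (2 * c) • v by module,
            inv_smul_smul₀ h2c]
        rw [hv, Set.Sum.elim_range, Submodule.span_union]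
        refine Submodule.add_mem_sup ?_ ?_
        · rw [show (Set.range fun i => (bP i : V)) = P.subtype '' Set.range bP by
            rw [← Set.range_comp]; rfl, Submodule.span_image, bP.span_eq, Submodule.map_top,
            Submodule.range_subtype]
          exact hx
        · rw [show (Set.range fun i => (bM i : V)) = M.subtype '' Set.range bM by
            rw [← Set.range_comp]; rfl, Submodule.span_image, bM.span_eq, Submodule.map_top,
            Submodule.range_subtype]
          exact hy
      · rintro (i | i)
        · exact ⟨c, by simpa [b] using (hP _).1 (bP i).2⟩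
        · exact ⟨-c, by simpa [b] using (hM _).1 (bM i).2⟩
  · -- no eigenvalue
    classical
    let Good : ℕ → Prop := fun k => ∃ u : Fin k → V,
      LinearIndependent F (Sum.elim u fun i => g (u i))
    have hG0 : Good 0 := ⟨Fin.elim0, linearIndependent_empty_type⟩
    have hbd : ∀ k, Good k → k ≤ Module.finrank F V := by
      rintro k ⟨u, hu⟩
      have := hu.fintype_card_le_finrank
      simp only [Fintype.card_sum, Fintype.card_fin] at this
      omega
    obtain ⟨u, hu⟩ : Good (Nat.findGreatest Good (Module.finrank F V)) :=
      Nat.findGreatest_spec (Nat.zero_le _) hG0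
    refine ⟨_, inferInstance, Sum.elim u fun i => g (u i), Sum.swap, hu, ?_,
      fun i => Sum.swap_swap i, ?_⟩
    · intro v _
      by_contra hv
      set S := Submodule.span F (Set.range (Sum.elim u fun i => g (u i))) with hS
      have hSg : ∀ x ∈ S, g x ∈ S := by
        intro x hx
        refine Submodule.span_induction ?_ (by simp) (fun a b _ _ ha hb => by
          simpa using S.add_mem ha hb) (fun r a _ ha => by simpa using S.smul_mem r ha) hx
        rintro _ ⟨i | i, rfl⟩
        · exact Submodule.subset_span ⟨.inr i, rfl⟩
        · simp only [Sum.elim_inr, hg]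
          exact S.smul_mem z (Submodule.subset_span ⟨.inl i, rfl⟩)
      have key : ∀ α β : F, α • v + β • g v ∈ S → α = 0 ∧ β = 0 := by
        intro α β h
        have h' := hSg _ h
        simp only [map_add, map_smul, hg] at h'
        have h3 : (α * α - β * β * z) • v ∈ S := by
          have := S.sub_mem (S.smul_mem α h) (S.smul_mem β h')
          convert this using 1
          module
        rcases eq_or_ne (α * α - β * β * z) 0 with h4 | h4
        · by_cases hβ : β = 0
          · subst hβ; exact ⟨by simpa using h4, rfl⟩
          · exact absurd ⟨α / β, by field_simp; linear_combination -h4⟩ hs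
        · exact absurd (by simpa [smul_smul, h4] using S.smul_mem (α * α - β * β * z)⁻¹ h3) hv
      have hG1 : Good (Nat.findGreatest Good (Module.finrank F V) + 1) := by
        refine ⟨Fin.snoc u v, ?_⟩
        rw [Fintype.linearIndependent_iff]
        intro l hl
        simp only [Fintype.sum_sum_type, Fin.sum_univ_castSucc, Sum.elim_inl, Sum.elim_inr,
          Fin.snoc_castSucc, Fin.snoc_last] at hl
        obtain ⟨hα, hβ⟩ := key (l (.inl (Fin.last _))) (l (.inr (Fin.last _))) (by
          have e : l (.inl (Fin.last _)) • v + l (.inr (Fin.last _)) • g v =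
              -((∑ i : Fin (Nat.findGreatest Good (Module.finrank F V)),
                l (.inl i.castSucc) • u i) + ∑ i : Fin (Nat.findGreatest Good (Module.finrank F V)),
                l (.inr i.castSucc) • g (u i)) := by
            linear_combination (norm := module) hl
          rw [e]
          exact S.neg_mem (S.add_mem
            (Submodule.sum_mem _ fun i _ => S.smul_mem _ (Submodule.subset_span ⟨.inl i, rfl⟩))
            (Submodule.sum_mem _ fun i _ => S.smul_mem _ (Submodule.subset_span ⟨.inr i, rfl⟩))))
        simp only [hα, hβ, zero_smul, add_zero] at hl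
        have := Fintype.linearIndependent_iff.1 hu
          (Sum.elim (fun i => l (.inl i.castSucc)) fun i => l (.inr i.castSucc))
          (by simpa [Fintype.sum_sum_type] using hl)
        rintro (i | i) <;> induction i using Fin.lastCases with
        | last => first | exact hα | exact hβ
        | cast i => first | exact this (.inl i) | exact this (.inr i)
      have := Nat.le_findGreatest (hbd _ hG1) hG1
      omega
    · rintro (i | i)
      · exact ⟨1, by simp⟩
      · exact ⟨z, by simp [hg]⟩

variable (B : LinearMap.BilinForm F V)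

/-- A family of hyperbolic planes, permuted by `g` according to an involution. -/
structure Planes (g : V →ₗ[F] V) (E : V → V → Prop) (k : ℕ) where
  u : Fin k → V
  v : Fin k → V
  π : Fin k → Fin k
  invol : ∀ i, π (π i) = i
  one : ∀ i, B (u i) (v i) = 1
  orth : ∀ i j, i ≠ j → B (u i) (u j) = 0 ∧ B (u i) (v j) = 0 ∧ B (v i) (u j) = 0 ∧
    B (v i) (v j) = 0
  map_u : ∀ i, g (u i) ∈ Submodule.span F ({u (π i), v (π i)} : Set V)
  map_v : ∀ i, g (v i) ∈ Submodule.span F ({u (π i), v (π i)} : Set V)
  prop : ∀ i, E (u i) (v i)

variable {B}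
variable {g : V →ₗ[F] V} {E : V → V → Prop} {k : ℕ}

namespace Planes

/-- The span of the planes. -/
def sp (P : Planes B g E k) : Submodule F V := Submodule.span F (Set.range P.u ∪ Set.range P.v)

theorem sum_smul_apply (P : Planes B g E k) (hA : B.IsAlt) (α β : Fin k → F) (i : Fin k) :
    B (∑ j, α j • P.u j + ∑ j, β j • P.v j) (P.v i) = α i ∧
      B (∑ j, α j • P.u j + ∑ j, β j • P.v j) (P.u i) = - β i := by
  have hvu : B (P.v i) (P.u i) = -1 := by rw [← hA.neg_eq, P.one]
  constructor <;>
    · simp only [map_add, map_sum, map_smul, LinearMap.add_apply, LinearMap.sum_apply,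
        LinearMap.smul_apply, smul_eq_mul]
      rw [Finset.sum_eq_single i, Finset.sum_eq_single i] <;>
        simp +contextual [P.one, hvu, hA.self_eq_zero, P.orth]

theorem linearIndependent (P : Planes B g E k) (hA : B.IsAlt) :
    LinearIndependent F (Sum.elim P.u P.v) := by
  rw [Fintype.linearIndependent_iff]
  intro l hl
  simp only [Fintype.sum_sum_type, Sum.elim_inl, Sum.elim_inr] at hl
  rintro (i | i)
  · have h := (P.sum_smul_apply hA (fun j => l (.inl j)) (fun j => l (.inr j)) i).1
    rw [hl, map_zero, LinearMap.zero_apply] at h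
    exact h.symm
  · have h := (P.sum_smul_apply hA (fun j => l (.inl j)) (fun j => l (.inr j)) i).2
    rw [hl, map_zero, LinearMap.zero_apply] at h
    exact neg_eq_zero.1 h.symm

theorem two_mul_le (P : Planes B g E k) (hA : B.IsAlt) : 2 * k ≤ Module.finrank F V := by
  have := (P.linearIndependent hA).fintype_card_le_finrank
  simp only [Fintype.card_sum, Fintype.card_fin] at this
  omega

theorem map_sp (P : Planes B g E k) : P.sp.map g ≤ P.sp := by
  rw [sp, Submodule.map_span, Submodule.span_le]
  rintro _ ⟨x, hx, rfl⟩
  have hle : ∀ i, Submodule.span F ({P.u i, P.v i} : Set V) ≤ P.sp := fun i => by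
    rw [Submodule.span_le]
    rintro _ (rfl | rfl)
    · exact Submodule.subset_span (Or.inl ⟨i, rfl⟩)
    · exact Submodule.subset_span (Or.inr ⟨i, rfl⟩)
  rcases hx with ⟨i, rfl⟩ | ⟨i, rfl⟩
  · exact hle _ (P.map_u i)
  · exact hle _ (P.map_v i)

theorem orth_sp (P : Planes B g E k) {w : V} (hw : ∀ i, B w (P.u i) = 0 ∧ B w (P.v i) = 0) :
    ∀ y ∈ P.sp, B w y = 0 := by
  intro y hy
  refine Submodule.span_induction ?_ (by simp) (fun a b _ _ ha hb => by simp [ha, hb])
    (fun r a _ ha => by simp [ha]) hy
  rintro _ (⟨i, rfl⟩ | ⟨i, rfl⟩)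
  exacts [(hw i).1, (hw i).2]

/-- The component orthogonal to the planes. -/
theorem exists_proj (P : Planes B g E k) (hA : B.IsAlt) (y : V) :
    ∃ p ∈ P.sp, ∀ i, B (y - p) (P.u i) = 0 ∧ B (y - p) (P.v i) = 0 := by
  refine ⟨∑ j, B y (P.v j) • P.u j + ∑ j, (-B y (P.u j)) • P.v j,
    P.sp.add_mem (Submodule.sum_mem _ fun i _ => P.sp.smul_mem _ (Submodule.subset_span (Or.inl ⟨i, rfl⟩)))
      (Submodule.sum_mem _ fun i _ => P.sp.smul_mem _ (Submodule.subset_span (Or.inr ⟨i, rfl⟩))),
    fun i => ?_⟩
  have h := P.sum_smul_apply hA (fun j => B y (P.v j)) (fun j => -B y (P.u j)) i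
  rw [map_sub, LinearMap.sub_apply, LinearMap.sub_apply, h.1, h.2]
  exact ⟨by ring, by ring⟩

/-- Add a plane fixed by `g`. -/
theorem extend_one (P : Planes B g E k) (hA : B.IsAlt) {a b : V} (hab : B a b = 1)
    (ha : ∀ i, B a (P.u i) = 0 ∧ B a (P.v i) = 0) (hb : ∀ i, B b (P.u i) = 0 ∧ B b (P.v i) = 0)
    (hga : g a ∈ Submodule.span F ({a, b} : Set V)) (hgb : g b ∈ Submodule.span F ({a, b} : Set V))
    (hE : E a b) : Nonempty (Planes B g E (k + 1)) := by
  have ha' : ∀ i, B (P.u i) a = 0 ∧ B (P.v i) a = 0 := fun i => by
    rw [← hA.neg_eq a, ← hA.neg_eq a]; simp [ha i]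
  have hb' : ∀ i, B (P.u i) b = 0 ∧ B (P.v i) b = 0 := fun i => by
    rw [← hA.neg_eq b, ← hA.neg_eq b]; simp [hb i]
  refine ⟨⟨Fin.snoc P.u a, Fin.snoc P.v b, Fin.snoc (fun i => (P.π i).castSucc) (Fin.last k),
    fun i => ?_, fun i => ?_, fun i j hij => ?_, fun i => ?_, fun i => ?_, fun i => ?_⟩⟩
  · induction i using Fin.lastCases with
    | last => simp
    | cast i => simp [P.invol]
  · induction i using Fin.lastCases with
    | last => simpa using hab
    | cast i => simpa using P.one i
  · induction i using Fin.lastCases with
    | last =>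
      induction j using Fin.lastCases with
      | last => exact absurd rfl hij
      | cast j => simp [ha j, hb j]
    | cast i =>
      induction j using Fin.lastCases with
      | last => simp [ha' i, hb' i]
      | cast j => simpa using P.orth i j (fun h => hij (h ▸ rfl))
  · induction i using Fin.lastCases with
    | last => simpa using hga
    | cast i => simpa using P.map_u i
  · induction i using Fin.lastCases with
    | last => simpa using hgb
    | cast i => simpa using P.map_v i
  · induction i using Fin.lastCases with
    | last => simpa using hE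
    | cast i => simpa using P.prop i

/-- Add a pair of orthogonal planes exchanged by `g`. -/
theorem extend_two (P : Planes B g E k) (hA : B.IsAlt) {a b : V}
    (hg2 : ∀ x, g (g x) = x) (hiso : ∀ x y, B (g x) (g y) = B x y) (hab : B a b = 1)
    (hcross : B a (g a) = 0 ∧ B a (g b) = 0 ∧ B b (g a) = 0 ∧ B b (g b) = 0)
    (ha : ∀ i, B a (P.u i) = 0 ∧ B a (P.v i) = 0) (hb : ∀ i, B b (P.u i) = 0 ∧ B b (P.v i) = 0)
    (hga : ∀ i, B (g a) (P.u i) = 0 ∧ B (g a) (P.v i) = 0)
    (hgb : ∀ i, B (g b) (P.u i) = 0 ∧ B (g b) (P.v i) = 0)
    (hE : E a b ∧ E (g a) (g b)) : Nonempty (Planes B g E (k + 1 + 1)) := by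
  have opp : ∀ {x y : V}, B x y = 0 → B y x = 0 := fun {x y} h => by rw [← hA.neg_eq, h, neg_zero]
  obtain ⟨c1, c2, c3, c4⟩ := hcross
  refine ⟨⟨Fin.snoc (Fin.snoc P.u a) (g a), Fin.snoc (Fin.snoc P.v b) (g b),
    Fin.snoc (Fin.snoc (fun i => (P.π i).castSucc.castSucc) (Fin.last (k + 1)))
      (Fin.last k).castSucc,
    fun i => ?_, fun i => ?_, fun i j hij => ?_, fun i => ?_, fun i => ?_, fun i => ?_⟩⟩
  · induction i using Fin.lastCases with
    | last => simp
    | cast i =>
      induction i using Fin.lastCases with
      | last => simp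
      | cast i => simp [P.invol]
  · induction i using Fin.lastCases with
    | last => simpa [hiso] using hab
    | cast i =>
      induction i using Fin.lastCases with
      | last => simpa using hab
      | cast i => simpa using P.one i
  · induction i using Fin.lastCases with
    | last =>
      induction j using Fin.lastCases with
      | last => exact absurd rfl hij
      | cast j =>
        induction j using Fin.lastCases with
        | last => simp [opp c1, opp c2, opp c3, opp c4]
        | cast j => simp [hga j, hgb j]
    | cast i =>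
      induction i using Fin.lastCases with
      | last =>
        induction j using Fin.lastCases with
        | last => simp [c1, c2, c3, c4]
        | cast j =>
          induction j using Fin.lastCases with
          | last => exact absurd rfl hij
          | cast j => simp [ha j, hb j]
      | cast i =>
        induction j using Fin.lastCases with
        | last => simp [opp (hga i).1, opp (hga i).2, opp (hgb i).1, opp (hgb i).2]
        | cast j =>
          induction j using Fin.lastCases with
          | last => simp [opp (ha i).1, opp (ha i).2, opp (hb i).1, opp (hb i).2]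
          | cast j => simpa using P.orth i j (fun h => hij (h ▸ rfl))
  · induction i using Fin.lastCases with
    | last => simpa [hg2] using Submodule.subset_span (R := F) (Set.mem_insert a {b})
    | cast i =>
      induction i using Fin.lastCases with
      | last => simpa using Submodule.subset_span (R := F) (Set.mem_insert (g a) {g b})
      | cast i => simpa using P.map_u i
  · induction i using Fin.lastCases with
    | last => simpa [hg2] using Submodule.subset_span (R := F) (Set.mem_insert_of_mem a (Set.mem_singleton b))
    | cast i =>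
      induction i using Fin.lastCases with
      | last => simpa using Submodule.subset_span (R := F) (Set.mem_insert_of_mem (g a) (Set.mem_singleton (g b)))
      | cast i => simpa using P.map_v i
  · induction i using Fin.lastCases with
    | last => simpa using hE.2
    | cast i =>
      induction i using Fin.lastCases with
      | last => simpa using hE.1
      | cast i => simpa using P.prop i

end Planes

/-- The condition on a new set of planes inside an invariant subspace `W` with nondegenerate form. -/
def HasStep (B : LinearMap.BilinForm F V) (g : V →ₗ[F] V) (E : V → V → Prop) : Prop :=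
  ∀ W : Submodule F V, (∀ x ∈ W, g x ∈ W) → (∀ x ∈ W, x ≠ 0 → ∃ y ∈ W, B x y ≠ 0) → W ≠ ⊥ →
    (∃ a ∈ W, ∃ b ∈ W, B a b = 1 ∧ g a ∈ Submodule.span F ({a, b} : Set V) ∧
      g b ∈ Submodule.span F ({a, b} : Set V) ∧ E a b) ∨
    (∃ a ∈ W, ∃ b ∈ W, B a b = 1 ∧ (∀ x, g (g x) = x) ∧
      (B a (g a) = 0 ∧ B a (g b) = 0 ∧ B b (g a) = 0 ∧ B b (g b) = 0) ∧ E a b ∧ E (g a) (g b))

/-- If there is always a step, then the whole space is a sum of planes. -/
theorem exists_planes (hA : B.IsAlt) (hnd : B.Nondegenerate) (hg : Function.Injective g)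
    (hiso : ∀ x y, B (g x) (g y) = B x y) (hstep : HasStep B g E) :
    ∃ (k : ℕ) (P : Planes B g E k), P.sp = ⊤ ∧ 2 * k = Module.finrank F V := by
  classical
  let Good : ℕ → Prop := fun k => Nonempty (Planes B g E k)
  have hG0 : Good 0 := ⟨⟨Fin.elim0, Fin.elim0, Fin.elim0, fun i => i.elim0, fun i => i.elim0,
    fun i => i.elim0, fun i => i.elim0, fun i => i.elim0, fun i => i.elim0⟩⟩
  have hbd : ∀ k, Good k → k ≤ Module.finrank F V := fun k ⟨P⟩ => by
    have := P.two_mul_le hA; omega
  obtain ⟨P⟩ : Good (Nat.findGreatest Good (Module.finrank F V)) :=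
    Nat.findGreatest_spec (Nat.zero_le _) hG0
  set k := Nat.findGreatest Good (Module.finrank F V) with hk
  have htop : P.sp = ⊤ := by
    by_contra hne
    let W : Submodule F V :=
      { carrier := {w | ∀ i, B w (P.u i) = 0 ∧ B w (P.v i) = 0}
        add_mem' := fun {a b} ha hb i => by simp [ha i, hb i]
        zero_mem' := fun i => by simp
        smul_mem' := fun c a ha i => by simp [ha i] }
    have hsurj : ∀ y ∈ P.sp, ∃ x ∈ P.sp, g x = y := by
      intro y hy
      have heq : P.sp.map g = P.sp := Submodule.eq_of_le_of_finrank_le P.map_sp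
        (le_of_eq (LinearEquiv.finrank_eq (Submodule.equivMapOfInjective g hg P.sp)))
      rw [← heq] at hy
      exact hy
    have hWg : ∀ x ∈ W, g x ∈ W := by
      intro x hx i
      constructor
      · obtain ⟨y, hy, he⟩ := hsurj _ (Submodule.subset_span (Or.inl ⟨i, rfl⟩) : P.u i ∈ P.sp)
        rw [← he, hiso]
        exact P.orth_sp hx y hy
      · obtain ⟨y, hy, he⟩ := hsurj _ (Submodule.subset_span (Or.inr ⟨i, rfl⟩) : P.v i ∈ P.sp)
        rw [← he, hiso]
        exact P.orth_sp hx y hy
    have hWnd : ∀ x ∈ W, x ≠ 0 → ∃ y ∈ W, B x y ≠ 0 := by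
      intro x hx hx0
      obtain ⟨y, hy⟩ : ∃ y, B x y ≠ 0 := by
        by_contra h
        push Not at h
        exact hx0 (hnd.1 x h)
      obtain ⟨p, hp, hpp⟩ := P.exists_proj hA y
      exact ⟨y - p, hpp, by rw [map_sub, P.orth_sp hx p hp, sub_zero]; exact hy⟩
    have hW0 : W ≠ ⊥ := by
      intro h
      refine hne (top_unique fun y _ => ?_)
      obtain ⟨p, hp, hpp⟩ := P.exists_proj hA y
      have : y - p ∈ W := hpp
      rw [h, Submodule.mem_bot, sub_eq_zero] at this
      exact this ▸ hp
    rcases hstep W hWg hWnd hW0 with ⟨a, ha, b, hb, hab, hga, hgb, hE⟩ |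
        ⟨a, ha, b, hb, hab, hg2, hc, hE⟩
    · have h : Good (k + 1) := P.extend_one hA hab ha hb hga hgb hE
      have := Nat.le_findGreatest (hbd _ h) h
      omega
    · have h : Good (k + 1 + 1) := P.extend_two hA hg2 hiso hab hc ha hb (hWg a ha) (hWg b hb) hE
      have := Nat.le_findGreatest (hbd _ h) h
      omega
  refine ⟨k, P, htop, ?_⟩
  rw [← finrank_top F V, ← htop, Planes.sp, ← Set.Sum.elim_range,
    finrank_span_eq_card (P.linearIndependent hA)]
  simp [two_mul]

/-- Odd characteristic: planes spanned by eigenvectors, or by lines exchanged by `g`. -/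
theorem hasStep_odd (hA : B.IsAlt) (h2 : (2 : F) ≠ 0) {z : F} (hg : ∀ v, g (g v) = z • v)
    (hz : z = 1 ∨ z = -1) (hiso : ∀ x y, B (g x) (g y) = B x y) :
    (IsSquare z → HasStep B g fun u v => g u ∈ Submodule.span F {u} ∧ g v ∈ Submodule.span F {v}) ∧
    (¬ IsSquare z → HasStep B g fun u v => g u ∈ Submodule.span F {v} ∧ g v ∈ Submodule.span F {u}) := by
  have hzz : z * z = 1 := by rcases hz with rfl | rfl <;> ring
  constructor
  · rintro ⟨l, hl⟩ W hWg hWnd hW
    left
    obtain ⟨w, hw, hw0⟩ := Submodule.exists_mem_ne_zero_of_ne_bot hW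
    -- an eigenvector
    obtain ⟨e, he, he0, μ, hμ, hge⟩ : ∃ e ∈ W, e ≠ 0 ∧ ∃ μ : F, μ * μ = z ∧ g e = μ • e := by
      by_cases h : g w = l • w
      · exact ⟨w, hw, hw0, l, hl.symm, h⟩
      · refine ⟨g w - l • w, W.sub_mem (hWg w hw) (W.smul_mem l hw), sub_ne_zero.2 h, -l,
          by rw [hl]; ring, ?_⟩
        simp only [map_sub, map_smul, hg, hl]
        module
    obtain ⟨y, hy, hey⟩ := hWnd e he he0
    have hμ0 : μ ≠ 0 := fun h => by simp [← hμ, h] at hzz
    have hgy : B e (g y) = μ⁻¹ * B e y := by
      have := hiso e y
      rw [hge, map_smul, LinearMap.smul_apply, smul_eq_mul] at this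
      rw [← this, inv_mul_cancel_left₀ hμ0]
    set y' := y + μ • g y with hy'
    have hey' : B e y' = 2 * B e y := by
      simp only [hy', map_add, map_smul, smul_eq_mul, hgy]
      rw [mul_inv_cancel_left₀ hμ0]; ring
    have hne : B e y' ≠ 0 := hey' ▸ mul_ne_zero h2 hey
    have hgy' : g y' = (μ * z) • y' := by
      simp only [hy', map_add, map_smul, hg, smul_add, smul_smul]
      rw [show μ * z * μ = 1 by linear_combination z * hμ + hzz]
      module
    refine ⟨e, he, (B e y')⁻¹ • y', W.smul_mem _ (W.add_mem hy (W.smul_mem μ (hWg y hy))),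
      by simp [hne], ?_, ?_, ?_, ?_⟩
    · rw [hge]; exact Submodule.smul_mem _ _ (Submodule.subset_span (Set.mem_insert _ _))
    · rw [map_smul, hgy', smul_comm]
      exact Submodule.smul_mem _ _ (Submodule.subset_span (Set.mem_insert_of_mem _ rfl))
    · exact Submodule.mem_span_singleton.2 ⟨μ, hge.symm⟩
    · rw [map_smul, hgy', smul_comm]
      exact Submodule.smul_mem _ _ (Submodule.mem_span_singleton_self _)
  · intro hns W hWg hWnd hW
    left
    have hz1 : z = -1 := hz.resolve_left fun h => hns (h ▸ IsSquare.one)
    obtain ⟨u, hu, huu⟩ : ∃ u ∈ W, B u (g u) ≠ 0 := by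
      by_contra h
      push Not at h
      obtain ⟨w, hw, hw0⟩ := Submodule.exists_mem_ne_zero_of_ne_bot hW
      obtain ⟨y, hy, hwy⟩ := hWnd w hw hw0
      have hpol : ∀ x ∈ W, ∀ x' ∈ W, B x (g x') = 0 := by
        intro x hx x' hx'
        have h1 := h (x + x') (W.add_mem hx hx')
        simp only [map_add, LinearMap.add_apply, h x hx, h x' hx', zero_add, add_zero] at h1
        have h3 : B x' (g x) = B x (g x') := by
          have e := hiso (g x) x'
          rw [hg, hz1, map_smul, LinearMap.smul_apply, smul_eq_mul, neg_one_mul] at e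
          rw [← hA.neg_eq (g x) x', ← e, neg_neg]
        rw [h3, ← two_mul] at h1
        exact (mul_eq_zero.1 h1).resolve_left h2
      refine hwy ?_
      have := hpol w hw (g y) (hWg y hy)
      rw [hg, map_smul, smul_eq_mul] at this
      exact (mul_eq_zero.1 this).resolve_left (fun h0 => by simp [h0] at hzz)
    refine ⟨u, hu, (B u (g u))⁻¹ • g u, W.smul_mem _ (hWg u hu), by simp [huu], ?_, ?_, ?_, ?_⟩
    · exact Submodule.mem_span_pair.2 ⟨0, B u (g u), by rw [zero_smul, zero_add, smul_inv_smul₀ huu]⟩
    · rw [map_smul, hg, smul_smul]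
      exact Submodule.smul_mem _ _ (Submodule.subset_span (Set.mem_insert _ _))
    · exact Submodule.mem_span_singleton.2 ⟨B u (g u), by rw [smul_inv_smul₀ huu]⟩
    · rw [map_smul, hg, smul_smul]
      exact Submodule.smul_mem _ _ (Submodule.mem_span_singleton_self _)

/-- Characteristic two: fixed planes or exchanged pairs of planes. -/
theorem hasStep_even (hA : B.IsAlt) (h2 : (2 : F) = 0) (hg : ∀ v, g (g v) = v)
    (hiso : ∀ x y, B (g x) (g y) = B x y) : HasStep B g fun _ _ => True := by
  intro W hWg hWnd hW
  by_cases hu : ∃ u ∈ W, B u (g u) ≠ 0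
  · obtain ⟨u, hu, huu⟩ := hu
    left
    refine ⟨u, hu, (B u (g u))⁻¹ • g u, W.smul_mem _ (hWg u hu), by simp [huu], ?_, ?_, trivial⟩
    · exact Submodule.mem_span_pair.2 ⟨0, B u (g u), by rw [zero_smul, zero_add, smul_inv_smul₀ huu]⟩
    · rw [map_smul, hg]
      exact Submodule.smul_mem _ _ (Submodule.subset_span (Set.mem_insert _ _))
  push Not at hu
  by_cases hfix : ∀ w ∈ W, g w = w
  · left
    obtain ⟨w, hw, hw0⟩ := Submodule.exists_mem_ne_zero_of_ne_bot hW
    obtain ⟨y, hy, hwy⟩ := hWnd w hw hw0
    refine ⟨w, hw, (B w y)⁻¹ • y, W.smul_mem _ hy, by simp [hwy], ?_, ?_, trivial⟩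
    · rw [hfix w hw]; exact Submodule.subset_span (Set.mem_insert _ _)
    · rw [map_smul, hfix y hy]; exact Submodule.subset_span (Set.mem_insert_of_mem _ rfl)
  push Not at hfix
  obtain ⟨u, huW, hne⟩ := hfix
  right
  have hu0 : u ≠ 0 := fun h => hne (by simp [h])
  obtain ⟨v, hv, huv, hguv⟩ : ∃ v ∈ W, B u v ≠ 0 ∧ B (g u) v = 0 := by
    by_contra h
    push Not at h
    have hgu0 : g u ≠ 0 := fun h0 => hu0 (by rw [← hg u, h0, map_zero])
    obtain ⟨y0, hy0, hy0'⟩ := hWnd (g u) (hWg u huW) hgu0
    set c := B u y0 / B (g u) y0 with hc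
    have hall : ∀ y ∈ W, B u y = c * B (g u) y := by
      intro y hy
      set r := B (g u) y / B (g u) y0
      have hm : y - r • y0 ∈ W := W.sub_mem hy (W.smul_mem _ hy0)
      have h0 : B (g u) (y - r • y0) = 0 := by
        simp [r, hy0']
      have h1 : B u (y - r • y0) = 0 := by
        by_contra h1
        exact h _ hm h1 h0
      rw [map_sub, map_smul, smul_eq_mul, sub_eq_zero] at h1
      rw [h1, hc]
      simp only [r]
      field_simp
    have heq : u = c • g u := by
      rw [← sub_eq_zero]
      by_contra hd
      obtain ⟨y, hy, hdy⟩ := hWnd _ (W.sub_mem huW (W.smul_mem c (hWg u huW))) hd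
      exact hdy (by simp [hall y hy])
    have h' : g u = c • u := by
      conv_lhs => rw [heq]
      rw [map_smul, hg]
    have hcc : (1 - c * c) • g u = 0 := by
      linear_combination (norm := module) h' + c • heq
    have hc1 : c * c = 1 := (sub_eq_zero.1 ((smul_eq_zero.1 hcc).resolve_right hgu0)).symm
    have : c = 1 := by
      rcases mul_self_eq_one_iff.1 hc1 with h | h
      · exact h
      · rw [h]; linear_combination -h2
    rw [this, one_smul] at heq
    exact hne heq.symm
  refine ⟨u, huW, (B u v)⁻¹ • v, W.smul_mem _ hv, by simp [huv], hg,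
    ⟨hu u huW, ?_, ?_, ?_⟩, trivial, trivial⟩
  · have := hiso (g u) v
    rw [hg, hguv] at this
    simp [this]
  · have : B v (g u) = 0 := by rw [← hA.neg_eq, hguv, neg_zero]
    simp [this]
  · simp [hu v hv]

end Linear

end Cfsg.Agent.Lib.Perm.InvolDecomp
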