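import Cfsg.Prelude.Def_GeometricClasses
import Cfsg.Agent.Lib.Perm.InvolDecomp

/-!
Decompositions of coordinate spaces from blocks of a basis.
-/

set_option autoImplicit false

namespace Cfsg.Agent.Lib.Perm.InvolDecomp

open Cfsg

/-- Spans of the blocks of an independent spanning family form a decomposition. -/
theorem decomposition_of_blocks {κ F : Type*} {ι : Type} [Fintype κ] [DecidableEq κ] [Fintype ι] [DecidableEq ι] [Field F]
    (b : κ → ι → F) (hli : LinearIndependent F b) (hsp : Submodule.span F (Set.range b) = ⊤)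
    {a t : ℕ} (ha : 0 < a) (ht : 2 ≤ t) (f : κ → Fin t)
    (hf : ∀ k, (Finset.univ.filter fun i => f i = k).card = a) :
    Cfsg.Geo.IsMDecomposition a fun k => Submodule.span F (b '' {i | f i = k}) := by
  refine ⟨ht, ha, fun k => ?_, ?_, ?_⟩
  · have hli' : LinearIndependent F fun i : {i // f i = k} => b i :=
      hli.comp _ Subtype.val_injective
    have hset : Set.range (fun i : {i // f i = k} => b i) = b '' {i | f i = k} :=
      Set.image_eq_range b {i | f i = k} |>.symm
    rw [← hset, finrank_span_eq_card hli', Fintype.card_subtype, hf]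
  · intro k
    rw [Submodule.disjoint_def]
    intro x hx hx'
    refine Submodule.disjoint_def.1 (hli.disjoint_span_image
      (s := {i | f i = k}) (t := {i | f i ≠ k}) (Set.disjoint_left.2 fun i h h' => h' h)) x hx ?_
    refine (iSup₂_le fun j hj => Submodule.span_mono (Set.image_mono ?_) :
      (⨆ j ≠ k, Submodule.span F (b '' {i | f i = j})) ≤ _) hx'
    intro i hi
    exact fun h => hj (hi.symm.trans h)
  · rw [← top_le_iff, ← hsp, Submodule.span_le]
    rintro _ ⟨i, rfl⟩
    exact Submodule.mem_iSup_of_mem (f i) (Submodule.subset_span ⟨i, rfl, rfl⟩)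

/-- A linear injection sending each block into another one maps it onto that block. -/
theorem map_eq_of_decomposition {F : Type*} {ι : Type} [Fintype ι] [DecidableEq ι] [Field F] {a t : ℕ}
    {D : Fin t → Submodule F (ι → F)} (hD : Cfsg.Geo.IsMDecomposition a D)
    (g : (ι → F) →ₗ[F] (ι → F)) (hg : Function.Injective g) {j k : Fin t}
    (h : (D j).map g ≤ D k) : (D j).map g = D k := by
  refine Submodule.eq_of_le_of_finrank_le h ?_
  rw [hD.finrank_eq k, ← hD.finrank_eq j]
  exact le_of_eq (LinearEquiv.finrank_eq (Submodule.equivMapOfInjective g hg (D j)))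

theorem isSquare_of_two_eq_zero {F : Type*} [Field F] [Finite F] (h2 : (2 : F) = 0) (z : F) :
    IsSquare z :=
  FiniteField.isSquare_of_char_two (ringChar.eq_iff.2 (CharTwo.of_one_ne_zero_of_two_eq_zero one_ne_zero h2)) z

end Cfsg.Agent.Lib.Perm.InvolDecomp
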