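import Mathlib.GroupTheory.GroupAction.MultiplePrimitivity
import Mathlib.GroupTheory.Perm.Cycle.Type
import Mathlib.GroupTheory.Sylow
import Mathlib.GroupTheory.IndexNormal

/-!
Tools for the bound on the transitivity of groups of degree `kp + r`, `k < p`:
a `p`-group all of whose nontrivial orbits have length `p`, and normal subgroups
of symmetric groups.
-/

set_option autoImplicit false

namespace Cfsg.Agent.Lib.Perm.KpBound

open Equiv

section Sym

variable {D : Type*} [Fintype D] [DecidableEq D]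

theorem exists_pow_ne_one {H : Subgroup (Perm D)} [hN : H.Normal] (hH : H ≠ ⊥) {p : ℕ}
    (hp : p.Prime) (hp2 : p ≠ 2) (hcard : 3 ≤ Fintype.card D)
    (h34 : p ≠ 3 ∨ 4 ≤ Fintype.card D) : ∃ σ ∈ H, σ ^ p ≠ 1 := by
  by_contra hcon
  push Not at hcon
  obtain ⟨σ, hσ, hσ1⟩ : ∃ σ ∈ H, σ ≠ 1 := by
    by_contra h
    push Not at h
    exact hH ((Subgroup.eq_bot_iff_forall _).2 h)
  obtain ⟨a, ha⟩ : ∃ a, σ a ≠ a := by
    by_contra h
    push Not at h
    exact hσ1 (Equiv.ext h)
  set b := σ a with hb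
  set c := σ b with hc
  have hba : b ≠ a := ha
  have hcb : c ≠ b := fun h => hba (σ.injective h)
  have hca : c ≠ a := by
    intro h
    obtain ⟨m, hm⟩ := hp.odd_of_ne_two hp2
    have h2 : (σ ^ 2) a = a := by simpa [pow_two] using h
    have : (σ ^ p) a = b := by
      rw [hm, pow_succ', pow_mul, Perm.mul_apply,
        Perm.pow_apply_eq_self_of_apply_eq_self h2]
    rw [hcon σ hσ] at this
    exact hba this.symm
  have hmem : swap b c * swap a b ∈ H := by
    have h1 : σ * (swap a b * σ⁻¹ * (swap a b)⁻¹) ∈ H :=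
      H.mul_mem hσ (hN.conj_mem _ (H.inv_mem hσ) _)
    have h2 : σ * swap a b * σ⁻¹ = swap b c := (swap_apply_apply σ a b).symm
    rw [swap_inv, ← mul_assoc, ← mul_assoc, h2] at h1
    exact h1
  have h3 : (swap b c * swap a b) ^ 3 = 1 ∧ swap b c * swap a b ≠ 1 := by
    have h := (Perm.isThreeCycle_swap_mul_swap_same hcb.symm hba hca)
    have e : swap b c * swap a b = swap b c * swap b a := by rw [swap_comm a b]
    rw [e]
    exact ⟨by rw [← h.orderOf]; exact pow_orderOf_eq_one _, h.ne_one⟩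
  have hp3 : p = 3 := by
    by_contra hne
    have hd : orderOf (swap b c * swap a b) ∣ Nat.gcd p 3 :=
      Nat.dvd_gcd (orderOf_dvd_of_pow_eq_one (hcon _ hmem)) (orderOf_dvd_of_pow_eq_one h3.1)
    rw [(Nat.coprime_primes hp Nat.prime_three).2 hne, Nat.dvd_one, orderOf_eq_one_iff] at hd
    exact h3.2 hd
  have h4 : 4 ≤ Fintype.card D := h34.resolve_left (fun h => h hp3)
  obtain ⟨d, -, hd⟩ := Finset.exists_mem_notMem_of_card_lt_card
    (show ({a, b, c} : Finset D).card < (Finset.univ : Finset D).card by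
      rw [Finset.card_univ]; exact lt_of_le_of_lt Finset.card_le_three (by omega))
  simp only [Finset.mem_insert, Finset.mem_singleton, not_or] at hd
  obtain ⟨hda, hdb, hdc⟩ := hd
  have hmem4 : swap b d * swap a b ∈ H := by
    have := hN.conj_mem _ hmem (swap c d)
    have e : swap c d * (swap b c * swap a b) * (swap c d)⁻¹ =
        (swap c d * swap b c * (swap c d)⁻¹) * (swap c d * swap a b * (swap c d)⁻¹) := by group
    rw [e, ← swap_apply_apply, ← swap_apply_apply, swap_apply_left,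
      swap_apply_of_ne_of_ne hcb.symm (Ne.symm hdb),
      swap_apply_of_ne_of_ne hca.symm (Ne.symm hda)] at this
    exact this
  have hmem5 := hcon _ (H.mul_mem hmem hmem4)
  have e : swap b c * swap a b * (swap b d * swap a b) = swap b c * swap a d := by
    rw [mul_assoc, ← mul_assoc (swap a b)]
    congr 1
    conv_lhs => enter [2]; rw [← swap_inv a b]
    rw [← swap_apply_apply, swap_apply_right, swap_apply_of_ne_of_ne hda hdb]
  rw [e, hp3] at hmem5
  have := DFunLike.congr_fun hmem5 a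
  simp [pow_succ, swap_apply_def, hda, hdb, hdc, hba, hcb, hca, hba.symm, hcb.symm, hca.symm,
    Ne.symm hda, Ne.symm hdb, Ne.symm hdc] at this

theorem exists_not_commute_conj (hcard : 5 ≤ Fintype.card D) {σ : Perm D} (hσ : σ ≠ 1) :
    ∃ π : Perm D, σ * (π * σ * π⁻¹) ≠ π * σ * π⁻¹ * σ := by
  by_contra hcon
  push Not at hcon
  obtain ⟨a, ha⟩ : ∃ a, σ a ≠ a := by
    by_contra h
    push Not at h
    exact hσ (Equiv.ext h)
  have pick : ∀ s : Finset D, s.card ≤ 4 → ∃ x, x ∉ s := fun s hs => by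
    obtain ⟨x, -, hx⟩ := Finset.exists_mem_notMem_of_card_lt_card
      (show s.card < (Finset.univ : Finset D).card by rw [Finset.card_univ]; omega)
    exact ⟨x, hx⟩
  set b := σ a with hb
  have hba : b ≠ a := ha
  by_cases h2 : σ b = a
  · obtain ⟨c, hc⟩ := pick {a, b} (le_trans Finset.card_le_two (by omega))
    simp only [Finset.mem_insert, Finset.mem_singleton, not_or] at hc
    obtain ⟨hca, hcb⟩ := hc
    have hσca : σ c ≠ a := fun h => hcb (σ.injective (h.trans h2.symm))
    have hσcb : σ c ≠ b := fun h => hca (σ.injective (h.trans hb))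
    by_cases hfix : σ c = c
    · have := DFunLike.congr_fun (hcon (swap b c)) a
      simp [swap_apply_def, ← hb, h2, hfix, hba, hca, hcb, hba.symm, Ne.symm hca,
        Ne.symm hcb] at this
    · set d := σ c with hd
      obtain ⟨e, he⟩ := pick {a, b, c, d} Finset.card_le_four
      simp only [Finset.mem_insert, Finset.mem_singleton, not_or] at he
      obtain ⟨hea, heb, hec, hed⟩ := he
      have := DFunLike.congr_fun (hcon (swap b c * swap d e)) a
      simp [swap_apply_def, ← hb, h2, ← hd, hba, hca, hcb, hσca, hσcb, hfix, hea, heb, hec,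
        hed, hba.symm, Ne.symm hca, Ne.symm hcb, Ne.symm hσca, Ne.symm hσcb, Ne.symm hfix,
        Ne.symm hea, Ne.symm heb, Ne.symm hec, Ne.symm hed] at this
  · set c := σ b with hc
    have hcb : c ≠ b := fun h => hba (σ.injective h)
    obtain ⟨d, hd⟩ := pick {a, b, c} (le_trans Finset.card_le_three (by omega))
    simp only [Finset.mem_insert, Finset.mem_singleton, not_or] at hd
    obtain ⟨hda, hdb, hdc⟩ := hd
    have := DFunLike.congr_fun (hcon (swap c d)) a
    simp [swap_apply_def, ← hb, ← hc, hba, hcb, h2, hda, hdb, hdc, hba.symm, Ne.symm hcb,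
      Ne.symm h2, Ne.symm hda, Ne.symm hdb, Ne.symm hdc] at this

theorem exists_not_commute (hcard : 3 ≤ Fintype.card D) {σ : Perm D} (hσ : σ ≠ 1) :
    ∃ π : Perm D, π * σ ≠ σ * π := by
  obtain ⟨a, ha⟩ : ∃ a, σ a ≠ a := by
    by_contra h
    push Not at h
    exact hσ (Equiv.ext h)
  obtain ⟨c, -, hc⟩ := Finset.exists_mem_notMem_of_card_lt_card
    (show ({a, σ a} : Finset D).card < (Finset.univ : Finset D).card by
      rw [Finset.card_univ]; exact lt_of_le_of_lt Finset.card_le_two (by omega))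
  simp only [Finset.mem_insert, Finset.mem_singleton, not_or] at hc
  refine ⟨swap (σ a) c, fun h => ?_⟩
  have := DFunLike.congr_fun h a
  simp [swap_apply_def, ha.symm, Ne.symm hc.1] at this
  exact hc.2 this

end Sym

section Orb

variable {α : Type*} [Fintype α] [DecidableEq α]

open scoped Classical in
/-- The orbit of `x` under `P` as a finset. -/
noncomputable def orbF (P : Subgroup (Perm α)) (x : α) : Finset α :=
  Finset.univ.filter (fun y => ∃ u ∈ P, u x = y)

theorem mem_orbF {P : Subgroup (Perm α)} {x y : α} : y ∈ orbF P x ↔ ∃ u ∈ P, u x = y := by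
  classical
  simp [orbF]

theorem mem_orbF_self (P : Subgroup (Perm α)) (x : α) : x ∈ orbF P x :=
  mem_orbF.2 ⟨1, P.one_mem, rfl⟩

theorem orbF_eq {P : Subgroup (Perm α)} {x y : α} (h : y ∈ orbF P x) : orbF P y = orbF P x := by
  obtain ⟨u, hu, rfl⟩ := mem_orbF.1 h
  ext z
  simp only [mem_orbF]
  constructor
  · rintro ⟨v, hv, rfl⟩; exact ⟨v * u, P.mul_mem hv hu, rfl⟩
  · rintro ⟨v, hv, rfl⟩; exact ⟨v * u⁻¹, P.mul_mem hv (P.inv_mem hu), by simp⟩

theorem card_orbF (P : Subgroup (Perm α)) (x : α) :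
    (orbF P x).card = Nat.card (MulAction.orbit P x) := by
  rw [Nat.card_coe_set_eq, ← Set.ncard_coe_finset]
  congr 1
  ext y
  simp [mem_orbF, MulAction.mem_orbit_iff, Subgroup.smul_def]

theorem pow_apply_congr {f g : Perm α} {O : Finset α} (h : ∀ y ∈ O, f y = g y)
    (hO : ∀ y ∈ O, g y ∈ O) : ∀ (i : ℕ), ∀ y ∈ O, (f ^ i) y = (g ^ i) y := by
  intro i
  induction i with
  | zero => simp
  | succ i ih =>
    intro y hy
    rw [pow_succ, pow_succ, Perm.mul_apply, Perm.mul_apply, h y hy]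
    exact ih _ (hO y hy)

variable {p : ℕ} {P : Subgroup (Perm α)} {x : α}

theorem apply_mem_orbF {u : Perm α} (hu : u ∈ P) {y : α} (hy : y ∈ orbF P x) :
    u y ∈ orbF P x := by
  rw [← orbF_eq hy]
  exact mem_orbF.2 ⟨u, hu, rfl⟩

theorem stab_normal_index (hp : p.Prime) (hP : IsPGroup p P) (hx : (orbF P x).card = p) :
    (MulAction.stabilizer P x).Normal ∧ (MulAction.stabilizer P x).index = p := by
  have hp' : Fact p.Prime := ⟨hp⟩
  have hi : (MulAction.stabilizer P x).index = p := by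
    rw [MulAction.index_stabilizer, ← Nat.card_coe_set_eq, ← card_orbF, hx]
  obtain ⟨n, hn⟩ := IsPGroup.iff_card.1 hP
  have hn0 : n ≠ 0 := by
    rintro rfl
    have := (MulAction.stabilizer P x).index_dvd_card
    rw [hi, hn, pow_zero, Nat.dvd_one] at this
    exact hp.ne_one this
  refine ⟨Subgroup.normal_of_index_eq_minFac_card ?_, hi⟩
  rw [hi, hn, hp.pow_minFac hn0]

theorem fix_orbF (hp : p.Prime) (hP : IsPGroup p P) (hx : (orbF P x).card = p) {u : Perm α}
    (hu : u ∈ P) (hux : u x = x) : ∀ y ∈ orbF P x, u y = y := by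
  intro y hy
  obtain ⟨v, hv, rfl⟩ := mem_orbF.1 hy
  have hn := (stab_normal_index hp hP hx).1
  have h := hn.conj_mem ⟨u, hu⟩ (by simpa [MulAction.mem_stabilizer_iff, Subgroup.smul_def] using hux)
    (⟨v, hv⟩⁻¹)
  simp [MulAction.mem_stabilizer_iff, Subgroup.smul_def, Perm.inv_eq_iff_eq, Equiv.symm_apply_eq] at h
  exact h

theorem pow_p_apply (hp : p.Prime) (hP : IsPGroup p P) (hx : (orbF P x).card = p) {u : Perm α}
    (hu : u ∈ P) : (u ^ p) x = x := by
  obtain ⟨hn, hi⟩ := stab_normal_index hp hP hx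
  have := Subgroup.pow_index_mem (MulAction.stabilizer P x) (⟨u, hu⟩ : P)
  rw [hi] at this
  simpa [MulAction.mem_stabilizer_iff, Subgroup.smul_def] using this

theorem minimalPeriod_eq (hp : p.Prime) (hP : IsPGroup p P) (hx : (orbF P x).card = p)
    {w : Perm α} (hw : w ∈ P) (hwx : w x ≠ x) : Function.minimalPeriod w x = p := by
  have h := pow_p_apply hp hP hx hw
  rw [Perm.coe_pow] at h
  rcases (Nat.dvd_prime hp).1 (Function.IsPeriodicPt.minimalPeriod_dvd h) with h1 | h1
  · exact absurd (Function.minimalPeriod_eq_one_iff_isFixedPt.1 h1) hwx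
  · exact h1

theorem orbF_eq_image (hp : p.Prime) (hP : IsPGroup p P) (hx : (orbF P x).card = p)
    {w : Perm α} (hw : w ∈ P) (hwx : w x ≠ x) :
    (Finset.range p).image (fun i => (w ^ i) x) = orbF P x := by
  have hm := minimalPeriod_eq hp hP hx hw hwx
  refine Finset.eq_of_subset_of_card_le ?_ ?_
  · intro y hy
    obtain ⟨i, -, rfl⟩ := Finset.mem_image.1 hy
    exact mem_orbF.2 ⟨_, P.pow_mem hw i, rfl⟩
  · rw [hx, Finset.card_image_of_injOn]
    · simp
    · intro i hi j hj hij
      simp only [Perm.coe_pow] at hij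
      refine Function.iterate_injOn_Iio_minimalPeriod (f := ⇑w) (x := x) ?_ ?_ hij
      · rw [hm]; simpa using hi
      · rw [hm]; simpa using hj

theorem exists_pow_eq (hp : p.Prime) (hP : IsPGroup p P) (hx : (orbF P x).card = p)
    {w u : Perm α} (hw : w ∈ P) (hwx : w x ≠ x) (hu : u ∈ P) :
    ∃ i : ℕ, ∀ y ∈ orbF P x, u y = (w ^ i) y := by
  have h : u x ∈ orbF P x := mem_orbF.2 ⟨u, hu, rfl⟩
  rw [← orbF_eq_image hp hP hx hw hwx] at h
  obtain ⟨i, -, hi⟩ := Finset.mem_image.1 h
  refine ⟨i, fun y hy => ?_⟩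
  have := fix_orbF hp hP hx (P.mul_mem (P.inv_mem (P.pow_mem hw i)) hu)
    (by rw [Perm.mul_apply, ← hi, Perm.inv_eq_iff_eq]) y hy
  rwa [Perm.mul_apply, Perm.inv_eq_iff_eq] at this

theorem exists_move (hp : p.Prime) (hx : (orbF P x).card = p) : ∃ w ∈ P, w x ≠ x := by
  by_contra h
  push Not at h
  have : orbF P x ⊆ {x} := fun y hy => by
    obtain ⟨u, hu, rfl⟩ := mem_orbF.1 hy
    simp [h u hu]
  have := Finset.card_le_card this
  rw [hx, Finset.card_singleton] at this
  exact absurd this (by have := hp.two_le; omega)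

/-- An element normalizing `P` and fixing the orbit of `x` acts on `P` there as a power map. -/
theorem exists_power_map (hp : p.Prime) (hP : IsPGroup p P) (hx : (orbF P x).card = p)
    {c : Perm α} (hc : ∀ u ∈ P, c * u * c⁻¹ ∈ P) (hcO : ∀ y ∈ orbF P x, c⁻¹ y ∈ orbF P x) :
    ∃ m : ℕ, ∀ u ∈ P, ∀ y ∈ orbF P x, (c * u * c⁻¹) y = (u ^ m) y := by
  obtain ⟨w, hw, hwx⟩ := exists_move hp hx
  obtain ⟨m, hm⟩ := exists_pow_eq hp hP hx hw hwx (hc w hw)
  refine ⟨m, fun u hu y hy => ?_⟩
  obtain ⟨i, hi⟩ := exists_pow_eq hp hP hx hw hwx hu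
  have h1 : (c * u * c⁻¹) y = ((c * w * c⁻¹) ^ i) y := by
    rw [conj_pow, Perm.mul_apply, Perm.mul_apply, Perm.mul_apply, Perm.mul_apply,
      hi _ (hcO y hy)]
  rw [h1, pow_apply_congr hm (fun z hz => apply_mem_orbF (P.pow_mem hw m) hz) i y hy,
    pow_apply_congr hi (fun z hz => apply_mem_orbF (P.pow_mem hw i) hz) m y hy, ← pow_mul,
    ← pow_mul, Nat.mul_comm]

/-- If `c` commutes with `P` and fixes the orbit of `x`, then `c ^ p` fixes `x`. -/
theorem pow_p_apply_centralizer (hp : p.Prime) (hP : IsPGroup p P) (hx : (orbF P x).card = p)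
    {c : Perm α} (hc : ∀ u ∈ P, c * u = u * c) (hcx : c x ∈ orbF P x) : (c ^ p) x = x := by
  obtain ⟨u, hu, hux⟩ := mem_orbF.1 hcx
  have : ∀ i : ℕ, (c ^ i) x = (u ^ i) x := by
    intro i
    induction i with
    | zero => simp
    | succ i ih =>
      rw [pow_succ' c, Perm.mul_apply, ih, ← Perm.mul_apply, hc _ (P.pow_mem hu i),
        Perm.mul_apply, ← hux, ← Perm.mul_apply, ← pow_succ]
  rw [this, pow_p_apply hp hP hx hu]

end Orb

end Cfsg.Agent.Lib.Perm.KpBound
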