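import Mathlib.LinearAlgebra.Matrix.GeneralLinearGroup.Defs
import Mathlib.LinearAlgebra.Matrix.NonsingularInverse
import Mathlib.Data.Matrix.Mul
import Mathlib.Data.List.GetD
import Mathlib.LinearAlgebra.Matrix.ToLinearEquiv
import Mathlib.Data.ZMod.Basic
import Mathlib.Algebra.Field.ZMod

/-!
Explicit finite groups of two by two matrices over `ZMod p`, with fixed point free action.
-/

set_option autoImplicit false

namespace Cfsg.Agent.Lib.Perm.Mat2

open Matrix

abbrev Q := ℕ × ℕ × ℕ × ℕ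

variable (p : ℕ)

/-- Product of quadruples modulo `p`. -/
def mulQ (x y : Q) : Q :=
  ((x.1 * y.1 + x.2.1 * y.2.2.1) % p, (x.1 * y.2.1 + x.2.1 * y.2.2.2) % p,
    (x.2.2.1 * y.1 + x.2.2.2 * y.2.2.1) % p, (x.2.2.1 * y.2.1 + x.2.2.2 * y.2.2.2) % p)

/-- The matrix of a quadruple. -/
def toM (x : Q) : Matrix (Fin 2) (Fin 2) (ZMod p) :=
  !![(x.1 : ZMod p), (x.2.1 : ZMod p); (x.2.2.1 : ZMod p), (x.2.2.2 : ZMod p)]

theorem toM_mul (x y : Q) : toM p (mulQ p x y) = toM p x * toM p y := by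
  ext i j
  fin_cases i <;> fin_cases j <;>
    simp [toM, mulQ, Matrix.mul_apply, Fin.sum_univ_two, ZMod.natCast_mod]

theorem toM_one : toM p (1, 0, 0, 1) = 1 := by
  ext i j
  fin_cases i <;> fin_cases j <;> simp [toM]

/-- Reduced quadruples. -/
def Small (x : Q) : Prop := x.1 < p ∧ x.2.1 < p ∧ x.2.2.1 < p ∧ x.2.2.2 < p

theorem toM_inj {x y : Q} (hx : Small p x) (hy : Small p y) (h : toM p x = toM p y) : x = y := by
  have key : ∀ a b : ℕ, a < p → b < p → (a : ZMod p) = b → a = b := fun a b ha hb e => by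
    rwa [ZMod.natCast_eq_natCast_iff', Nat.mod_eq_of_lt ha, Nat.mod_eq_of_lt hb] at e
  obtain ⟨a, b, c, d⟩ := x
  obtain ⟨a', b', c', d'⟩ := y
  obtain ⟨h1, h2, h3, h4⟩ := hx
  obtain ⟨g1, g2, g3, g4⟩ := hy
  have e00 := congrFun (congrFun h 0) 0
  have e01 := congrFun (congrFun h 0) 1
  have e10 := congrFun (congrFun h 1) 0
  have e11 := congrFun (congrFun h 1) 1
  simp only [toM, Matrix.of_apply, Matrix.cons_val', Matrix.cons_val_zero, Matrix.cons_val_one,
    Matrix.cons_val_fin_one, Matrix.empty_val'] at e00 e01 e10 e11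
  simp only [Prod.mk.injEq]
  exact ⟨key _ _ h1 g1 e00, key _ _ h2 g2 e01, key _ _ h3 g3 e10, key _ _ h4 g4 e11⟩

/-- Evaluation of a word. -/
def evalQ (gs : List Q) : List ℕ → Q
  | [] => (1, 0, 0, 1)
  | i :: w => mulQ p (gs.getD i (1, 0, 0, 1)) (evalQ gs w)

theorem evalQ_small [NeZero p] (hp : 1 < p) (gs : List Q) : ∀ w, Small p (evalQ p gs w)
  | [] => ⟨hp, Nat.zero_lt_of_lt hp, Nat.zero_lt_of_lt hp, hp⟩
  | _ :: _ => ⟨Nat.mod_lt _ (by omega), Nat.mod_lt _ (by omega), Nat.mod_lt _ (by omega), Nat.mod_lt _ (by omega)⟩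

variable {p} [Fact p.Prime] (gens : List (GL (Fin 2) (ZMod p))) (gs : List Q)

theorem eval_eq (hg : ∀ i, ((gens.getD i 1 : GL (Fin 2) (ZMod p)) : Matrix (Fin 2) (Fin 2) (ZMod p)) = toM p (gs.getD i (1, 0, 0, 1))) :
    ∀ w, (((w.map fun i => gens.getD i 1).prod : GL (Fin 2) (ZMod p)) : Matrix (Fin 2) (Fin 2) (ZMod p)) = toM p (evalQ p gs w)
  | [] => by rw [List.map_nil, List.prod_nil, Units.val_one, evalQ, toM_one]
  | i :: w => by rw [List.map_cons, List.prod_cons, Units.val_mul, evalQ, toM_mul, eval_eq hg w, hg]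

/-- The subgroup generated, from a table of words closed under the generators. -/
theorem closure_spec (hg : ∀ i, ((gens.getD i 1 : GL (Fin 2) (ZMod p)) : Matrix (Fin 2) (Fin 2) (ZMod p)) = toM p (gs.getD i (1, 0, 0, 1)))
    (W : List (List ℕ)) (T : List (List ℕ)) (h0 : W.getD 0 [] = []) (hW : 0 < W.length)
    (hclosed : ∀ k < W.length, ∀ i < gens.length, (T.getD k []).getD i 0 < W.length ∧
      evalQ p gs (i :: W.getD k []) = evalQ p gs (W.getD ((T.getD k []).getD i 0) []))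
    (hnd : (W.map (evalQ p gs)).Nodup) :
    Nat.card (Subgroup.closure {g | g ∈ gens}) = W.length ∧
      ∀ x ∈ Subgroup.closure {g | g ∈ gens}, ∃ k < W.length,
        ((x : GL (Fin 2) (ZMod p)) : Matrix (Fin 2) (Fin 2) (ZMod p)) = toM p (evalQ p gs (W.getD k [])) := by
  have hp := (Fact.out : p.Prime).one_lt
  let el : Fin W.length → GL (Fin 2) (ZMod p) := fun k => ((W.getD k []).map fun i => gens.getD i 1).prod
  have hel : ∀ k, ((el k : GL (Fin 2) (ZMod p)) : Matrix (Fin 2) (Fin 2) (ZMod p)) = toM p (evalQ p gs (W.getD k [])) :=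
    fun k => eval_eq gens gs hg _
  have hmem : ∀ k, el k ∈ Subgroup.closure {g | g ∈ gens} := fun k =>
    Subgroup.list_prod_mem _ fun g hg' => by
      obtain ⟨i, -, rfl⟩ := List.mem_map.mp hg'
      rcases Nat.lt_or_ge i gens.length with h | h
      · rw [List.getD_eq_getElem _ _ h]; exact Subgroup.subset_closure (List.getElem_mem h)
      · rw [List.getD_eq_default _ _ h]; exact one_mem _
  have hstep : ∀ g ∈ gens, ∀ k, ∃ k', g * el k = el k' := by
    intro g hg' k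
    obtain ⟨i, hi, rfl⟩ := List.mem_iff_getElem.mp hg'
    obtain ⟨h1, h2⟩ := hclosed k k.2 i hi
    refine ⟨⟨_, h1⟩, Units.ext ?_⟩
    rw [Units.val_mul, hel, hel, ← List.getD_eq_getElem gens 1 hi, hg, ← toM_mul]
    exact congrArg (toM p) h2
  have hsurj : ∀ x ∈ Subgroup.closure {g | g ∈ gens}, ∃ k, x = el k := by
    intro x hx
    rw [← Subgroup.mem_toSubmonoid, Subgroup.closure_toSubmonoid_of_finite] at hx
    induction hx using Submonoid.closure_induction_left with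
    | one => exact ⟨⟨0, hW⟩, by simp only [el, h0, List.map_nil, List.prod_nil]⟩
    | mul_left g hg' y _ ih =>
      obtain ⟨k, rfl⟩ := ih
      exact hstep g hg' k
  refine ⟨?_, fun x hx => ?_⟩
  · have hbij : Function.Bijective (fun k => (⟨el k, hmem k⟩ : Subgroup.closure {g | g ∈ gens})) := by
      refine ⟨fun k k' e => ?_, fun ⟨x, hx⟩ => ?_⟩
      · have e' := congrArg (fun z : Subgroup.closure {g | g ∈ gens} => ((z : GL (Fin 2) (ZMod p)) : Matrix (Fin 2) (Fin 2) (ZMod p))) e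
        simp only [hel] at e'
        have : NeZero p := ⟨by omega⟩
        have := toM_inj p (evalQ_small p hp gs _) (evalQ_small p hp gs _) e'
        rw [List.getD_eq_getElem _ _ k.2, List.getD_eq_getElem _ _ k'.2] at this
        refine Fin.ext ((hnd.getElem_inj_iff (hi := by simp [k.2]) (hj := by simp [k'.2])).mp ?_)
        simpa using this
      · obtain ⟨k, rfl⟩ := hsurj x hx
        exact ⟨k, rfl⟩
    rw [← Nat.card_eq_of_bijective _ hbij, Nat.card_fin]
  · obtain ⟨k, rfl⟩ := hsurj x hx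
    exact ⟨k, k.2, hel k⟩

/-- Check that `c * x - 1` is invertible. -/
def freeQ (p c : ℕ) (x : Q) : Bool :=
  ((c * x.1 + (p - 1)) * (c * x.2.2.2 + (p - 1))) % p != (c * x.2.1 * (c * x.2.2.1)) % p

theorem fixed_point_free {c : ℕ} {x : Q} (h : freeQ p c x = true) (v : Fin 2 → ZMod p)
    (hv : ((c : ZMod p) • toM p x) *ᵥ v = v) : v = 0 := by
  have h' : ((c : ZMod p) • toM p x - 1) *ᵥ v = 0 := by rw [Matrix.sub_mulVec, Matrix.one_mulVec, hv, sub_self]
  by_contra hne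
  have hdet := (Matrix.exists_mulVec_eq_zero_iff (M := (c : ZMod p) • toM p x - 1)).mp ⟨v, hne, h'⟩
  simp only [freeQ, bne_iff_ne, ne_eq] at h
  apply h
  have hp := (Fact.out : p.Prime).one_le
  rw [← ZMod.natCast_eq_natCast_iff', ← sub_eq_zero, ← hdet, Matrix.det_fin_two]
  simp [toM, Nat.cast_sub hp]
  ring

/-- Freeness and the right order give sharp transitivity on nonzero vectors. -/
theorem sharply_transitive (H : Subgroup (GL (Fin 2) (ZMod p)))
    (hfree : ∀ h ∈ H, ∀ v : Fin 2 → ZMod p, v ≠ 0 → (h : Matrix (Fin 2) (Fin 2) (ZMod p)) *ᵥ v = v → h = 1) :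
    Nat.card H ≤ p ^ 2 - 1 ∧ (Nat.card H = p ^ 2 - 1 → ∀ v w : Fin 2 → ZMod p, v ≠ 0 → w ≠ 0 →
      ∃! h : H, ((h : GL (Fin 2) (ZMod p)) : Matrix (Fin 2) (Fin 2) (ZMod p)) *ᵥ v = w) := by
  classical
  have hne : ∀ (h : H) (v : Fin 2 → ZMod p), v ≠ 0 →
      ((h : GL (Fin 2) (ZMod p)) : Matrix (Fin 2) (Fin 2) (ZMod p)) *ᵥ v ≠ 0 := fun h v hv e => by
    apply hv
    have := congrArg ((((h : GL (Fin 2) (ZMod p))⁻¹ : GL (Fin 2) (ZMod p)) : Matrix (Fin 2) (Fin 2) (ZMod p)) *ᵥ ·) e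
    simpa [Matrix.mulVec_mulVec, ← Units.val_mul] using this
  have hinj : ∀ v : Fin 2 → ZMod p, ∀ hv : v ≠ 0,
      Function.Injective (fun h : H => (⟨_, hne h v hv⟩ : {w : Fin 2 → ZMod p // w ≠ 0})) := by
    intro v hv a b e
    have e' := congrArg Subtype.val e
    dsimp only at e'
    have := hfree _ (b⁻¹ * a).2 v hv (by
      rw [Subgroup.coe_mul, Units.val_mul, ← Matrix.mulVec_mulVec, e', Matrix.mulVec_mulVec,
        ← Units.val_mul, Subgroup.coe_inv, inv_mul_cancel, Units.val_one, Matrix.one_mulVec])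
    exact (inv_mul_eq_one.mp (Subtype.ext this)).symm
  have hc : Nat.card {w : Fin 2 → ZMod p // w ≠ 0} = p ^ 2 - 1 := by
    rw [Nat.card_eq_fintype_card, Fintype.card_subtype_compl, Fintype.card_fun, ZMod.card,
      Fintype.card_fin, Fintype.card_subtype_eq]
  have hone : ∃ v : Fin 2 → ZMod p, v ≠ 0 := ⟨fun _ => 1, fun e => one_ne_zero (congrFun e 0)⟩
  obtain ⟨v₀, hv₀⟩ := hone
  refine ⟨(Nat.card_le_card_of_injective _ (hinj v₀ hv₀)).trans_eq hc, fun hH v w hv hw => ?_⟩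
  obtain ⟨h, hh⟩ := ((Nat.bijective_iff_injective_and_card _).mpr ⟨hinj v hv, hH.trans hc.symm⟩).2 ⟨w, hw⟩
  exact ⟨h, congrArg Subtype.val hh, fun h' hh' => hinj v hv (Subtype.ext (hh'.trans (congrArg Subtype.val hh).symm))⟩

end Cfsg.Agent.Lib.Perm.Mat2
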