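import Cfsg.Prelude.Def_Perm
import Cfsg.Agent.Lib.Perm.SharplyTwo

/-!
The affine group of a near-field.
-/

set_option autoImplicit false

namespace Cfsg.Agent.Lib.Perm

variable {F : Type*} [Cfsg.NearField F]

theorem nf_zero_mul (a : F) : (0 : F) * a = 0 := by
  have h := Cfsg.NearField.right_distrib (0 : F) 0 a
  rw [add_zero] at h
  exact left_eq_add.mp h

theorem nf_neg_mul (a b : F) : -a * b = -(a * b) := by
  apply eq_neg_of_add_eq_zero_left
  rw [← Cfsg.NearField.right_distrib, neg_add_cancel, nf_zero_mul]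

theorem nf_sub_mul (a b c : F) : (a - b) * c = a * c - b * c := by
  rw [sub_eq_add_neg, Cfsg.NearField.right_distrib, nf_neg_mul, ← sub_eq_add_neg]

theorem nf_mul_ne_zero {a b : F} (ha : a ≠ 0) (hb : b ≠ 0) : a * b ≠ 0 := by
  obtain ⟨b', hb', -⟩ := Cfsg.NearField.exists_inv b hb
  intro h
  apply ha
  rw [← mul_one a, ← hb', ← mul_assoc, h, nf_zero_mul]

/-- The maps `x ↦ x * a + b` with `a ≠ 0`. -/
def nfAffine (F : Type*) [Cfsg.NearField F] : Subgroup (Equiv.Perm F) where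
  carrier := {σ | ∃ a b : F, a ≠ 0 ∧ ∀ x : F, σ x = x * a + b}
  one_mem' := ⟨1, 0, (Cfsg.NearField.zero_ne_one).symm, fun x => by simp⟩
  mul_mem' := by
    rintro σ τ ⟨a, b, ha, hσ⟩ ⟨c, d, hc, hτ⟩
    refine ⟨c * a, d * a + b, nf_mul_ne_zero hc ha, fun x => ?_⟩
    rw [Equiv.Perm.mul_apply, hσ, hτ, Cfsg.NearField.right_distrib, mul_assoc, add_assoc]
  inv_mem' := by
    rintro σ ⟨a, b, ha, hσ⟩
    obtain ⟨a', h1, h2⟩ := Cfsg.NearField.exists_inv a ha
    refine ⟨a', -(b * a'), fun h => ?_, fun x => ?_⟩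
    · rw [h, nf_zero_mul] at h2
      exact Cfsg.NearField.zero_ne_one h2
    · apply σ.injective
      rw [Equiv.Perm.inv_def, Equiv.apply_symm_apply, hσ, Cfsg.NearField.right_distrib, mul_assoc, h2,
        mul_one, nf_neg_mul, mul_assoc, h2, mul_one, add_assoc, neg_add_cancel, add_zero]

theorem nfAffine_trans (x₁ x₂ y₁ y₂ : F) (hx : x₁ ≠ x₂) (hy : y₁ ≠ y₂) :
    ∃ g : nfAffine F, g • x₁ = y₁ ∧ g • x₂ = y₂ := by
  obtain ⟨d, -, hd⟩ := Cfsg.NearField.exists_inv (x₁ - x₂) (sub_ne_zero.mpr hx)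
  obtain ⟨a, hadef⟩ : ∃ a, a = d * (y₁ - y₂) := ⟨_, rfl⟩
  have hd0 : d ≠ 0 := by
    intro h
    rw [h, nf_zero_mul] at hd
    exact Cfsg.NearField.zero_ne_one hd
  have ha : a ≠ 0 := hadef ▸ nf_mul_ne_zero hd0 (sub_ne_zero.mpr hy)
  obtain ⟨d', hd1, hd2⟩ := Cfsg.NearField.exists_inv d hd0
  have hkey : (x₁ - x₂) * a = y₁ - y₂ := by
    have : d' = x₁ - x₂ := by
      rw [← mul_one d', ← hd, ← mul_assoc, hd2, one_mul]
    rw [hadef, ← mul_assoc, ← this, hd2, one_mul]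
  obtain ⟨a', h1, h2⟩ := Cfsg.NearField.exists_inv a ha
  let b := -(x₁ * a) + y₁
  refine ⟨⟨⟨fun x => x * a + b, fun x => (x - b) * a', fun x => ?_, fun x => ?_⟩, a, b, ha,
    fun x => rfl⟩, ?_, ?_⟩
  · simp [mul_assoc, h1]
  · simp [mul_assoc, h2]
  · show x₁ * a + b = y₁
    simp [b]
  · show x₂ * a + b = y₂
    rw [nf_sub_mul] at hkey
    have h3 : x₂ * a = -(y₁ - y₂) + x₁ * a := by
      rw [← hkey, neg_sub, sub_add_cancel]
    rw [h3]
    simp [b, add_assoc]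

theorem nfAffine_sharp (g : nfAffine F) (u v : F) (huv : u ≠ v) (hu : g • u = u)
    (hv : g • v = v) : g = 1 := by
  obtain ⟨σ, a, b, ha, hσ⟩ := g
  change σ u = u at hu
  change σ v = v at hv
  rw [hσ] at hu hv
  have h1 : (u - v) * a = u - v := by
    rw [nf_sub_mul]
    calc u * a - v * a = (u * a + b) - (v * a + b) := by simp
      _ = u - v := by rw [hu, hv]
  obtain ⟨d, -, hd⟩ := Cfsg.NearField.exists_inv (u - v) (sub_ne_zero.mpr huv)
  have ha1 : a = 1 := by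
    have := congrArg (d * ·) h1
    simp only [← mul_assoc, hd, one_mul] at this
    exact this
  subst ha1
  rw [mul_one] at hu
  refine Subtype.ext (Equiv.ext fun x => ?_)
  show σ x = x
  rw [hσ, mul_one, add_eq_left.mp hu, add_zero]

theorem nfAffine_sharplyTwo [Finite F] : SharplyTwo (nfAffine F) F where
  trans := nfAffine_trans
  sharp := nfAffine_sharp
  nontriv := by
    have : Nontrivial F := ⟨0, 1, Cfsg.NearField.zero_ne_one⟩
    have := Finite.one_lt_card_iff_nontrivial.mpr this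
    omega

end Cfsg.Agent.Lib.Perm
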