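import Cfsg.Agent.Lib.Perm.NormalMulti

/-!
The main theorems on normal subgroups of multiply transitive and multiply primitive groups.
-/

set_option autoImplicit false

namespace Cfsg.Agent.Lib.Perm

open MulAction
open scoped Pointwise

universe u v

theorem enat_le_card {X : Type v} [Finite X] {n : ℕ} (h : n ≤ Nat.card X) :
    (n : ℕ∞) ≤ ENat.card X := by
  rw [ENat.card_eq_coe_natCard]; exact_mod_cast h

theorem normal_multiply_transitive (j : ℕ) : ∀ (G : Type u) [Group G] (X : Type v) [MulAction G X]
    [FaithfulSMul G X] [Finite X], j + 2 < Nat.card X → IsMultiplyPretransitive G X (j + 2) →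
    ∀ (N : Subgroup G) [N.Normal], N ≠ ⊥ →
      IsMultiplyPretransitive N X (j + 1) ∨ (j = 1 ∧ IsMulCommutative N ∧ (∀ n ∈ N, n ^ 2 = 1) ∧
        IsPretransitive N X ∧ ∀ x : X, stabilizer N x = ⊥) := by
  induction j with
  | zero =>
    intro G _ X _ _ _ _ hG N _ hN
    have : IsPreprimitive G X := isPreprimitive_of_is_two_pretransitive hG
    exact Or.inl (is_one_pretransitive_iff.mpr (transitive_of_normal N hN))
  | succ j ih =>
    intro G _ X _ _ _ hlt hG N _ hN
    have h2 : IsMultiplyPretransitive G X 2 :=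
      isMultiplyPretransitive_of_le (n := j + 1 + 2) (by omega) (by omega)
    have hprim : IsPreprimitive G X := isPreprimitive_of_is_two_pretransitive h2
    have htr : IsPretransitive G X := hprim.toIsPretransitive
    have hNtr : IsPretransitive N X := transitive_of_normal N hN
    obtain ⟨a⟩ : Nonempty X := (Nat.card_pos_iff.mp (by omega)).1
    by_cases hreg : ∀ x : X, stabilizer N x = ⊥
    · -- a regular normal subgroup
      have hp : IsMultiplyPreprimitive G X (j + 2) :=
        isMultiplyPreprimitive_of_isMultiplyPretransitive_succ (M := G) (α := X) (n := j + 2)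
          (enat_le_card (by omega))
      have hp2 : IsMultiplyPreprimitive G X 2 :=
        isMultiplyPreprimitive_of_le (M := G) (α := X) hp (by omega) (enat_le_card (by omega))
      have hexp := regular_two_primitive hp2 hNtr hreg a (by omega)
      have hj : j = 0 := by
        by_contra hj
        have hp3 : IsMultiplyPreprimitive G X 3 :=
          isMultiplyPreprimitive_of_le (M := G) (α := X) hp (by omega) (enat_le_card (by omega))
        have := regular_three_primitive hp3 hNtr hreg hexp (by omega)
        omega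
      subst hj
      refine Or.inr ⟨rfl, ⟨⟨fun x y => Subtype.ext ?_⟩⟩, hexp, hNtr, hreg⟩
      have hi : ∀ n : G, n ∈ N → n⁻¹ = n := fun n hn =>
        inv_eq_iff_mul_eq_one.mpr (by rw [← pow_two]; exact hexp n hn)
      rw [Subgroup.coe_mul, Subgroup.coe_mul, ← hi _ (mul_mem x.2 y.2), mul_inv_rev, hi _ x.2, hi _ y.2]
    · push Not at hreg
      obtain ⟨a₀, ha₀⟩ := hreg
      have hc : ∀ c : X, IsMultiplyPretransitive (stabPart N c) (SubMulAction.ofStabilizer G c) (j + 1) ∨
          (j = 1 ∧ IsMulCommutative (stabPart N c) ∧ (∀ n ∈ stabPart N c, n ^ 2 = 1) ∧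
            IsPretransitive (stabPart N c) (SubMulAction.ofStabilizer G c) ∧
            ∀ y : SubMulAction.ofStabilizer G c, stabilizer (stabPart N c) y = ⊥) := fun c => by
        have hne := stabPart_ne_bot ha₀ c
        have hcard := SubMulAction.nat_card_ofStabilizer_add_one_eq G c
        exact ih (stabilizer G c) (SubMulAction.ofStabilizer G c) (by omega)
          (SubMulAction.ofStabilizer.isMultiplyPretransitive.mp hG) (stabPart N c) hne
      by_cases hgood : ∃ c : X, IsMultiplyPretransitive (stabPart N c) (SubMulAction.ofStabilizer G c) (j + 1)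
      · obtain ⟨c, hc'⟩ := hgood
        exact Or.inl (multi_succ N c hc')
      · exfalso
        push Not at hgood
        have hc' := fun c => (hc c).resolve_left (hgood c)
        have hj := (hc' a).1
        have := card_le_three_of_stabPart N (fun c => (hc' c).2.2.2.1) (fun c => (hc' c).2.2.2.2)
          (fun c => (hc' c).2.2.1)
        omega

theorem normal_multiply_primitive (j : ℕ) : ∀ (G : Type u) [Group G] (X : Type v) [MulAction G X]
    [FaithfulSMul G X] [Finite X], j + 1 ≤ Nat.card X → IsMultiplyPreprimitive G X (j + 1) →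
    ¬ Function.Surjective (MulAction.toPermHom G X) →
    ∀ (N : Subgroup G) [N.Normal], N ≠ ⊥ → (∃ a : X, stabilizer N a ≠ ⊥) →
      IsMultiplyPretransitive N X (j + 1) := by
  induction j with
  | zero =>
    intro G _ X _ _ _ _ hG _ N _ hN _
    have : IsPreprimitive G X := (is_one_preprimitive_iff G X).mp hG
    exact is_one_pretransitive_iff.mpr (transitive_of_normal N hN)
  | succ j ih =>
    intro G _ X _ _ _ hlt hG hfull N _ hN hnr
    obtain ⟨a, ha⟩ := hnr
    have hp1 : IsMultiplyPreprimitive G X 1 :=
      isMultiplyPreprimitive_of_le (M := G) (α := X) hG (by omega) (enat_le_card hlt)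
    have hprim : IsPreprimitive G X := (is_one_preprimitive_iff G X).mp hp1
    have htr : IsPretransitive G X := hprim.toIsPretransitive
    have hNtr : IsPretransitive N X := transitive_of_normal N hN
    have hGc : ∀ c : X, IsMultiplyPreprimitive (stabilizer G c) (SubMulAction.ofStabilizer G c) (j + 1) :=
      fun c => (isMultiplyPreprimitive_succ_iff_ofStabilizer (M := G) (α := X) (a := c) (n := j + 1) (Nat.le_add_left 1 j)).mp hG
    by_cases hgood : ∃ c : X, IsMultiplyPretransitive (stabPart N c) (SubMulAction.ofStabilizer G c) (j + 1)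
    · obtain ⟨c, hc⟩ := hgood
      exact multi_succ N c hc
    exfalso
    push Not at hgood
    have hctr : ∀ c : X, IsPretransitive (stabPart N c) (SubMulAction.ofStabilizer G c) := fun c => by
      have hcard := SubMulAction.nat_card_ofStabilizer_add_one_eq G c
      have : IsPreprimitive (stabilizer G c) (SubMulAction.ofStabilizer G c) :=
        (is_one_preprimitive_iff _ _).mp (isMultiplyPreprimitive_of_le (M := stabilizer G c) (α := SubMulAction.ofStabilizer G c) (hGc c) (by omega)
          (enat_le_card (by omega)))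
      exact transitive_of_normal _ (stabPart_ne_bot ha c)
    have hj : 1 ≤ j := by
      by_contra hj
      obtain rfl : j = 0 := by omega
      exact hgood a (is_one_pretransitive_iff.mpr (hctr a))
    have hcreg : ∀ c : X, ∀ y : SubMulAction.ofStabilizer G c, stabilizer (stabPart N c) y = ⊥ := by
      intro c y
      by_contra hy
      have hcard := SubMulAction.nat_card_ofStabilizer_add_one_eq G c
      exact hgood c (ih (stabilizer G c) (SubMulAction.ofStabilizer G c) (by omega) (hGc c)
        (not_full_stab hfull c) (stabPart N c) (stabPart_ne_bot ha c) ⟨y, hy⟩)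
    have hle : Nat.card X ≤ j + 3 := by
      by_cases h4 : Nat.card X = 4
      · omega
      have hexp : ∀ c : X, ∀ t ∈ stabPart N c, t ^ 2 = 1 := fun c => by
        have hcard := SubMulAction.nat_card_ofStabilizer_add_one_eq G c
        obtain ⟨y⟩ : Nonempty (SubMulAction.ofStabilizer G c) := (Nat.card_pos_iff.mp (by omega)).1
        exact regular_two_primitive
          (isMultiplyPreprimitive_of_le (M := stabilizer G c) (α := SubMulAction.ofStabilizer G c) (hGc c) (by omega) (enat_le_card (by omega)))
          (hctr c) (hcreg c) y (by omega)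
      have := card_le_three_of_stabPart N hctr hcreg hexp
      omega
    have hmt : IsMultiplyPretransitive G X (j + 1 + 1) := hG.isMultiplyPretransitive
    exact hfull (full_of_multiply (isMultiplyPretransitive_of_le (n := j + 1 + 1) (by omega) (by omega)))

/-- In odd degree a doubly transitive normal subgroup of a triply transitive group is triply
transitive. -/
theorem three_transitive_of_odd {G : Type u} [Group G] [Finite G] {X : Type v} [MulAction G X] [Finite X]
    (hodd : Odd (Nat.card X)) (h3 : IsMultiplyPretransitive G X 3) (N : Subgroup G) [N.Normal]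
    (hN2 : IsMultiplyPretransitive N X 2) : IsMultiplyPretransitive N X 3 := by
  classical
  have key : ∀ a b c d : X, a ≠ b → c ≠ a → c ≠ b → d ≠ a → d ≠ b →
      ∃ m ∈ N, m • a = a ∧ m • b = b ∧ m • c = d := by
    intro a b c d hab hca hcb hda hdb
    let P : Set X := {a, b}
    let L : Subgroup G := N ⊓ stabilizer G P
    let M : Subgroup G := N ⊓ (stabilizer G a ⊓ stabilizer G b)
    have hLP : ∀ l ∈ L, (l • a = a ∧ l • b = b) ∨ (l • a = b ∧ l • b = a) := by
      intro l hl
      have hP : l • P = P := hl.2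
      have h1 : l • a ∈ P := by rw [← hP]; exact Set.smul_mem_smul_set (Set.mem_insert _ _)
      have h2 : l • b ∈ P := by rw [← hP]; exact Set.smul_mem_smul_set (Set.mem_insert_of_mem _ rfl)
      have hne : l • a ≠ l • b := fun e => hab (smul_left_cancel l e)
      simp only [P, Set.mem_insert_iff, Set.mem_singleton_iff] at h1 h2
      rcases h1 with h1 | h1 <;> rcases h2 with h2 | h2
      · exact absurd (h1.trans h2.symm) hne
      · exact Or.inl ⟨h1, h2⟩
      · exact Or.inr ⟨h1, h2⟩
      · exact absurd (h1.trans h2.symm) hne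
    have hML : M ≤ L := fun m hm => ⟨hm.1, by
      refine mem_stabilizer_iff.mpr ?_; rw [Set.smul_set_insert, Set.smul_set_singleton, show m • a = a from hm.2.1, show m • b = b from hm.2.2]⟩
    obtain ⟨⟨s, hsN⟩, hs⟩ := is_two_pretransitive_iff.mp hN2 hab (Ne.symm hab)
    have hsa : s • a = b := hs.1
    have hsb : s • b = a := hs.2
    have hsL : s ∈ L := ⟨hsN, by
      refine mem_stabilizer_iff.mpr ?_; rw [Set.smul_set_insert, Set.smul_set_singleton, hsa, hsb, Set.pair_comm]⟩
    have hswap : ∀ l ∈ L, l ∉ M → l • a = b ∧ l • b = a := fun l hl hlM =>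
      (hLP l hl).resolve_left fun h => hlM ⟨hl.1, h.1, h.2⟩
    have hcardL : Nat.card L = 2 * Nat.card M := by
      let F : Bool × M → L := fun z => cond z.1 ⟨s * z.2, mul_mem hsL (hML z.2.2)⟩ ⟨z.2, hML z.2.2⟩
      have hsM : ∀ m ∈ M, s * m ∉ M := fun m hm h => hab (by
        have : (s * m) • a = a := h.2.1
        rw [mul_smul, show m • a = a from hm.2.1] at this
        exact this.symm.trans hsa)
      have hF : Function.Bijective F := by
        refine ⟨fun z w h => ?_, fun l => ?_⟩
        · obtain ⟨i, m⟩ := z; obtain ⟨i', m'⟩ := w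
          have h' : ((F (i, m) : L) : G) = (F (i', m') : L) := congrArg Subtype.val h
          cases i <;> cases i' <;> simp only [F, cond_true, cond_false] at h'
          · exact Prod.ext rfl (Subtype.ext h')
          · exact absurd (h' ▸ m.2) (hsM m' m'.2)
          · exact absurd (h' ▸ m'.2) (hsM m m.2)
          · exact Prod.ext rfl (Subtype.ext (mul_left_cancel h'))
        · by_cases hl : (l : G) ∈ M
          · exact ⟨(false, ⟨l, hl⟩), rfl⟩
          · obtain ⟨e1, e2⟩ := hswap l l.2 hl
            refine ⟨(true, ⟨s⁻¹ * l, N.mul_mem (N.inv_mem hsN) l.2.1, ?_, ?_⟩), Subtype.ext (mul_inv_cancel_left s _)⟩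
            · refine mem_stabilizer_iff.mpr ?_; rw [mul_smul, e1, inv_smul_eq_iff, hsa]
            · refine mem_stabilizer_iff.mpr ?_; rw [mul_smul, e2, inv_smul_eq_iff, hsb]
      rw [← Nat.card_eq_of_bijective F hF, Nat.card_prod, Nat.card_eq_fintype_card (α := Bool), Fintype.card_bool]
    obtain ⟨S⟩ : Nonempty (Sylow 2 L) := inferInstance
    have hSM : ¬ Nat.card S ∣ Nat.card M := fun h => by
      apply S.not_dvd_index
      obtain ⟨q, hq⟩ := h
      have h2 := (S : Subgroup L).card_mul_index
      rw [hcardL, hq, ← mul_assoc, mul_comm 2, mul_assoc] at h2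
      exact Dvd.intro q (Nat.eq_of_mul_eq_mul_left Nat.card_pos h2).symm
    -- orbits of the complement
    let Z : SubMulAction L X :=
      { carrier := {z | z ≠ a ∧ z ≠ b}
        smul_mem' := fun l z hz => by
          rcases hLP l l.2 with ⟨e1, e2⟩ | ⟨e1, e2⟩
          · exact ⟨fun e => hz.1 (smul_left_cancel (l : G) (e.trans e1.symm)),
              fun e => hz.2 (smul_left_cancel (l : G) (e.trans e2.symm))⟩
          · exact ⟨fun e => hz.2 (smul_left_cancel (l : G) (e.trans e2.symm)),
              fun e => hz.1 (smul_left_cancel (l : G) (e.trans e1.symm))⟩ }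
    have hsame : ∀ z w : Z, Nat.card (orbit L z) = Nat.card (orbit L w) := by
      suffices ∀ z w : Z, Nat.card (orbit L z) ≤ Nat.card (orbit L w) from
        fun z w => le_antisymm (this z w) (this w z)
      intro z w
      let x : Fin 3 ↪ X := ⟨![a, b, z], by
        have h1 : a ≠ (z : X) := Ne.symm z.2.1
        have h2 : b ≠ (z : X) := Ne.symm z.2.2
        intro i j h
        fin_cases i <;> fin_cases j <;>
          simp [hab, hab.symm, h1, h1.symm, h2, h2.symm] at h ⊢⟩
      let y : Fin 3 ↪ X := ⟨![a, b, w], by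
        have h1 : a ≠ (w : X) := Ne.symm w.2.1
        have h2 : b ≠ (w : X) := Ne.symm w.2.2
        intro i j h
        fin_cases i <;> fin_cases j <;>
          simp [hab, hab.symm, h1, h1.symm, h2, h2.symm] at h ⊢⟩
      obtain ⟨g, hg⟩ := h3.exists_smul_eq x y
      have g0 : g • a = a := DFunLike.congr_fun hg 0
      have g1 : g • b = b := DFunLike.congr_fun hg 1
      have g2 : g • (z : X) = (w : X) := DFunLike.congr_fun hg 2
      have hgP : g • P = P := by rw [Set.smul_set_insert, Set.smul_set_singleton, g0, g1]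
      have hconj : ∀ l : L, g * l * g⁻¹ ∈ L := fun l => ⟨Subgroup.Normal.conj_mem inferInstance _ l.2.1 g, by
        refine mem_stabilizer_iff.mpr ?_; rw [mul_smul, mul_smul, inv_smul_eq_iff.mpr hgP.symm,
          mem_stabilizer_iff.mp l.2.2, hgP]⟩
      have hmap : ∀ u : Z, u ∈ orbit L z → g • (u : X) ≠ a ∧ g • (u : X) ≠ b := fun u _ =>
        ⟨fun e => u.2.1 (smul_left_cancel g (e.trans g0.symm)), fun e => u.2.2 (smul_left_cancel g (e.trans g1.symm))⟩
      refine Nat.card_le_card_of_injective (fun u => (⟨⟨g • ((u : Z) : X), hmap u u.2⟩, by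
        obtain ⟨l, hl⟩ := u.2
        refine ⟨⟨g * l * g⁻¹, hconj l⟩, Subtype.ext ?_⟩
        show (g * (l : G) * g⁻¹) • (w : X) = g • ((u : Z) : X)
        rw [mul_smul, mul_smul, ← g2, inv_smul_smul, ← hl]
        rfl⟩ : orbit L w)) fun u v e => ?_
      exact Subtype.ext (Subtype.ext (smul_left_cancel g
        (congrArg (fun t : orbit L w => ((t : Z) : X)) e)))
    have hZodd : Odd (Nat.card Z) := by
      have h1 : Nat.card Z = ({z : X | z ≠ a ∧ z ≠ b}).ncard := Nat.card_coe_set_eq _
      have h2 : ({z : X | z ≠ a ∧ z ≠ b}) = (P : Set X)ᶜ := by ext z; simp [P]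
      have h3' := Set.ncard_add_ncard_compl P
      rw [Set.ncard_pair hab] at h3'
      rw [h1, h2]
      rw [Nat.odd_iff] at hodd ⊢
      omega
    have horb_odd : ∀ z : Z, ¬ 2 ∣ Nat.card (orbit L z) := fun z h => by
      have := Fintype.ofFinite (Quotient (orbitRel L Z))
      have h1 : Nat.card Z = Nat.card (Quotient (orbitRel L Z)) * Nat.card (orbit L z) := by
        rw [Nat.card_congr (selfEquivSigmaOrbits L Z), Nat.card_sigma]
        simp_rw [hsame _ z]
        rw [Finset.sum_const, Finset.card_univ, smul_eq_mul, ← Nat.card_eq_fintype_card]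
      rw [Nat.odd_iff, h1, Nat.mul_mod, Nat.mod_eq_zero_of_dvd h] at hZodd
      simp at hZodd
    have hfix : ∀ z : Z, ∃ u ∈ orbit L z, ∀ σ : S, ((σ : L) • u) = u := fun z => by
      obtain ⟨u, hu⟩ := S.2.nonempty_fixed_point_of_prime_not_dvd_card (orbit L z) (horb_odd z)
      exact ⟨u, u.2, fun σ => congrArg Subtype.val (hu σ)⟩
    have huniq : ∀ u v : Z, (∀ σ : S, (σ : L) • u = u) → (∀ σ : S, (σ : L) • v = v) → u = v := by
      intro u v hu hv
      by_contra huv
      have huv' : (u : X) ≠ (v : X) := fun e => huv (Subtype.ext e)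
      obtain ⟨⟨g, hgN⟩, hg⟩ := is_two_pretransitive_iff.mp hN2 huv' hab
      have hg1 : g • (u : X) = a := hg.1
      have hg2 : g • (v : X) = b := hg.2
      have hmem : ∀ σ : S, g * ((σ : L) : G) * g⁻¹ ∈ M := fun σ => by
        refine ⟨Subgroup.Normal.conj_mem inferInstance _ (σ : L).2.1 g, ?_, ?_⟩
        · refine mem_stabilizer_iff.mpr ?_; rw [mul_smul, mul_smul, ← hg1, inv_smul_smul]
          exact congrArg (fun t : Z => g • (t : X)) (hu σ)
        · refine mem_stabilizer_iff.mpr ?_; rw [mul_smul, mul_smul, ← hg2, inv_smul_smul]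
          exact congrArg (fun t : Z => g • (t : X)) (hv σ)
      let φ : S →* M :=
        { toFun := fun σ => ⟨g * ((σ : L) : G) * g⁻¹, hmem σ⟩
          map_one' := Subtype.ext (by simp)
          map_mul' := fun σ τ => Subtype.ext (by simp [mul_assoc]) }
      exact hSM (Subgroup.card_dvd_of_injective φ fun σ τ e => by
        have := congrArg Subtype.val e
        simpa [φ] using this)
    obtain ⟨σ, hσ⟩ : ∃ σ : S, ((σ : L) : G) ∉ M := by
      by_contra h
      push Not at h
      let φ : S →* M :=
        { toFun := fun σ => ⟨((σ : L) : G), h σ⟩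
          map_one' := rfl
          map_mul' := fun _ _ => rfl }
      exact hSM (Subgroup.card_dvd_of_injective φ fun σ τ e => by
        have := congrArg Subtype.val e
        simpa [φ] using this)
    obtain ⟨u₀, hu₀, hu₀'⟩ := hfix ⟨c, hca, hcb⟩
    have htoM : ∀ z : Z, ∃ m ∈ M, m • (u₀ : X) = (z : X) := by
      intro z
      obtain ⟨u, ⟨l, hl⟩, hu'⟩ := hfix z
      obtain rfl := huniq u u₀ hu' hu₀'
      have hl' : (l : G) • (z : X) = (u : X) := congrArg Subtype.val hl
      by_cases hlM : (l : G) ∈ M
      · exact ⟨(l : G)⁻¹, inv_mem hlM, by rw [inv_smul_eq_iff, hl']⟩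
      · obtain ⟨e1, e2⟩ := hswap l l.2 hlM
        obtain ⟨f1, f2⟩ := hswap _ (σ : L).2 hσ
        refine ⟨(l : G)⁻¹ * ((σ : L) : G), ⟨N.mul_mem (N.inv_mem l.2.1) (σ : L).2.1, ?_, ?_⟩, ?_⟩
        · refine mem_stabilizer_iff.mpr ?_; rw [mul_smul, f1, inv_smul_eq_iff, e1]
        · refine mem_stabilizer_iff.mpr ?_; rw [mul_smul, f2, inv_smul_eq_iff, e2]
        · rw [mul_smul, inv_smul_eq_iff, hl']
          exact congrArg Subtype.val (hu₀' σ)
    obtain ⟨m1, hm1, e1⟩ := htoM ⟨c, hca, hcb⟩
    obtain ⟨m2, hm2, e2⟩ := htoM ⟨d, hda, hdb⟩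
    have hm := mul_mem hm2 (inv_mem hm1)
    exact ⟨m2 * m1⁻¹, hm.1, hm.2.1, hm.2.2, by
      rw [mul_smul, show m1⁻¹ • c = (u₀ : X) from inv_smul_eq_iff.mpr e1.symm]; exact e2⟩
  refine ⟨fun x y => ?_⟩
  obtain ⟨g, hg1, hg2⟩ := is_two_pretransitive_iff.mp hN2
    (x.injective.ne (show (0 : Fin 3) ≠ 1 by decide)) (y.injective.ne (show (0 : Fin 3) ≠ 1 by decide))
  obtain ⟨m, hm, m0, m1, m2⟩ := key (y 0) (y 1) (g • x 2) (y 2) (y.injective.ne (by decide))
    (fun e => absurd (x.injective (smul_left_cancel g (e.trans hg1.symm))) (by decide))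
    (fun e => absurd (x.injective (smul_left_cancel g (e.trans hg2.symm))) (by decide))
    (y.injective.ne (by decide)) (y.injective.ne (by decide))
  refine ⟨⟨m, hm⟩ * g, Function.Embedding.ext fun i => ?_⟩
  rw [Function.Embedding.smul_apply, mul_smul]
  fin_cases i
  · exact (congrArg (m • ·) hg1).trans m0
  · exact (congrArg (m • ·) hg2).trans m1
  · exact m2

end Cfsg.Agent.Lib.Perm
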