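import Cfsg.Agent.Lib.Perm.CharOrbital

/-! Parameters of rank three groups of degree `2m` with constituents of degrees `m-1` and `m`. -/

set_option autoImplicit false
set_option linter.unusedSectionVars false

namespace Cfsg.Agent.Lib.Perm.CharOrbital

open MulAction Matrix Finset Module
open Cfsg.Agent.Lib.Perm.Orbital Cfsg.Agent.Lib.Char
open scoped ComplexConjugate

theorem wielandt_arith {m k r s : ℤ} (hm : 2 ≤ m) (hk2 : 2 ≤ k) (hk : k + 3 ≤ 2 * m)
    (h1 : k + (m - 1) * r + m * s = 0)
    (h2 : k ^ 2 + (m - 1) * r ^ 2 + m * s ^ 2 = 2 * m * k) :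
    ∃ a : ℕ, 0 < a ∧ m = 2 * (a : ℤ) ^ 2 + 2 * a + 1 ∧
      (k = a * (2 * a + 1) ∨ k = (a + 1) * (2 * a + 1)) := by
  obtain ⟨d, rfl⟩ : ∃ d, s = d - r := ⟨r + s, by ring⟩
  obtain rfl : k = r - m * d := by linarith
  have key : 2 * r ^ 2 - (4 * d + 2) * r + (m + 1) * d ^ 2 + 2 * m * d = 0 := by
    have h : m * (2 * r ^ 2 - (4 * d + 2) * r + (m + 1) * d ^ 2 + 2 * m * d) = 0 := by
      linear_combination h2
    exact (mul_eq_zero.mp h).resolve_left (by omega)
  have hsq : (2 * r - 2 * d - 1) ^ 2 = 1 - 2 * (m - 1) * ((d + 1) ^ 2 - 1) := by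
    linear_combination 2 * key
  have hd : (d + 1) ^ 2 ≤ 1 := by nlinarith [sq_nonneg (2 * r - 2 * d - 1)]
  have hd' : -2 ≤ d ∧ d ≤ 0 := by constructor <;> nlinarith
  obtain ⟨hdl, hdu⟩ := hd'
  interval_cases d
  · have : (2 * r + 3) ^ 2 = 1 := by linear_combination hsq
    rcases sq_eq_one_iff.mp this with h | h <;> omega
  · have h : (2 * r + 1) ^ 2 = 2 * m - 1 := by linear_combination hsq
    rcases le_or_gt 0 r with hr | hr
    · refine ⟨r.toNat, ?_, ?_, ?_⟩
      · by_contra hc
        have : r = 0 := by omega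
        subst this; norm_num at h; omega
      · rw [Int.toNat_of_nonneg hr]; nlinarith
      · right; rw [Int.toNat_of_nonneg hr]; nlinarith
    · refine ⟨(-r - 1).toNat, ?_, ?_, ?_⟩
      · by_contra hc
        have : r = -1 := by omega
        subst this; norm_num at h; omega
      · rw [Int.toNat_of_nonneg (by omega)]; nlinarith
      · left; rw [Int.toNat_of_nonneg (by omega)]; nlinarith
  · have : (2 * r - 1) ^ 2 = 1 := by linear_combination hsq
    rcases sq_eq_one_iff.mp this with h | h <;> omega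

variable {G : Type*} [Group G] [Fintype G] {α : Type*} [MulAction G α] [Fintype α] (a : α)

theorem rank_three (hprim : IsPreprimitive G α) {m : ℕ} (hn : Fintype.card α = 2 * m)
    (hrank : Nat.card (orbitRel.Quotient (stabilizer G a) α) = 3) (χ₁ χ₂ : G → ℂ)
    (h₁ : IsIrrCharacter G χ₁) (h₂ : IsIrrCharacter G χ₂)
    (hπ : perm (G := G) α = fun g => 1 + χ₁ g + χ₂ g)
    (hd₁ : χ₁ 1 = (m : ℂ) - 1) (hd₂ : χ₂ 1 = m) {b : α} (hb : b ≠ a) :
    ∃ x : ℕ, 0 < x ∧ (m : ℤ) = 2 * (x : ℤ) ^ 2 + 2 * x + 1 ∧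
      ((Nat.card (orbit (stabilizer G a) b) : ℤ) = x * (2 * x + 1) ∨
        (Nat.card (orbit (stabilizer G a) b) : ℤ) = (x + 1) * (2 * x + 1)) := by
  classical
  have : IsPretransitive G α := hprim.toIsPretransitive
  have : Fintype (orbitRel.Quotient (stabilizer G a) α) := Fintype.ofFinite _
  set q₀ := cls (G := G) a a with hq₀
  set q := cls (G := G) a b with hqdef
  have hq : q ≠ q₀ := fun e => hb ((cls_eq_self_iff a).mp e)
  -- the third class
  have hcard : ((univ.erase q₀).erase q).card = 1 := by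
    rw [card_erase_of_mem (mem_erase.mpr ⟨hq, mem_univ _⟩), card_erase_of_mem (mem_univ _),
      card_univ, ← Nat.card_eq_fintype_card, hrank]
  obtain ⟨q', hq'⟩ := card_eq_one.mp hcard
  have hq'0 : q' ≠ q₀ ∧ q' ≠ q := by
    have : q' ∈ (univ.erase q₀).erase q := by rw [hq']; exact mem_singleton_self _
    simp only [mem_erase] at this
    exact ⟨this.2.1, this.1⟩
  have hsum : ∀ f : orbitRel.Quotient (stabilizer G a) α → Matrix α α ℂ,
      ∑ x, f x = f q₀ + f q + f q' := fun f => by
    rw [← add_sum_erase univ f (mem_univ q₀),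
      ← add_sum_erase (univ.erase q₀) f (mem_erase.mpr ⟨hq, mem_univ _⟩), hq', sum_singleton,
      add_assoc]
  set A := rel (G := G) a q with hA
  set A' := rel (G := G) a q' with hA'
  have hrel0 : rel (G := G) a q₀ = (1 : Matrix α α ℂ) := by
    refine isInv_ext a (isInv_rel a _) isInv_one fun y => ?_
    rw [rel_apply_base, Matrix.one_apply]
    by_cases hy : y = a
    · rw [if_pos (by rw [hy]), if_pos hy.symm]
    · rw [if_neg (fun e => hy ((cls_eq_self_iff _).mp e)), if_neg (Ne.symm hy)]
  have hout : Quotient.out q₀ = a := (cls_eq_self_iff a).mp (cls_out a q₀)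
  have hexp : ∀ C : Matrix α α ℂ, IsInv G C →
      C = C a a • (1 : Matrix α α ℂ) + C a (Quotient.out q) • A + C a (Quotient.out q') • A' := by
    intro C hC
    conv_lhs => rw [expand a hC, hsum, hrel0, hout]
  have hAI : IsInv G A := isInv_rel a q
  have hA'I : IsInv G A' := isInv_rel a q'
  -- constituents
  have htriv := isIrrCharacter_one (G := G)
  have hcl : ∀ χ : G → ℂ, IsIrrCharacter G χ → cv a χ (1 : Matrix α α ℂ) =
      classInner (fun _ => (1 : ℂ)) χ + classInner χ₁ χ + classInner χ₂ χ := by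
    intro χ hχ
    rw [← classInner_perm a (isCharacter_of_isIrr hχ), hπ, ← classInner_add_left,
      ← classInner_add_left]
    rfl
  have hne12 : χ₁ ≠ χ₂ := fun e => by
    rw [e, hd₂] at hd₁
    exact one_ne_zero (α := ℂ) (by linear_combination hd₁)
  have hne : χ₁ ≠ (fun _ => 1) ∧ χ₂ ≠ (fun _ => 1) := by
    have h := hcl _ htriv
    rw [cv_trivial_one a, classInner_irr_self htriv, classInner_irr h₁ htriv,
      classInner_irr h₂ htriv] at h
    constructor <;> intro e
    · rw [if_pos e] at h; split_ifs at h <;> norm_num at h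
    · rw [if_pos e] at h; split_ifs at h <;> norm_num at h
  have hm₁ : cv a χ₁ (1 : Matrix α α ℂ) = 1 := by
    rw [hcl _ h₁, classInner_irr_ne htriv h₁ hne.1.symm, classInner_irr_self h₁,
      classInner_irr_ne h₂ h₁ hne12.symm]
    ring
  have hm₂ : cv a χ₂ (1 : Matrix α α ℂ) = 1 := by
    rw [hcl _ h₂, classInner_irr_ne htriv h₂ hne.2.symm, classInner_irr_self h₂,
      classInner_irr_ne h₁ h₂ hne12]
    ring
  have htrace : ∀ C : Matrix α α ℂ, IsInv G C → 2 * (m : ℂ) * C a a =
      cv a (fun _ : G => (1 : ℂ)) C + ((m : ℂ) - 1) * cv a χ₁ C + m * cv a χ₂ C := by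
    intro C hC
    have h := diag_eq_sum a hC
    rw [hn] at h
    push_cast at h
    rw [h, ← add_sum_erase univ _ (mem_univ (⟨_, htriv⟩ : IrrCharacter G)),
      ← add_sum_erase (univ.erase (⟨_, htriv⟩ : IrrCharacter G)) _
        (mem_erase.mpr ⟨fun e => hne.1 (congrArg Subtype.val e), mem_univ (⟨χ₁, h₁⟩ : IrrCharacter G)⟩),
      ← add_sum_erase ((univ.erase (⟨_, htriv⟩ : IrrCharacter G)).erase ⟨χ₁, h₁⟩) _
        (mem_erase.mpr ⟨fun e => hne12 (congrArg Subtype.val e).symm,
          mem_erase.mpr ⟨fun e => hne.2 (congrArg Subtype.val e), mem_univ (⟨χ₂, h₂⟩ : IrrCharacter G)⟩⟩),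
      sum_eq_zero fun χ hχ => ?_]
    · simp only [hd₁, hd₂]; ring
    simp only [mem_erase] at hχ
    obtain ⟨e2, e1, e0, -⟩ := hχ
    rw [cv_eq_zero a (isCharacter_of_isIrr χ.2) ?_ hC, mul_zero]
    rw [hcl _ χ.2, classInner_irr_ne htriv χ.2 (fun e => e0 (Subtype.ext e.symm)),
      classInner_irr_ne h₁ χ.2 (fun e => e1 (Subtype.ext e.symm)),
      classInner_irr_ne h₂ χ.2 (fun e => e2 (Subtype.ext e.symm))]
    ring
  -- sizes
  set k := Nat.card (orbit (stabilizer G a) b) with hk
  set l := Nat.card (orbit (stabilizer G a) (Quotient.out q')) with hl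
  have hkA : cv a (fun _ : G => (1 : ℂ)) A = k := cv_trivial_rel a
  have hlA : cv a (fun _ : G => (1 : ℂ)) A' = l := by
    rw [hA', ← cls_out a q']; exact cv_trivial_rel a
  set J : Matrix α α ℂ := Matrix.of fun _ _ => 1 with hJdef
  have hJI : IsInv G J := isInv_ones
  have hJ : J = (1 : ℂ) • (1 : Matrix α α ℂ) + (1 : ℂ) • A + (1 : ℂ) • A' := hexp J hJI
  have hlin : ∀ (χ : G → ℂ) (x y z : ℂ), cv a χ (x • (1 : Matrix α α ℂ) + y • A + z • A') =
      x * cv a χ 1 + y * cv a χ A + z * cv a χ A' := by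
    intro χ x y z
    have := cv_sum a χ (univ : Finset (Fin 3)) ![x, y, z] ![1, A, A']
    simpa [Fin.sum_univ_three] using this
  have hJ0 : ∀ χ : G → ℂ, IsIrrCharacter G χ → χ ≠ (fun _ => 1) → cv a χ J = 0 := by
    intro χ hχ hne'
    have := classInner_irr_ne hχ htriv hne'
    simp only [classInner, map_one, mul_one] at this
    simp only [cv, J, Matrix.of_apply, one_mul]
    rw [(mul_eq_zero.mp this).resolve_left (inv_ne_zero (card_ne_zero_complex G)), mul_zero]
  have hkl : k + l + 1 = 2 * m := by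
    have h := congrArg (cv a (fun _ : G => (1 : ℂ))) hJ
    rw [hlin, cv_trivial_one a, hkA, hlA, cv_trivial] at h
    simp [J, hn] at h
    exact_mod_cast (by linear_combination -h : (k : ℂ) + l + 1 = 2 * m)
  have : Nonempty α := ⟨a⟩
  have hmpos : 0 < m := by
    have := Fintype.card_pos (α := α); omega
  have hkpos : 0 < k := by
    have : Nonempty (orbit (stabilizer G a) b) := ⟨⟨b, mem_orbit_self b⟩⟩
    exact Nat.card_pos
  have hlpos : 0 < l := by
    have : Nonempty (orbit (stabilizer G a) (Quotient.out q')) := ⟨⟨_, mem_orbit_self _⟩⟩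
    exact Nat.card_pos
  -- symmetry
  have hAaa : A a a = 0 := by
    rw [hA, rel_apply_base, if_neg (fun e => hq e.symm)]
  have hAT : Aᵀ = A := by
    have h := hexp Aᵀ (isInv_transpose hAI)
    rw [Matrix.transpose_apply, hAaa, zero_smul, zero_add] at h
    have hk' := congrArg (cv a (fun _ : G => (1 : ℂ))) h
    rw [← zero_add ((Aᵀ a (Quotient.out q)) • A), ← zero_smul ℂ (1 : Matrix α α ℂ), hlin, hkA, hlA,
      cv_trivial] at hk'
    simp only [Matrix.transpose_apply] at hk' h
    rw [col_sum a hAI a, ← cv_trivial (G := G), hkA, zero_mul, zero_add] at hk'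
    rcases rel_zero_or_one a q (Quotient.out q) a with e1 | e1 <;>
      rcases rel_zero_or_one a q (Quotient.out q') a with e2 | e2 <;>
      rw [← hA] at e1 e2 <;> rw [e1, e2] at hk' h
    · exfalso; simp at hk'; omega
    · exfalso; simp at hk'; omega
    · rw [h, one_smul, zero_smul, add_zero]
    · exfalso; simp at hk'; omega
  -- no suborbit of size one
  have hne1 : ∀ y : α, y ≠ a → Nat.card (orbit (stabilizer G a) y) ≠ 1 := by
    intro y hy h1
    have hsub : (orbit (stabilizer G a) y).Subsingleton := by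
      rw [← Set.subsingleton_coe]; exact (Nat.card_eq_one_iff_unique.mp h1).1
    have : Nontrivial α := ⟨_, _, hy⟩
    have hfix : stabilizer G a ≤ stabilizer G y := fun g hg =>
      hsub (mem_orbit (a := y) (⟨g, hg⟩ : stabilizer G a)) (mem_orbit_self y)
    have key : ∀ x z : α, stabilizer G x ≤ stabilizer G z → stabilizer G x = stabilizer G z := by
      intro x z hxz
      rcases eq_or_lt_of_le hxz with h' | h'
      · exact h'
      · exact absurd ((IsPreprimitive.isCoatom_stabilizer_of_isPreprimitive (G := G) x).2 _ h')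
          (IsPreprimitive.isCoatom_stabilizer_of_isPreprimitive (G := G) z).1
    let B : Set α := {x | stabilizer G x = stabilizer G a}
    have hB : IsBlock G B := by
      rw [isBlock_iff_smul_eq_of_nonempty]
      rintro g ⟨_, ⟨x, hx, rfl⟩, hgx⟩
      have hgx' : stabilizer G (g • x) = stabilizer G a := hgx
      rw [stabilizer_smul_eq_stabilizer_map_conj, hx] at hgx'
      ext z
      rw [Set.mem_smul_set_iff_inv_smul_mem]
      constructor
      · intro hz
        show stabilizer G z = stabilizer G a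
        rw [← smul_inv_smul g z, stabilizer_smul_eq_stabilizer_map_conj,
          show stabilizer G (g⁻¹ • z) = stabilizer G a from hz, hgx']
      · intro hz
        show stabilizer G (g⁻¹ • z) = stabilizer G a
        apply Subgroup.map_injective (f := (MulAut.conj g).toMonoidHom) (MulAut.conj g).injective
        rw [hgx', ← stabilizer_smul_eq_stabilizer_map_conj, smul_inv_smul]
        exact hz
    rcases hprim.isTrivialBlock_of_isBlock hB with hs | hu
    · exact hy (hs (show y ∈ B from (key a y hfix).symm) (show a ∈ B from rfl))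
    · have hall : ∀ x : α, Nat.card (orbit (stabilizer G a) x) = 1 := by
        intro x
        have hx : stabilizer G x = stabilizer G a := by
          have : x ∈ B := by rw [hu]; exact Set.mem_univ x
          exact this
        rw [Nat.card_eq_one_iff_unique]
        refine ⟨⟨?_⟩, ⟨⟨x, mem_orbit_self x⟩⟩⟩
        rintro ⟨_, g₁, rfl⟩ ⟨_, g₂, rfl⟩
        have e : ∀ g : stabilizer G a, g • x = x := fun g =>
          show (g : G) • x = x from mem_stabilizer_iff.mp (hx.symm ▸ g.2)
        exact Subtype.ext (by simp [e])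
      have e1 : k = 1 := hall b
      have e2 : l = 1 := hall _
      omega
  have hk2 : 2 ≤ k := by have := hne1 b hb; omega
  have hl2 : 2 ≤ l := by
    have hne' : Quotient.out q' ≠ a := fun e => hq'0.1 (by rw [← cls_out a q', e])
    have := hne1 _ hne'
    omega
  -- eigenvalues
  set r := cv a χ₁ A with hr
  set s := cv a χ₂ A with hs
  have hc₁ := isCharacter_of_isIrr h₁
  have hc₂ := isCharacter_of_isIrr h₂
  have hct : IsCharacter G (fun _ => (1 : ℂ)) := isCharacter_one
  have e1 : (k : ℂ) + ((m : ℂ) - 1) * r + m * s = 0 := by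
    have h := htrace A hAI
    rw [hAaa, mul_zero, hkA] at h
    exact h.symm
  have hAA : (A * A) a a = k := by
    nth_rw 1 [← hAT]
    rw [Matrix.mul_apply, ← hkA, cv_trivial, ← col_sum a hAI a]
    refine sum_congr rfl fun x _ => ?_
    rcases rel_zero_or_one a q x a with h | h <;> rw [← hA] at h <;> simp [h]
  have e2 : (k : ℂ) ^ 2 + ((m : ℂ) - 1) * r ^ 2 + m * s ^ 2 = 2 * m * k := by
    have h := htrace (A * A) (isInv_mul hAI hAI)
    rw [hAA, cv_mul a hct (cv_trivial_one a) hAI hAI, cv_mul a hc₁ hm₁ hAI hAI,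
      cv_mul a hc₂ hm₂ hAI hAI, hkA] at h
    linear_combination -h
  obtain ⟨z, hz⟩ : ∃ z : ℤ, (A * A) a (Quotient.out q) - (A * A) a (Quotient.out q') = z := by
    have hint : ∀ y, ∃ z : ℤ, (A * A) a y = z := fun y => by
      refine ⟨∑ x, (if A a x = 1 ∧ A x y = 1 then 1 else 0), ?_⟩
      rw [Matrix.mul_apply, Int.cast_sum]
      refine sum_congr rfl fun x _ => ?_
      rcases rel_zero_or_one a q a x with h | h <;> rcases rel_zero_or_one a q x y with h' | h' <;>
        rw [← hA] at h h' <;> simp [h, h']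
    obtain ⟨z₁, hz₁⟩ := hint (Quotient.out q)
    obtain ⟨z₂, hz₂⟩ := hint (Quotient.out q')
    exact ⟨z₁ - z₂, by rw [hz₁, hz₂]; push_cast; ring⟩
  have hquad : ∀ χ : G → ℂ, IsIrrCharacter G χ → χ ≠ (fun _ => 1) → cv a χ 1 = 1 →
      cv a χ A ^ 2 = (z : ℂ) * cv a χ A + ((k : ℂ) - (A * A) a (Quotient.out q')) := by
    intro χ hχ hne' h1
    have h := congrArg (cv a χ) (hexp (A * A) (isInv_mul hAI hAI))
    rw [hlin, cv_mul a (isCharacter_of_isIrr hχ) h1 hAI hAI, h1, hAA] at h
    have hJ' := congrArg (cv a χ) hJ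
    rw [hlin, hJ0 χ hχ hne', h1] at hJ'
    linear_combination h - (A * A) a (Quotient.out q') * hJ' + cv a χ A * hz
  have q1 := hquad χ₁ h₁ hne.1 hm₁
  have q2 := hquad χ₂ h₂ hne.2 hm₂
  rw [← hr] at q1; rw [← hs] at q2
  have hrs : r ≠ s := by
    intro e
    rw [← e] at e1
    have hint : IsIntegral ℤ r := rel_integral a hc₁ q
    have hdvd := exists_int_of_isIntegral (z := (k : ℤ)) (f := 2 * m - 1) hint.neg
      (by push_cast [Nat.cast_sub (show 1 ≤ 2 * m by omega)]; linear_combination e1)
    have := Int.le_of_dvd (by exact_mod_cast hkpos) hdvd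
    omega
  have hsum' : r + s = z := by
    refine sub_eq_zero.mp ((mul_eq_zero.mp ?_).resolve_left (sub_ne_zero.mpr hrs))
    linear_combination q1 - q2
  have hr' : r = ((k + m * z : ℤ) : ℂ) := by
    push_cast
    linear_combination (-1 : ℂ) * e1 + (m : ℂ) * hsum'
  have hs' : s = ((z - (k + m * z) : ℤ) : ℂ) := by
    push_cast
    rw [hr'] at hsum'
    push_cast at hsum'
    linear_combination hsum'
  rw [hr', hs'] at e1 e2
  refine wielandt_arith (m := (m : ℤ)) (k := (k : ℤ)) (r := (k + m * z : ℤ))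
    (s := z - (k + m * z)) (by omega) (by omega) (by omega) ?_ ?_
  · apply Int.cast_injective (α := ℂ)
    push_cast at e1 ⊢
    linear_combination e1
  · apply Int.cast_injective (α := ℂ)
    push_cast at e2 ⊢
    linear_combination e2

end Cfsg.Agent.Lib.Perm.CharOrbital
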