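import Mathlib
import Cfsg.Agent.Lib.ZassSL25.Structure

/-!
Linear groups regular on the nonzero vectors: minimal invariant subspaces of a normal cyclic
subgroup and the bound on the action of the group on it.
-/

set_option autoImplicit false

namespace Cfsg.Agent.Lib.SharpLinear

open Polynomial

variable {p : ℕ} [Fact p.Prime] {V : Type*} [AddCommGroup V] [Module (ZMod p) V] [Finite V]
  (H : Subgroup (V ≃ₗ[ZMod p] V))

/-- The linear map of an element. -/
abbrev act (h : H) : Module.End (ZMod p) V := ((h : V ≃ₗ[ZMod p] V) : V →ₗ[ZMod p] V)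

/-- Invariance under one element. -/
def Invar (b : H) (W : Submodule (ZMod p) V) : Prop := ∀ v ∈ W, act H b v ∈ W

/-- Regularity on nonzero vectors. -/
def Reg : Prop := ∀ v w : V, v ≠ 0 → w ≠ 0 → ∃! h : H, (h : V ≃ₗ[ZMod p] V) v = w

/-- A minimal nonzero invariant subspace. -/
def MinInv (b : H) (W : Submodule (ZMod p) V) : Prop :=
  Invar H b W ∧ W ≠ ⊥ ∧ ∀ W' ≤ W, Invar H b W' → W' = ⊥ ∨ W' = W

variable {H}

omit [Finite V] in
theorem act_mul (g h : H) (v : V) : act H (g * h) v = act H g (act H h v) := rfl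

omit [Finite V] in
theorem act_pow (g : H) (n : ℕ) : act H (g ^ n) = act H g ^ n := by
  induction n with
  | zero => rfl
  | succ n ih => rw [pow_succ, pow_succ, ← ih]; rfl

omit [Finite V] in
theorem Invar.pow {b : H} {W : Submodule (ZMod p) V} (h : Invar H b W) (n : ℕ) :
    Invar H (b ^ n) W := by
  induction n with
  | zero => exact fun v hv => hv
  | succ n ih => exact fun v hv => by rw [pow_succ, act_mul]; exact ih _ (h v hv)

theorem Invar.aeval {b : H} {U : Submodule (ZMod p) V} (hU : Invar H b U) (g : (ZMod p)[X]) {v : V}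
    (hv : v ∈ U) : Polynomial.aeval (act H b) g v ∈ U := by
  induction g using Polynomial.induction_on' with
  | add f g hf hg => simpa using add_mem hf hg
  | monomial n c =>
    rw [aeval_monomial, Module.End.mul_apply, Module.algebraMap_end_apply, ← act_pow]
    exact U.smul_mem _ (hU.pow n v hv)

theorem finite_group : Finite (V ≃ₗ[ZMod p] V) :=
  Finite.of_injective (fun f : V ≃ₗ[ZMod p] V => (f : V → V)) DFunLike.coe_injective

theorem Invar.zpowers {b : H} {W : Submodule (ZMod p) V} (h : Invar H b W) {a : H}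
    (ha : a ∈ Subgroup.zpowers b) : Invar H a W := by
  haveI := finite_group (p := p) (V := V)
  obtain ⟨n, rfl⟩ := mem_powers_iff_mem_zpowers.mpr ha
  exact h.pow n

theorem Reg.free (hreg : Reg H) {h : H} {v : V} (hv : v ≠ 0) (e : act H h v = v) : h = 1 :=
  (hreg v v hv hv).unique e rfl

omit [Finite V] in
theorem act_ne_zero (h : H) {v : V} (hv : v ≠ 0) : act H h v ≠ 0 := fun e =>
  hv ((LinearEquiv.map_eq_zero_iff (h : V ≃ₗ[ZMod p] V)).mp e)

theorem card_eq (hreg : Reg H) [Nontrivial V] :
    Nat.card H = p ^ Module.finrank (ZMod p) V - 1 := by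
  classical
  haveI : Module.Finite (ZMod p) V := Module.Finite.of_finite
  obtain ⟨v₀, hv₀⟩ := exists_ne (0 : V)
  let e : H → {v : V // v ≠ 0} := fun h => ⟨act H h v₀, act_ne_zero h hv₀⟩
  have he : Function.Bijective e := ⟨fun x y hxy =>
    (hreg v₀ (e x).1 hv₀ (e x).2).unique rfl (congrArg Subtype.val hxy).symm,
    fun w => ⟨(hreg v₀ w.1 hv₀ w.2).exists.choose,
      Subtype.ext (hreg v₀ w.1 hv₀ w.2).exists.choose_spec⟩⟩
  haveI := Fintype.ofFinite V
  rw [Nat.card_congr (Equiv.ofBijective e he), Nat.card_eq_fintype_card,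
    Fintype.card_subtype_compl, Fintype.card_subtype_eq, Module.card_eq_pow_finrank (K := ZMod p),
    ZMod.card]

theorem fpfGroup (hreg : Reg H) [Nontrivial V] : Lib.ZassSL25.FPFGroup H := by
  haveI := finite_group (p := p) (V := V)
  haveI := Fintype.ofFinite H
  let a : H →* MulAut (Multiplicative V) :=
    { toFun := fun h => AddEquiv.toMultiplicative (h : V ≃ₗ[ZMod p] V).toAddEquiv
      map_one' := rfl
      map_mul' := fun _ _ => rfl }
  obtain ⟨χ, hχ⟩ := Lib.ZassSL25.exists_fpfChar a fun h hh t ht => by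
    by_contra ht1
    exact hh (hreg.free (fun e => ht1 (Multiplicative.toAdd.injective e))
      (congrArg Multiplicative.toAdd ht))
  exact hχ.fpfGroup

theorem card_zpowers_dvd (hreg : Reg H) {b : H} {W : Submodule (ZMod p) V} (hW : Invar H b W) :
    Nat.card (Subgroup.zpowers b) ∣ p ^ Module.finrank (ZMod p) W - 1 := by
  classical
  haveI := finite_group (p := p) (V := V)
  let A : MulAction (Subgroup.zpowers b) {w : W // w ≠ 0} :=
    { smul := fun m w => ⟨⟨act H m w.1.1, hW.zpowers m.2 _ w.1.2⟩, fun e =>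
        act_ne_zero (m : H) (fun e0 => w.2 (Subtype.ext e0)) (congrArg Subtype.val e)⟩
      one_smul := fun _ => rfl
      mul_smul := fun _ _ _ => rfl }
  have hst : ∀ x : {w : W // w ≠ 0}, MulAction.stabilizer (Subgroup.zpowers b) x = ⊥ := fun w =>
    (Subgroup.eq_bot_iff_forall _).mpr fun m e =>
      Subtype.ext (hreg.free (fun e0 => w.2 (Subtype.ext e0))
        (congrArg (fun z : {w : W // w ≠ 0} => (z.1 : V)) e))
  have h1 : Nat.card (Subgroup.zpowers b) ∣ Nat.card {w : W // w ≠ 0} := by
    rw [Nat.card_congr (MulAction.selfEquivOrbitsQuotientProd hst), Nat.card_prod]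
    exact dvd_mul_left _ _
  haveI := Fintype.ofFinite W
  rwa [Nat.card_eq_fintype_card (α := {w : W // w ≠ 0}), Fintype.card_subtype_compl,
    Fintype.card_subtype_eq, Module.card_eq_pow_finrank (K := ZMod p), ZMod.card] at h1

omit [Finite V] in
theorem MinInv.inf_eq_bot {b : H} {W W' : Submodule (ZMod p) V} (h : MinInv H b W)
    (h' : MinInv H b W') (hne : W ≠ W') : W ⊓ W' = ⊥ := by
  have hi : Invar H b (W ⊓ W') := fun v hv => ⟨h.1 v hv.1, h'.1 v hv.2⟩
  rcases h.2.2 _ inf_le_left hi with e | e
  · exact e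
  · rcases h'.2.2 _ inf_le_right hi with e' | e'
    · exact e'
    · exact absurd (e.symm.trans e') hne

theorem exists_minInv {b : H} {W₀ : Submodule (ZMod p) V} (h : Invar H b W₀) (hne : W₀ ≠ ⊥) :
    ∃ W, W ≤ W₀ ∧ MinInv H b W := by
  haveI : Finite (Submodule (ZMod p) V) :=
    Finite.of_injective (fun W : Submodule (ZMod p) V => (W : Set V)) SetLike.coe_injective
  obtain ⟨W, ⟨hW1, hW2, hW3⟩, hmin⟩ :=
    (Set.toFinite {W : Submodule (ZMod p) V | Invar H b W ∧ W ≠ ⊥ ∧ W ≤ W₀}).exists_minimal
      ⟨W₀, h, hne, le_rfl⟩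
  refine ⟨W, hW3, hW1, hW2, fun W' hle hinv => or_iff_not_imp_left.mpr fun hne' => ?_⟩
  exact le_antisymm hle (hmin ⟨hinv, hne', hle.trans hW3⟩ hle)

theorem MinInv.translate {b : H} (hn : (Subgroup.zpowers b).Normal) {W : Submodule (ZMod p) V}
    (hW : MinInv H b W) (h : H) : MinInv H b (W.map (act H h)) := by
  have key : ∀ (k : H) (U : Submodule (ZMod p) V), Invar H b U → Invar H b (U.map (act H k)) := by
    rintro k U hU _ ⟨u, hu, rfl⟩
    refine ⟨act H (k⁻¹ * b * k) u, hU.zpowers ?_ u hu, ?_⟩
    · simpa using hn.conj_mem b (Subgroup.mem_zpowers b) k⁻¹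
    · rw [← act_mul, ← act_mul]; congr 2; group
  have hback : ∀ (k : H) (U : Submodule (ZMod p) V), (U.map (act H k)).map (act H k⁻¹) = U := by
    intro k U
    rw [← Submodule.map_comp]
    convert Submodule.map_id U
    refine LinearMap.ext fun v => ?_
    show act H k⁻¹ (act H k v) = v
    rw [← act_mul, inv_mul_cancel]; rfl
  refine ⟨key h W hW.1, fun e => hW.2.1 ?_, fun W' hle hinv => ?_⟩
  · rw [← hback h W, e, Submodule.map_bot]
  · have hW' : W'.map (act H h⁻¹) ≤ W := (Submodule.map_mono hle).trans (hback h W).le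
    have hb' : (W'.map (act H h⁻¹)).map (act H h) = W' := by simpa using hback h⁻¹ W'
    rcases hW.2.2 _ hW' (key _ _ hinv) with e | e
    · left; rw [← hb', e, Submodule.map_bot]
    · right; rw [← hb', e]

theorem exists_minInv_mem (hreg : Reg H) {b : H} (hn : (Subgroup.zpowers b).Normal)
    {W : Submodule (ZMod p) V} (hW : MinInv H b W) {v : V} (hv : v ≠ 0) :
    ∃ W', MinInv H b W' ∧ v ∈ W' ∧
      Module.finrank (ZMod p) W' = Module.finrank (ZMod p) W := by
  obtain ⟨u, hu, hu0⟩ := Submodule.exists_mem_ne_zero_of_ne_bot hW.2.1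
  obtain ⟨h, hh, -⟩ := hreg u v hu0 hv
  exact ⟨W.map (act H h), hW.translate hn h, ⟨u, hu, hh⟩,
    LinearEquiv.finrank_map_eq (h : V ≃ₗ[ZMod p] V) W⟩

theorem two_mul_le (hreg : Reg H) {b : H} (hn : (Subgroup.zpowers b).Normal)
    {W : Submodule (ZMod p) V} (hW : MinInv H b W) (hne : W ≠ ⊤) :
    2 * Module.finrank (ZMod p) W ≤ Module.finrank (ZMod p) V := by
  haveI : Module.Finite (ZMod p) V := Module.Finite.of_finite
  obtain ⟨v, hv⟩ : ∃ v, v ∉ W := by
    by_contra h
    push Not at h
    exact hne (eq_top_iff.mpr fun v _ => h v)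
  obtain ⟨W', hW', hvW', hdim⟩ := exists_minInv_mem hreg hn hW (v := v)
    (fun e => hv (by rw [e]; exact zero_mem W))
  have h1 := Submodule.finrank_sup_add_finrank_inf_eq W W'
  rw [hW.inf_eq_bot hW' (fun e => hv (e ▸ hvW')), finrank_bot, hdim] at h1
  have h2 := Submodule.finrank_le (W ⊔ W')
  omega

/-- The annihilating irreducible polynomial of a minimal invariant subspace. -/
theorem MinInv.exists_poly {b : H} {W : Submodule (ZMod p) V} (hW : MinInv H b W) :
    ∃ g : (ZMod p)[X], g.Monic ∧ Irreducible g ∧ g.natDegree ≤ Module.finrank (ZMod p) W ∧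
      (∀ v ∈ W, aeval (act H b) g v = 0) ∧
      ∀ f : (ZMod p)[X], (∀ v ∈ W, aeval (act H b) f v = 0) → g ∣ f := by
  haveI : Module.Finite (ZMod p) V := Module.Finite.of_finite
  haveI : Nontrivial W := Submodule.nontrivial_iff_ne_bot.mpr hW.2.1
  set γ : Module.End (ZMod p) W := (act H b).restrict hW.1 with hγ
  have hγv : ∀ (f : (ZMod p)[X]) (v : W), ((aeval γ f v : W) : V) = aeval (act H b) f (v : V) := by
    intro f
    induction f using Polynomial.induction_on' with
    | add f g hf hg => intro v; simp [hf, hg]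
    | monomial n c =>
      intro v
      have : ∀ n (v : W), (((γ ^ n) v : W) : V) = (act H b ^ n) (v : V) := by
        intro n
        induction n with
        | zero => intro v; rfl
        | succ n ih => intro v; rw [pow_succ, pow_succ, Module.End.mul_apply, Module.End.mul_apply, ih]; rfl
      simp [aeval_monomial, Module.algebraMap_end_apply, this]
  have hint : IsIntegral (ZMod p) γ := Algebra.IsIntegral.isIntegral γ
  set g := minpoly (ZMod p) γ with hg
  refine ⟨g, minpoly.monic hint, ?_, ?_, fun v hv => ?_, fun f hf => ?_⟩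
  · refine irreducible_of_monic (minpoly.monic hint) ?_ |>.mpr ?_
    · exact minpoly.ne_one _ _
    · intro a c ham hcm hac
      have h0 : aeval γ a * aeval γ c = 0 := by rw [← map_mul, hac, minpoly.aeval]
      have hdeg := congrArg natDegree hac
      rw [natDegree_mul ham.ne_zero hcm.ne_zero] at hdeg
      by_cases hc : aeval γ c = 0
      · left
        have h1 := natDegree_le_of_dvd (minpoly.dvd (ZMod p) γ hc) hcm.ne_zero
        exact ham.natDegree_eq_zero.mp (by omega)
      · right
        have hinv : Invar H b ((LinearMap.range (aeval γ c)).map W.subtype) := by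
          rintro _ ⟨_, ⟨x, rfl⟩, rfl⟩
          refine ⟨aeval γ c (γ x), ⟨_, rfl⟩, ?_⟩
          have : aeval γ c * γ = γ * aeval γ c := by
            have h2 : aeval γ (c * X) = aeval γ (X * c) := by rw [mul_comm]
            simpa using h2
          have h3 := LinearMap.congr_fun this x
          simp only [Module.End.mul_apply] at h3
          rw [h3]; rfl
        rcases hW.2.2 _ (Submodule.map_subtype_le _ _) hinv with e | e
        · exact absurd (LinearMap.range_eq_bot.mp
            (Submodule.map_injective_of_injective W.injective_subtype (e.trans (Submodule.map_bot _).symm))) hc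
        · have hr : LinearMap.range (aeval γ c) = ⊤ := by
            refine Submodule.map_injective_of_injective W.injective_subtype ?_
            rw [e, Submodule.map_subtype_top]
          have ha : aeval γ a = 0 := LinearMap.ext fun x => by
            obtain ⟨y, rfl⟩ := LinearMap.range_eq_top.mp hr x
            exact LinearMap.congr_fun h0 y
          have h1 := natDegree_le_of_dvd (minpoly.dvd (ZMod p) γ ha) ham.ne_zero
          exact hcm.natDegree_eq_zero.mp (by omega)
  · refine le_trans (natDegree_le_of_dvd (LinearMap.minpoly_dvd_charpoly γ)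
      γ.charpoly_monic.ne_zero) (le_of_eq γ.charpoly_natDegree)
  · rw [← hγv g ⟨v, hv⟩, minpoly.aeval]; rfl
  · exact minpoly.dvd _ _ (LinearMap.ext fun v => Subtype.ext (by rw [hγv]; simpa using hf v v.2))

theorem poly_global (hreg : Reg H) {b : H} (hn : (Subgroup.zpowers b).Normal)
    {W : Submodule (ZMod p) V} (hW : MinInv H b W) {f : (ZMod p)[X]} (hfirr : Irreducible f)
    (hf : ∀ v ∈ W, aeval (act H b) f v = 0) (w : V) : aeval (act H b) f w = 0 := by
  by_contra hw
  obtain ⟨u, hu, hu0⟩ := Submodule.exists_mem_ne_zero_of_ne_bot hW.2.1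
  have hw0 : w ≠ 0 := fun e => hw (by rw [e, map_zero])
  have huw : u + w ≠ 0 := fun e => hw (by
    rw [eq_neg_of_add_eq_zero_right e, map_neg, hf u hu, neg_zero])
  obtain ⟨W₁, hW1, huw1, -⟩ := exists_minInv_mem hreg hn hW huw
  obtain ⟨W₂, hW2, hw2, -⟩ := exists_minInv_mem hreg hn hW hw0
  obtain ⟨g, -, hgirr, -, hg, -⟩ := hW1.exists_poly
  have h0 := hg _ huw1
  rw [map_add] at h0
  have hpow := fun (U : Submodule (ZMod p) V) (hU : Invar H b U) v hv => hU.aeval g (v := v) hv
  have hne : W ≠ W₂ := fun e => hw (hf w (e ▸ hw2))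
  have hu1 : aeval (act H b) g u = 0 := by
    have hm : aeval (act H b) g u ∈ W ⊓ W₂ := ⟨hpow W hW.1 u hu, by
      rw [eq_neg_of_add_eq_zero_left h0]; exact neg_mem (hpow W₂ hW2.1 w hw2)⟩
    rwa [hW.inf_eq_bot hW2 hne, Submodule.mem_bot] at hm
  have hw1 : aeval (act H b) g w = 0 := by rwa [hu1, zero_add] at h0
  by_cases hdvd : g ∣ f
  · obtain ⟨c, rfl⟩ := hdvd
    exact hw (by rw [mul_comm, map_mul, Module.End.mul_apply, hw1, map_zero])
  · obtain ⟨s, t, hst⟩ := hgirr.coprime_iff_not_dvd.mpr hdvd
    have h1 := congrArg (fun q => aeval (act H b) q u) hst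
    simp only [map_add, map_mul, map_one, LinearMap.add_apply, Module.End.mul_apply, hu1,
      hf u hu, map_zero, add_zero, Module.End.one_apply] at h1
    exact hu0 h1.symm

/-- The conjugates of `b` are roots of its polynomial. -/
theorem index_centralizer_le (hreg : Reg H) {b : H} (hn : (Subgroup.zpowers b).Normal)
    {W : Submodule (ZMod p) V} (hW : MinInv H b W) :
    (Subgroup.centralizer ({b} : Set H)).index ≤ Module.finrank (ZMod p) W := by
  classical
  haveI := finite_group (p := p) (V := V)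
  obtain ⟨g, hgm, hgirr, hgdeg, hg, hgdvd⟩ := hW.exists_poly
  haveI := Fact.mk hgirr
  refine le_trans ?_ hgdeg
  have hk : ∀ h : H, ∃ n : ℕ, b ^ n = h * b * h⁻¹ := fun h =>
    mem_powers_iff_mem_zpowers.mpr (hn.conj_mem b (Subgroup.mem_zpowers b) h)
  choose n hpn using hk
  have hroot : ∀ h, aeval (AdjoinRoot.root g ^ n h) g = 0 := by
    intro h
    rw [← AdjoinRoot.aeval_eq (X : (ZMod p)[X]) |>.trans AdjoinRoot.mk_X, ← map_pow,
      ← aeval_comp, AdjoinRoot.aeval_eq, AdjoinRoot.mk_eq_zero]
    refine hgdvd _ fun v hv => ?_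
    rw [aeval_comp, map_pow, aeval_X, ← act_pow, hpn]
    have hconj : ∀ (f : (ZMod p)[X]) (v : V),
        aeval (act H (h * b * h⁻¹)) f v = act H h (aeval (act H b) f (act H h⁻¹ v)) := by
      intro f
      induction f using Polynomial.induction_on' with
      | add f g hf hg => intro v; simp only [map_add, LinearMap.add_apply, hf, hg]
      | monomial m c =>
        intro v
        rw [aeval_monomial, aeval_monomial, Module.End.mul_apply, Module.End.mul_apply,
          Module.algebraMap_end_apply, Module.algebraMap_end_apply, map_smul, ← act_pow, ← act_pow,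
          ← act_mul, ← act_mul, conj_pow]
    rw [hconj, poly_global hreg hn hW hgirr hg, map_zero]
  have hfin : {x : AdjoinRoot g | aeval x g = 0}.Finite ∧
      {x : AdjoinRoot g | aeval x g = 0}.ncard ≤ g.natDegree := by
    have h2 : {x : AdjoinRoot g | aeval x g = 0} ⊆ ↑(g.aroots (AdjoinRoot g)).toFinset := fun x hx => by
      simp only [Finset.mem_coe, Multiset.mem_toFinset, mem_aroots]
      exact ⟨hgm.ne_zero, hx⟩
    refine ⟨(Finset.finite_toSet _).subset h2, (Set.ncard_le_ncard h2 (Finset.finite_toSet _)).trans ?_⟩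
    rw [Set.ncard_coe_finset]
    refine (Multiset.toFinset_card_le _).trans ?_
    rw [aroots_def]
    exact (card_roots' _).trans natDegree_map_le
  haveI := hfin.1.to_subtype
  refine le_trans ?_ hfin.2
  rw [Subgroup.index_eq_card, ← Nat.card_coe_set_eq]
  refine Nat.card_le_card_of_injective
    (fun x : H ⧸ Subgroup.centralizer ({b} : Set H) => ⟨_, hroot x.out⟩) fun x y e => ?_
  have e' : AdjoinRoot.root g ^ n x.out = AdjoinRoot.root g ^ n y.out := congrArg Subtype.val e
  rw [← sub_eq_zero, ← AdjoinRoot.mk_X (f := g), ← map_pow, ← map_pow, ← map_sub, AdjoinRoot.mk_eq_zero] at e'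
  obtain ⟨u, hu, hu0⟩ := Submodule.exists_mem_ne_zero_of_ne_bot hW.2.1
  have h1 : aeval (act H b) (X ^ n x.out - X ^ n y.out : (ZMod p)[X]) u = 0 := by
    obtain ⟨c, hc⟩ := e'
    rw [hc, mul_comm, map_mul, Module.End.mul_apply, hg u hu, map_zero]
  simp only [map_sub, map_pow, aeval_X, ← act_pow, hpn, LinearMap.sub_apply, sub_eq_zero] at h1
  have h2 : (y.out * b * y.out⁻¹)⁻¹ * (x.out * b * x.out⁻¹) = 1 :=
    hreg.free hu0 (by rw [act_mul, h1, ← act_mul, inv_mul_cancel]; rfl)
  rw [inv_mul_eq_one] at h2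
  rw [← Quotient.out_eq x, ← Quotient.out_eq y]
  refine QuotientGroup.eq.mpr (Subgroup.mem_centralizer_iff.mpr fun t ht => ?_)
  rw [Set.mem_singleton_iff] at ht
  subst ht
  calc t * (x.out⁻¹ * y.out) = x.out⁻¹ * (x.out * t * x.out⁻¹) * y.out := by group
    _ = x.out⁻¹ * y.out * t := by rw [← h2]; group

end Cfsg.Agent.Lib.SharpLinear
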