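import Mathlib.GroupTheory.GroupAction.Jordan
import Mathlib.GroupTheory.Perm.Cycle.Type

/-!
Multiply transitive groups containing an element of small support.
-/

set_option autoImplicit false

namespace Cfsg.Agent.Lib.Perm

open MulAction Equiv

variable {α : Type*} [Fintype α] [DecidableEq α] (G : Subgroup (Equiv.Perm α))

theorem exists_fix_move {j : ℕ} (hG : IsMultiplyPretransitive G α (j + 1)) (B : Finset α)
    (hB : B.card = j) (x w : α) (hx : x ∉ B) (hw : w ∉ B) :
    ∃ f ∈ G, (∀ b ∈ B, f b = b) ∧ f x = w := by
  let e : Fin j ↪ α := (B.equivFinOfCardEq hB).symm.toEmbedding.trans (Function.Embedding.subtype _)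
  have hne : ∀ (y : α), y ∉ B → y ∉ Set.range e := by
    rintro y hy ⟨i, rfl⟩; exact hy ((B.equivFinOfCardEq hB).symm i).2
  let ext : ∀ y, y ∉ B → (Fin (j + 1) ↪ α) := fun y hy =>
    ⟨Fin.snoc e y, Fin.snoc_injective_iff.mpr ⟨e.injective, hne y hy⟩⟩
  obtain ⟨f, hf⟩ := hG.exists_smul_eq (ext x hx) (ext w hw)
  refine ⟨f, f.2, fun b hb => ?_, ?_⟩
  · have := DFunLike.congr_fun hf (Fin.castSucc (B.equivFinOfCardEq hB ⟨b, hb⟩))
    simpa [ext, e, Function.Embedding.smul_apply, Subgroup.smul_def] using this
  · have := DFunLike.congr_fun hf (Fin.last j)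
    simpa [ext, Function.Embedding.smul_apply, Subgroup.smul_def] using this

theorem exists_exit_set (g : Perm α) : ∀ j, j ≤ g.support.card → ∃ A : Finset α, A ⊆ g.support ∧
    A.card = j ∧ ((∀ z ∈ A, g z ∈ A) ∨ ∃ z₀ ∈ A, g z₀ ∉ A ∧ ∀ z ∈ A, z ≠ z₀ → g z ∈ A) := by
  intro j
  induction j with
  | zero => exact fun _ => ⟨∅, Finset.empty_subset _, rfl, Or.inl (by simp)⟩
  | succ j ih =>
    intro hj
    obtain ⟨A, hA, hc, hcase⟩ := ih (by omega)
    rcases hcase with hinv | ⟨z₀, hz₀, hout, hin⟩
    · obtain ⟨y, hyS, hyA⟩ := Finset.exists_mem_notMem_of_card_lt_card (show A.card < g.support.card by omega)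
      refine ⟨insert y A, Finset.insert_subset hyS hA, by rw [Finset.card_insert_of_notMem hyA, hc],
        Or.inr ⟨y, Finset.mem_insert_self _ _, fun h => ?_, fun z hz hne => Finset.mem_insert_of_mem
          (hinv z ((Finset.mem_insert.mp hz).resolve_left hne))⟩⟩
      rcases Finset.mem_insert.mp h with e | e
      · exact Perm.mem_support.mp hyS e
      · obtain ⟨z, hz, hzy⟩ := Finset.surjOn_of_injOn_of_card_le g
          (fun z hz => hinv z hz) g.injective.injOn le_rfl e
        exact hyA (g.injective hzy ▸ hz)
    · refine ⟨insert (g z₀) A, Finset.insert_subset (Perm.apply_mem_support.mpr (hA hz₀)) hA,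
        by rw [Finset.card_insert_of_notMem hout, hc], ?_⟩
      by_cases h : g (g z₀) ∈ insert (g z₀) A
      · refine Or.inl fun z hz => ?_
        rcases Finset.mem_insert.mp hz with rfl | hz
        · exact h
        · by_cases e : z = z₀
          · exact e ▸ Finset.mem_insert_self _ _
          · exact Finset.mem_insert_of_mem (hin z hz e)
      · refine Or.inr ⟨g z₀, Finset.mem_insert_self _ _, h, fun z hz hne => ?_⟩
        have hz' := (Finset.mem_insert.mp hz).resolve_left hne
        by_cases e : z = z₀
        · exact e ▸ Finset.mem_insert_self _ _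
        · exact Finset.mem_insert_of_mem (hin z hz' e)

/-- The support of the quotient of two permutations avoids their agreements. -/
theorem card_support_quot (g f : Perm α) (B : Finset α) (hf : ∀ z ∈ B, f z = z)
    (Z : Finset α) (hZ : ∀ z ∈ Z, z ∈ B ∧ g z ∈ B) (hZS : Z ⊆ g.support) :
    (g⁻¹ * (f * g * f⁻¹)).support.card + Z.card ≤
      (g.support ∪ g.support.map f.toEmbedding).card := by
  rw [← Finset.card_union_of_disjoint]
  · refine Finset.card_le_card (Finset.union_subset (fun z hz => ?_) fun z hz => Finset.mem_union_left _ (hZS hz))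
    rw [Perm.mem_support] at hz
    by_contra hno
    simp only [Finset.mem_union, Finset.mem_map, Equiv.toEmbedding_apply, not_or, not_exists, not_and,
      Perm.notMem_support] at hno
    apply hz
    have h1 : g (f⁻¹ z) = f⁻¹ z := by
      by_contra h
      exact hno.2 _ (Perm.mem_support.mpr h) (f.apply_symm_apply z)
    simp only [Perm.mul_apply, h1]
    rw [Perm.inv_eq_iff_eq]
    exact (f.apply_symm_apply z).trans hno.1.symm
  · rw [Finset.disjoint_right]
    intro z hz
    rw [Perm.notMem_support]
    obtain ⟨h1, h2⟩ := hZ z hz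
    simp only [Perm.mul_apply]
    rw [Perm.inv_eq_iff_eq]
    have : f⁻¹ z = z := Perm.inv_eq_iff_eq.mpr (hf z h1).symm
    rw [this, hf _ h2]

theorem card_union_map_le (f : Perm α) (S Y : Finset α) (hY : Y ⊆ S) (hfY : ∀ y ∈ Y, f y ∈ S) :
    (S ∪ S.map f.toEmbedding).card + Y.card ≤ 2 * S.card := by
  have h1 := Finset.card_union_add_card_inter S (S.map f.toEmbedding)
  have h2 : (Y.map f.toEmbedding).card ≤ (S ∩ S.map f.toEmbedding).card := by
    refine Finset.card_le_card fun z hz => ?_
    obtain ⟨y, hy, rfl⟩ := Finset.mem_map.mp hz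
    exact Finset.mem_inter.mpr ⟨hfY y hy, Finset.mem_map_of_mem _ (hY hy)⟩
  rw [Finset.card_map] at h1 h2
  omega

omit [Fintype α] in
theorem conj_apply_fixed {g f : Perm α} {z : α} (hz : f z = z) : (f * g * f⁻¹) z = f (g z) := by
  simp only [Perm.mul_apply, Perm.inv_eq_iff_eq.mpr hz.symm]

/-- A commutator of smaller support. -/
theorem exists_smaller {k : ℕ} (hkn : k ≤ Fintype.card α)
    (hG : IsMultiplyPretransitive G α k) {g : Perm α} (hg1 : 4 ≤ g.support.card)
    (hmk : g.support.card + 2 < 2 * k) (hn : 5 ≤ Fintype.card α) :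
    ∃ f ∈ G, f * g * f⁻¹ ≠ g ∧
      ((g⁻¹ * (f * g * f⁻¹)).support.card < g.support.card) := by
  have htr : ∀ j, j + 1 ≤ k → IsMultiplyPretransitive G α (j + 1) := fun j hj =>
    isMultiplyPretransitive_of_le (n := k) hj (by rw [Nat.card_eq_fintype_card]; exact hkn)
  by_cases hfull : ∃ w, w ∉ g.support
  · obtain ⟨w, hw⟩ := hfull
    have hmove : ∀ (f : Perm α) (x : α), x ∈ g.support → f x = w → f * g * f⁻¹ ≠ g := by
      intro f x hx hfx e
      have := congrArg (fun σ : Perm α => σ w) e
      simp only [Perm.mul_apply, show f⁻¹ w = x from Perm.inv_eq_iff_eq.mpr hfx.symm,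
        Perm.notMem_support.mp hw] at this
      exact Perm.mem_support.mp hx (f.injective (this.trans hfx.symm))
    by_cases hmk' : g.support.card ≤ k
    · obtain ⟨A, hAS, hAc, hcase⟩ := exists_exit_set g (g.support.card - 1) (Nat.sub_le _ _)
      obtain ⟨x, hxS, hxA⟩ := Finset.exists_mem_notMem_of_card_lt_card (show A.card < g.support.card by omega)
      obtain ⟨f, hf, hfA, hfx⟩ := exists_fix_move G (htr (g.support.card - 1) (by omega)) A hAc x w hxA
        (fun h => hw (hAS h))
      have hu := card_union_map_le f g.support A hAS (fun y hy => by rw [hfA y hy]; exact hAS hy)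
      refine ⟨f, hf, hmove f x hxS hfx, ?_⟩
      rcases hcase with hinv | ⟨z₀, hz₀, -, hin⟩
      · have := card_support_quot g f A hfA A (fun z hz => ⟨hz, hinv z hz⟩) hAS
        omega
      · have := card_support_quot g f A hfA (A.erase z₀)
          (fun z hz => ⟨Finset.mem_of_mem_erase hz, hin z (Finset.mem_of_mem_erase hz) (Finset.ne_of_mem_erase hz)⟩)
          ((Finset.erase_subset _ _).trans hAS)
        rw [Finset.card_erase_of_mem hz₀] at this
        omega
    · obtain ⟨A, hAS, hAc, hcase⟩ := exists_exit_set g (k - 1) (by omega)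
      rcases hcase with hinv | ⟨z₀, hz₀, hout, hin⟩
      · obtain ⟨x, hxS, hxA⟩ := Finset.exists_mem_notMem_of_card_lt_card (show A.card < g.support.card by omega)
        obtain ⟨f, hf, hfA, hfx⟩ := exists_fix_move G (htr (k - 1) (by omega)) A hAc x w hxA
          (fun h => hw (hAS h))
        have hu := card_union_map_le f g.support A hAS (fun y hy => by rw [hfA y hy]; exact hAS hy)
        have := card_support_quot g f A hfA A (fun z hz => ⟨hz, hinv z hz⟩) hAS
        exact ⟨f, hf, hmove f x hxS hfx, by omega⟩
      · have hxS : g z₀ ∈ g.support := Perm.apply_mem_support.mpr (hAS hz₀)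
        obtain ⟨v, hvS, hvA⟩ := Finset.exists_mem_notMem_of_card_lt_card
          (show (insert (g z₀) A).card < g.support.card by rw [Finset.card_insert_of_notMem hout]; omega)
        simp only [Finset.mem_insert, not_or] at hvA
        obtain ⟨f, hf, hfA, hfx⟩ := exists_fix_move G (htr (k - 1) (by omega)) A hAc (g z₀) v hout hvA.2
        refine ⟨f, hf, fun e => ?_, ?_⟩
        · have := congrArg (fun σ : Perm α => σ z₀) e
          simp only [conj_apply_fixed (hfA z₀ hz₀), hfx] at this
          exact hvA.1 this
        · have hu := card_union_map_le f g.support (insert (g z₀) A) (Finset.insert_subset hxS hAS)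
            (fun y hy => by
              rcases Finset.mem_insert.mp hy with rfl | hy
              · rw [hfx]; exact hvS
              · rw [hfA y hy]; exact hAS hy)
          rw [Finset.card_insert_of_notMem hout] at hu
          have := card_support_quot g f A hfA (A.erase z₀)
            (fun z hz => ⟨Finset.mem_of_mem_erase hz, hin z (Finset.mem_of_mem_erase hz) (Finset.ne_of_mem_erase hz)⟩)
            ((Finset.erase_subset _ _).trans hAS)
          rw [Finset.card_erase_of_mem hz₀] at this
          omega
  · push Not at hfull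
    have hne : ∀ z, g z ≠ z := fun z => Perm.mem_support.mp (hfull z)
    have hSu : g.support = Finset.univ := Finset.eq_univ_iff_forall.mpr hfull
    have hcard : g.support.card = Fintype.card α := by rw [hSu, Finset.card_univ]
    have hgood : ∀ (f : Perm α) (a : α), f a = a → f (g a) = g a →
        (g⁻¹ * (f * g * f⁻¹)).support.card < g.support.card := by
      intro f a h1 h2
      refine Finset.card_lt_card (Finset.ssubset_iff_subset_ne.mpr ⟨fun z _ => hfull z, fun e => ?_⟩)
      have ha : a ∈ (g⁻¹ * (f * g * f⁻¹)).support := e ▸ hfull a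
      apply Perm.mem_support.mp ha
      rw [Perm.mul_apply, conj_apply_fixed h1, h2]
      exact g.symm_apply_apply a
    by_cases hcyc : ∃ a, g (g a) ≠ a
    · obtain ⟨a, ha⟩ := hcyc
      obtain ⟨v, -, hv⟩ := Finset.exists_mem_notMem_of_card_lt_card
        (show ({a, g a, g (g a)} : Finset α).card < (Finset.univ : Finset α).card by
          rw [Finset.card_univ]; exact lt_of_le_of_lt Finset.card_le_three (by omega))
      simp only [Finset.mem_insert, Finset.mem_singleton, not_or] at hv
      obtain ⟨f, hf, hfA, hfx⟩ := exists_fix_move G (htr 2 (by omega)) {a, g a}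
        (Finset.card_pair (hne a).symm) (g (g a)) v
        (by simp [ha, hne (g a)]) (by simp [hv.1, hv.2.1])
      refine ⟨f, hf, fun e => ?_, hgood f a (hfA a (by simp)) (hfA (g a) (by simp))⟩
      have := congrArg (fun σ : Perm α => σ (g a)) e
      simp only [conj_apply_fixed (hfA (g a) (by simp)), hfx] at this
      exact hv.2.2 this
    · push Not at hcyc
      obtain ⟨a, -⟩ : g.support.Nonempty := Finset.card_pos.mp (by omega)
      obtain ⟨x, -, hx⟩ := Finset.exists_mem_notMem_of_card_lt_card
        (show ({a, g a} : Finset α).card < (Finset.univ : Finset α).card by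
          rw [Finset.card_univ]; exact lt_of_le_of_lt Finset.card_le_two (by omega))
      simp only [Finset.mem_insert, Finset.mem_singleton, not_or] at hx
      have hxa : g x ≠ a := fun e => hx.2 (by rw [← e, hcyc])
      have hxga : g x ≠ g a := fun e => hx.1 (g.injective e)
      obtain ⟨v, -, hv⟩ := Finset.exists_mem_notMem_of_card_lt_card
        (show ({a, g a, x, g x} : Finset α).card < (Finset.univ : Finset α).card by
          rw [Finset.card_univ]; exact lt_of_le_of_lt Finset.card_le_four (by omega))
      simp only [Finset.mem_insert, Finset.mem_singleton, not_or] at hv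
      obtain ⟨f, hf, hfA, hfx⟩ := exists_fix_move G (htr 3 (by omega)) {a, g a, x}
        (by rw [Finset.card_insert_of_notMem (by simp [(hne a).symm, Ne.symm hx.1]),
          Finset.card_pair (Ne.symm hx.2)]) (g x) v
        (by simp [hxa, hxga, hne x]) (by simp [hv.1, hv.2.1, hv.2.2.1])
      refine ⟨f, hf, fun e => ?_, hgood f a (hfA a (by simp)) (hfA (g a) (by simp))⟩
      have := congrArg (fun σ : Perm α => σ x) e
      simp only [conj_apply_fixed (hfA x (by simp)), hfx] at this
      exact hv.2.2.2 this

/-- From a nonidentity element of small support, one of support at most three. -/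
theorem exists_small {k : ℕ} (hkn : k ≤ Fintype.card α)
    (hG : IsMultiplyPretransitive G α k) : ∀ (m : ℕ) (g : Perm α), g ∈ G → g ≠ 1 →
      g.support.card = m → m + 2 < 2 * k → ∃ h : Perm α, h ∈ G ∧ h ≠ 1 ∧ h.support.card ≤ 3 := by
  intro m
  induction m using Nat.strong_induction_on with
  | _ m ih =>
  intro g hg hg1 hm hmk
  by_cases hm3 : m ≤ 3
  · exact ⟨g, hg, hg1, hm.trans_le hm3⟩
  have hle : m ≤ Fintype.card α := hm ▸ Finset.card_le_univ _
  by_cases hn : 5 ≤ Fintype.card α
  · obtain ⟨f, hf, hne, hlt⟩ := exists_smaller G hkn hG (g := g) (by omega) (by omega) hn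
    exact ih _ (hm ▸ hlt) _ (mul_mem (inv_mem hg) (mul_mem (mul_mem hf hg) (inv_mem hf)))
      (fun e => hne (inv_mul_eq_one.mp e).symm) rfl (by omega)
  · have htop : G = ⊤ := by
      apply Equiv.Perm.eq_top_of_isMultiplyPretransitive
      exact isMultiplyPretransitive_of_le (n := k) (by rw [Nat.card_eq_fintype_card]; omega)
        (by rw [Nat.card_eq_fintype_card]; exact hkn)
    obtain ⟨a, b, hab⟩ := Fintype.exists_pair_of_one_lt_card (α := α) (by omega)
    exact ⟨swap a b, htop ▸ Subgroup.mem_top _, fun e => hab (by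
        simpa using (congrArg (fun σ : Perm α => σ a) e).symm),
      by rw [Perm.card_support_swap hab]; omega⟩

end Cfsg.Agent.Lib.Perm
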