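import Mathlib.GroupTheory.Subgroup.Simple
import Mathlib.GroupTheory.Subgroup.Center
import Mathlib.GroupTheory.NoncommPiCoprod
import Mathlib.GroupTheory.Commutator.Basic
import Mathlib.Algebra.Group.Subgroup.Finite

/-!
Subdirect subgroups of a power of a non-abelian simple group.
-/

set_option autoImplicit false

namespace Cfsg.Agent.Lib.Perm

variable {T : Type*} [Group T] [IsSimpleGroup T]

/-- A normal subgroup of a simple group is everything as soon as it is non-trivial. -/
theorem map_eq_top_of_ne_bot {R : Type*} [Group R] {f : R →* T} (hf : Function.Surjective f)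
    {A : Subgroup R} [A.Normal] (hA : A.map f ≠ ⊥) : A.map f = ⊤ :=
  (IsSimpleGroup.eq_bot_or_eq_top_of_normal _ (Subgroup.Normal.map inferInstance f hf)).resolve_left hA

theorem commutator_top_ne_bot (hT : ¬ IsMulCommutative T) :
    ⁅(⊤ : Subgroup T), (⊤ : Subgroup T)⁆ ≠ ⊥ := by
  intro h
  apply hT
  refine ⟨⟨fun a b => ?_⟩⟩
  open scoped commutatorElement in
  have h1 : ⁅a, b⁆ ∈ (⊥ : Subgroup T) :=
    h ▸ Subgroup.commutator_mem_commutator (Subgroup.mem_top a) (Subgroup.mem_top b)
  exact commutatorElement_eq_one_iff_mul_comm.mp (Subgroup.mem_bot.mp h1)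

/-- The kernels of two surjections onto a simple group are equal once comparable. -/
theorem ker_eq_of_le {R : Type*} [Group R] {f g : R →* T} (hf : Function.Surjective f)
    (hg : Function.Surjective g) (h : g.ker ≤ f.ker) : g.ker = f.ker := by
  refine le_antisymm h ?_
  by_contra hn
  have hmap : f.ker.map g ≠ ⊥ := fun h' => hn ((Subgroup.map_eq_bot_iff _).mp h')
  have htop := map_eq_top_of_ne_bot hg hmap
  have hker : f.ker = ⊤ := by
    rw [eq_top_iff]
    intro r _
    obtain ⟨x, hx, hxr⟩ : g r ∈ f.ker.map g := htop ▸ Subgroup.mem_top _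
    have h1 : x⁻¹ * r ∈ f.ker := h (by rw [MonoidHom.mem_ker, map_mul, map_inv, hxr, inv_mul_cancel])
    simpa using mul_mem hx h1
  obtain ⟨t, ht⟩ := exists_ne (1 : T)
  obtain ⟨r, rfl⟩ := hf t
  exact ht (MonoidHom.mem_ker.mp (hker ▸ Subgroup.mem_top r))

/-- Chinese remainder theorem for surjections onto a non-abelian simple group. -/
theorem exists_lift_simple {R : Type*} [Group R] (hT : ¬ IsMulCommutative T) {ι : Type*} [Finite ι]
    (f : ι → R →* T) (hf : ∀ i, Function.Surjective (f i))
    (hne : ∀ i j, i ≠ j → (f i).ker ≠ (f j).ker) (v : ι → T) :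
    ∃ r : R, ∀ i, f i r = v i := by
  classical
  let F : R →* (ι → T) := Pi.monoidHom f
  suffices h : ∀ i (t : T), Pi.mulSingle i t ∈ F.range by
    obtain ⟨r, hr⟩ := Subgroup.pi_mem_of_mulSingle_mem (H := F.range) v fun i => h i (v i)
    exact ⟨r, fun i => congrFun hr i⟩
  intro i t
  have := Fintype.ofFinite ι
  have key : ∀ S : Finset ι, i ∉ S → (⨅ j ∈ S, (f j).ker).map (f i) = ⊤ := by
    intro S
    induction S using Finset.induction_on with
    | empty => intro _; simpa [← MonoidHom.range_eq_map] using (MonoidHom.range_eq_top.mpr (hf i))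
    | @insert k S hk ih =>
      intro hi
      simp only [Finset.mem_insert, not_or] at hi
      rw [Finset.iInf_insert]
      set A := ⨅ j ∈ S, (f j).ker
      have hA : A.map (f i) = ⊤ := ih hi.2
      have hAn : A.Normal := Subgroup.normal_iInf_normal fun j => Subgroup.normal_iInf_normal fun _ => inferInstance
      have hB : (f k).ker.map (f i) = ⊤ := map_eq_top_of_ne_bot (hf i) fun h =>
        hne k i (Ne.symm hi.1) (ker_eq_of_le (hf i) (hf k) ((Subgroup.map_eq_bot_iff _).mp h))
      have hnot : ((f k).ker ⊓ A).map (f i) ≠ ⊥ := by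
        intro h
        apply commutator_top_ne_bot hT
        rw [eq_bot_iff, ← h]
        calc ⁅(⊤ : Subgroup T), (⊤ : Subgroup T)⁆ = ⁅(f k).ker.map (f i), A.map (f i)⁆ := by rw [hA, hB]
          _ = ⁅(f k).ker, A⁆.map (f i) := (Subgroup.map_commutator _ _ _).symm
          _ ≤ _ := Subgroup.map_mono (Subgroup.commutator_le_inf _ _)
      exact map_eq_top_of_ne_bot (hf i) hnot
  obtain ⟨r, hr, hrt⟩ : t ∈ (⨅ j ∈ Finset.univ.erase i, (f j).ker).map (f i) := by
    rw [key _ (Finset.notMem_erase i _)]; trivial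
  refine ⟨r, funext fun j => ?_⟩
  show f j r = Pi.mulSingle (M := fun _ : ι => T) i t j
  by_cases hji : j = i
  · subst hji
    rw [hrt, Pi.mulSingle_eq_same]
  · rw [Pi.mulSingle_eq_of_ne hji]
    have h1 := Subgroup.mem_iInf.mp hr j
    exact MonoidHom.mem_ker.mp (Subgroup.mem_iInf.mp h1 (Finset.mem_erase.mpr ⟨hji, Finset.mem_univ _⟩))

/-- Every surjection of a power of a non-abelian simple group onto that group is a projection
followed by an automorphism. -/
theorem exists_proj (hT : ¬ IsMulCommutative T) {ι : Type*} [Finite ι] (f : (ι → T) →* T)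
    (hf : Function.Surjective f) : ∃ (j : ι) (ψ : T →* T), Function.Injective ψ ∧ ∀ v, f v = ψ (v j) := by
  classical
  have := Fintype.ofFinite ι
  have hnorm : ∀ i, ((MonoidHom.mulSingle (fun _ : ι => T) i).range).Normal := by
    intro i
    refine ⟨?_⟩
    rintro _ ⟨t, rfl⟩ g
    refine ⟨g i * t * (g i)⁻¹, funext fun l => ?_⟩
    by_cases hl : l = i
    · subst hl; simp
    · simp [Pi.mulSingle_eq_of_ne hl]
  have hex : ∃ i t, f (Pi.mulSingle i t) ≠ 1 := by
    by_contra h
    push Not at h
    obtain ⟨t, ht⟩ := exists_ne (1 : T)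
    obtain ⟨v, rfl⟩ := hf t
    exact ht (MonoidHom.mem_ker.mp (Subgroup.pi_mem_of_mulSingle_mem (H := f.ker) v fun i => h i _))
  obtain ⟨j, t, hjt⟩ := hex
  set ψ := f.comp (MonoidHom.mulSingle (fun _ : ι => T) j) with hψ
  have hψt : ψ t ≠ 1 := hjt
  have hrange : ψ.range = ⊤ := by
    rw [hψ, MonoidHom.range_eq_map, ← Subgroup.map_map, ← MonoidHom.range_eq_map]
    have := hnorm j
    refine map_eq_top_of_ne_bot hf fun h => hjt ?_
    exact MonoidHom.mem_ker.mp (((Subgroup.map_eq_bot_iff _).mp h) ⟨t, rfl⟩)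
  have hinj : Function.Injective ψ := by
    rw [← MonoidHom.ker_eq_bot_iff]
    refine (IsSimpleGroup.eq_bot_or_eq_top_of_normal _ inferInstance).resolve_right fun h => hψt ?_
    exact MonoidHom.mem_ker.mp (h ▸ Subgroup.mem_top t)
  have hsplit : ∀ v : ι → T, f v = ψ (v j) * f (Function.update v j 1) := by
    intro v
    show f v = f (Pi.mulSingle j (v j)) * f (Function.update v j 1)
    rw [← map_mul]
    congr 1
    funext l
    by_cases hl : l = j
    · subst hl; simp
    · simp [Pi.mulSingle_eq_of_ne hl, Function.update_of_ne hl]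
  refine ⟨j, ψ, hinj, fun v => ?_⟩
  rw [hsplit v]
  have hc : ∀ w : ι → T, w j = 1 → f w = 1 := by
    intro w hw
    by_contra hne
    apply hT
    have hcent : ∀ z : T, z * f w = f w * z := by
      intro z
      obtain ⟨s, rfl⟩ : z ∈ ψ.range := hrange ▸ Subgroup.mem_top z
      show f (Pi.mulSingle j s) * f w = f w * f (Pi.mulSingle j s)
      rw [← map_mul, ← map_mul]
      congr 1
      funext l
      by_cases hl : l = j
      · subst hl; simp [hw]
      · simp [Pi.mulSingle_eq_of_ne hl]
    have htop : Subgroup.center T = ⊤ :=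
      (IsSimpleGroup.eq_bot_or_eq_top_of_normal _ inferInstance).resolve_left fun h =>
        hne (Subgroup.mem_bot.mp (h ▸ (Subgroup.mem_center_iff.mpr hcent)))
    exact ⟨⟨fun a b => Subgroup.mem_center_iff.mp (htop ▸ Subgroup.mem_top b) a⟩⟩
  rw [hc (Function.update v j 1) (by simp), mul_one]

end Cfsg.Agent.Lib.Perm
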