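import Cfsg.Agent.Lib.Perm.ZModFourier
import Cfsg.Agent.Lib.Perm.Orbital
import Mathlib.LinearAlgebra.Matrix.NonsingularInverse
import Mathlib.Tactic

/-! Fourier blocks of orbital matrices for an element with two cycles of length `p`. -/

set_option autoImplicit false
set_option linter.unusedSectionVars false

namespace Cfsg.Agent.Lib.Perm.TwoPrime

open MulAction Matrix Finset
open Cfsg.Agent.Lib.Perm.ZModFourier Cfsg.Agent.Lib.Perm.Orbital
open scoped ComplexConjugate

/-- An element with two cycles of length `p` covering everything, with coordinates. -/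
structure Cyc (p : ℕ) (G : Type*) [Group G] (α : Type*) [MulAction G α] where
  pt : Fin 2 → ZMod p → α
  bij : Function.Bijective fun z : Fin 2 × ZMod p => pt z.1 z.2
  sig : G
  shift : ∀ i u, sig • pt i u = pt i (u + 1)

variable {p : ℕ} [hp : Fact p.Prime] {G : Type*} [Group G] {α : Type*} [MulAction G α]
  (S : Cyc p G α)

theorem Cyc.shiftn (n : ℕ) (i : Fin 2) (u : ZMod p) :
    S.sig ^ n • S.pt i u = S.pt i (u + n) := by
  induction n with
  | zero => simp
  | succ n ih => rw [pow_succ', mul_smul, ih, S.shift, Nat.cast_succ, add_assoc]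

theorem Cyc.inv_shift {C : Matrix α α ℂ} (h : IsInv G C) (i j : Fin 2) (u w : ZMod p) :
    C (S.pt i u) (S.pt j w) = C (S.pt i 0) (S.pt j (w - u)) := by
  have := h (S.sig ^ u.val) (S.pt i 0) (S.pt j (w - u))
  rwa [S.shiftn, S.shiftn, ZMod.natCast_zmod_val, zero_add, sub_add_cancel] at this

theorem Cyc.sum_pts [Fintype α] (f : α → ℂ) : ∑ y, f y = ∑ j, ∑ w, f (S.pt j w) := by
  rw [← Fintype.sum_prod_type']
  exact (Fintype.sum_equiv (Equiv.ofBijective _ S.bij) _ _ fun _ => rfl).symm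

theorem four_sum {ι : Type*} (s : Finset ι) (f : ι → ZMod p → ℂ) (v : ZMod p) :
    four (fun u => ∑ i ∈ s, f i u) v = ∑ i ∈ s, four (f i) v := by
  simp only [four, sum_mul]
  exact sum_comm

/-- The blocks of a matrix. -/
def Cyc.blk (C : Matrix α α ℂ) (i j : Fin 2) (u : ZMod p) : ℂ := C (S.pt i 0) (S.pt j u)

/-- The Fourier block of a matrix at `v`. -/
noncomputable def Cyc.M (v : ZMod p) : Matrix α α ℂ →ₗ[ℂ] Matrix (Fin 2) (Fin 2) ℂ where
  toFun C := Matrix.of fun i j => four (S.blk C i j) v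
  map_add' C E := by
    ext i j
    simp only [Matrix.of_apply, Matrix.add_apply]
    rw [← four_add]
    rfl
  map_smul' c C := by
    ext i j
    simp only [Matrix.of_apply, Matrix.smul_apply, RingHom.id_apply, smul_eq_mul]
    rw [← four_smul]
    rfl

theorem Cyc.M_apply (v : ZMod p) (C : Matrix α α ℂ) (i j : Fin 2) :
    S.M v C i j = four (S.blk C i j) v := rfl

theorem Cyc.M_zero_apply (C : Matrix α α ℂ) (i j : Fin 2) :
    S.M 0 C i j = ∑ u, C (S.pt i 0) (S.pt j u) := four_zero _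

variable [Fintype α] [DecidableEq α]

theorem Cyc.M_mul (v : ZMod p) {C E : Matrix α α ℂ} (hE : IsInv G E) :
    S.M v (C * E) = S.M v C * S.M v E := by
  ext i j
  rw [Matrix.mul_apply, S.M_apply]
  have : S.blk (C * E) i j = fun u => ∑ l, conv (S.blk C i l) (S.blk E l j) u := by
    funext u
    rw [Cyc.blk, Matrix.mul_apply, S.sum_pts]
    refine sum_congr rfl fun l _ => sum_congr rfl fun w _ => ?_
    rw [S.inv_shift hE l j w u]
    rfl
  rw [this, four_sum]
  exact sum_congr rfl fun l _ => four_conv _ _ v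

theorem Cyc.M_one (v : ZMod p) : S.M v (1 : Matrix α α ℂ) = 1 := by
  ext i j
  rw [S.M_apply]
  by_cases h : i = j
  · subst h
    rw [Matrix.one_apply_eq, show S.blk (1 : Matrix α α ℂ) i i = Pi.single 0 1 from ?_, four_single]
    funext u
    rw [Cyc.blk, Matrix.one_apply]
    by_cases hu : u = 0
    · subst hu; simp
    · rw [if_neg, Pi.single_eq_of_ne hu]
      intro e
      exact hu (congrArg Prod.snd (S.bij.1 (show (fun z : Fin 2 × ZMod p => S.pt z.1 z.2) (i, 0) =
        (fun z : Fin 2 × ZMod p => S.pt z.1 z.2) (i, u) from e))).symm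
  · rw [Matrix.one_apply_ne h, show S.blk (1 : Matrix α α ℂ) i j = (0 : ℂ) • fun _ => 0 from ?_,
      four_smul, zero_mul]
    funext u
    rw [Cyc.blk, Matrix.one_apply, if_neg]
    · simp
    · intro e
      exact h (congrArg Prod.fst (S.bij.1 (show (fun z : Fin 2 × ZMod p => S.pt z.1 z.2) (i, 0) =
        (fun z : Fin 2 × ZMod p => S.pt z.1 z.2) (j, u) from e)))

theorem Cyc.M_transpose (v : ZMod p) {C : Matrix α α ℂ} (hC : IsInv G C)
    (hreal : ∀ x y, conj (C x y) = C x y) : S.M v Cᵀ = (S.M v C)ᴴ := by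
  ext i j
  rw [Matrix.conjTranspose_apply, S.M_apply, S.M_apply, Complex.star_def, conj_four]
  congr 1
  funext u
  simp only [Cyc.blk, Matrix.transpose_apply, hreal]
  rw [S.inv_shift hC j i u 0, zero_sub]

/-- The row sum at the base point. -/
def Cyc.kL : Matrix α α ℂ →ₗ[ℂ] ℂ where
  toFun C := ∑ y, C (S.pt 0 0) y
  map_add' C E := by simp [sum_add_distrib]
  map_smul' c C := by simp [mul_sum]

/-- The eigenvalue on the difference of the two cycles. -/
noncomputable def Cyc.sL : Matrix α α ℂ →ₗ[ℂ] ℂ where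
  toFun C := S.M 0 C 0 0 - S.M 0 C 0 1
  map_add' C E := by simp only [map_add, Matrix.add_apply]; ring
  map_smul' c C := by simp only [map_smul, Matrix.smul_apply, smul_eq_mul, RingHom.id_apply]; ring

/-- The diagonal Fourier sum. -/
noncomputable def Cyc.DL (v : ZMod p) : Matrix α α ℂ →ₗ[ℂ] ℂ where
  toFun C := S.M v C 0 0 + S.M v C 1 1
  map_add' C E := by simp only [map_add, Matrix.add_apply]; ring
  map_smul' c C := by simp only [map_smul, Matrix.smul_apply, smul_eq_mul, RingHom.id_apply]; ring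

/-- The second eigenvalue. -/
noncomputable def Cyc.rL (v : ZMod p) : Matrix α α ℂ →ₗ[ℂ] ℂ := S.DL v - S.sL

theorem Cyc.kL_apply (C : Matrix α α ℂ) : S.kL C = ∑ y, C (S.pt 0 0) y := rfl

theorem Cyc.sL_apply (C : Matrix α α ℂ) : S.sL C = S.M 0 C 0 0 - S.M 0 C 0 1 := rfl

theorem Cyc.rL_apply (v : ZMod p) (C : Matrix α α ℂ) :
    S.rL v C = S.M v C 0 0 + S.M v C 1 1 - S.sL C := rfl

variable [IsPretransitive G α]

theorem Cyc.zero_block {C : Matrix α α ℂ} (h : IsInv G C) :
    S.M 0 C 0 0 + S.M 0 C 0 1 = S.kL C ∧ S.M 0 C 1 0 = S.M 0 C 0 1 ∧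
      S.M 0 C 1 1 = S.M 0 C 0 0 := by
  have hr : ∀ i, S.M 0 C i 0 + S.M 0 C i 1 = S.kL C := by
    intro i
    rw [S.M_zero_apply, S.M_zero_apply, S.kL_apply, ← row_sum (S.pt 0 0) h (S.pt i 0), S.sum_pts,
      Fin.sum_univ_two]
  have hcol : S.M 0 C 0 0 + S.M 0 C 1 0 = S.kL C := by
    rw [S.M_zero_apply, S.M_zero_apply, S.kL_apply, ← col_sum (S.pt 0 0) h (S.pt 0 0), S.sum_pts,
      Fin.sum_univ_two]
    congr 1 <;>
    · refine Fintype.sum_equiv (Equiv.neg _) _ _ fun u => ?_
      rw [Equiv.neg_apply, S.inv_shift h _ _ (-u) 0]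
      simp
  have h0 := hr 0
  have h1 := hr 1
  exact ⟨h0, by linear_combination hcol - h0, by linear_combination h1 - hcol⟩

theorem Cyc.kL_mul {C E : Matrix α α ℂ} (h : IsInv G C) (h' : IsInv G E) :
    S.kL (C * E) = S.kL C * S.kL E := by
  rw [← (S.zero_block (isInv_mul h h')).1, ← (S.zero_block h).1, ← (S.zero_block h').1,
    S.M_mul 0 h']
  simp only [Matrix.mul_apply, Fin.sum_univ_two, (S.zero_block h').2.1, (S.zero_block h').2.2]
  ring

theorem Cyc.sL_mul {C E : Matrix α α ℂ} (h : IsInv G C) (h' : IsInv G E) :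
    S.sL (C * E) = S.sL C * S.sL E := by
  rw [S.sL_apply, S.sL_apply, S.sL_apply, S.M_mul 0 h']
  simp only [Matrix.mul_apply, Fin.sum_univ_two, (S.zero_block h').2.1, (S.zero_block h').2.2]
  ring

theorem Cyc.sL_one : S.sL (1 : Matrix α α ℂ) = 1 := by simp [S.sL_apply, S.M_one]

theorem Cyc.kL_one : S.kL (1 : Matrix α α ℂ) = 1 := by
  simp [S.kL_apply, Matrix.one_apply]

theorem Cyc.rL_one (v : ZMod p) : S.rL v (1 : Matrix α α ℂ) = 1 := by
  simp [S.rL_apply, S.sL_one, S.M_one]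

theorem Cyc.sL_transpose {C : Matrix α α ℂ} (h : IsInv G C) : S.sL Cᵀ = S.sL C := by
  have key : ∀ i, S.M 0 Cᵀ 0 i = S.M 0 C i 0 := by
    intro i
    rw [S.M_zero_apply, S.M_zero_apply]
    refine Fintype.sum_equiv (Equiv.neg _) _ _ fun u => ?_
    rw [Matrix.transpose_apply, S.inv_shift h i 0 u 0, zero_sub, Equiv.neg_apply]
  rw [S.sL_apply, S.sL_apply, key, key, (S.zero_block h).2.1]

theorem Cyc.kL_transpose {C : Matrix α α ℂ} (h : IsInv G C) : S.kL Cᵀ = S.kL C := by
  simp only [S.kL_apply, Matrix.transpose_apply]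
  exact col_sum (S.pt 0 0) h (S.pt 0 0)

theorem Cyc.trace_formula {C : Matrix α α ℂ} (h : IsInv G C) :
    2 * (p : ℂ) * C (S.pt 0 0) (S.pt 0 0) =
      S.kL C + p * S.sL C + ∑ v ∈ (univ : Finset (ZMod p)).erase 0, S.rL v C := by
  have e : ∀ i, ∑ v, S.M v C i i = p * C (S.pt 0 0) (S.pt 0 0) := by
    intro i
    simp only [S.M_apply, sum_four, Cyc.blk]
    obtain ⟨g, hg⟩ := exists_smul_eq G (S.pt 0 0) (S.pt i 0)
    rw [← hg, h g]
  have hz := S.zero_block h
  have h0 := sum_add_distrib (s := univ) (f := fun v => S.M v C 0 0) (g := fun v => S.M v C 1 1)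
  rw [e, e, ← add_sum_erase univ _ (mem_univ (0 : ZMod p))] at h0
  have h1 : ∑ v ∈ (univ : Finset (ZMod p)).erase 0, S.rL v C =
      (∑ v ∈ (univ : Finset (ZMod p)).erase 0, (S.M v C 0 0 + S.M v C 1 1)) -
        ((p : ℂ) - 1) * S.sL C := by
    simp only [S.rL_apply, sum_sub_distrib, sum_const, card_erase_of_mem (mem_univ _), card_univ,
      ZMod.card, nsmul_eq_mul]
    rw [Nat.cast_sub hp.out.one_le, Nat.cast_one]
  rw [h1, ← hz.1, S.sL_apply]
  rw [hz.2.2] at h0
  linear_combination -h0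

/-- A common eigenvector in the Fourier block at `v`. -/
def Cyc.Common (v : ZMod p) (φ : Fin 2 → ℂ) : Prop :=
  ∀ C : Matrix α α ℂ, IsInv G C → ∀ i, S.M v C i 0 * φ 0 + S.M v C i 1 * φ 1 = S.sL C * φ i

theorem Cyc.common_of_rel {v : ZMod p} {φ : Fin 2 → ℂ}
    (h : ∀ q, ∀ i, S.M v (rel (S.pt 0 0) q) i 0 * φ 0 + S.M v (rel (S.pt 0 0) q) i 1 * φ 1 =
      S.sL (rel (G := G) (S.pt 0 0) q) * φ i) : S.Common v φ := by
  classical
  have : Fintype (orbitRel.Quotient (stabilizer G (S.pt 0 0)) α) := Fintype.ofFinite _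
  intro C hC i
  rw [expand (S.pt 0 0) hC]
  simp only [map_sum, map_smul, Matrix.sum_apply, Matrix.smul_apply, smul_eq_mul, sum_mul,
    ← sum_add_distrib]
  refine sum_congr rfl fun q _ => ?_
  linear_combination (C (S.pt 0 0) (Quotient.out q)) * h q i

open scoped Classical in
/-- The zero-one entries of an orbital matrix in coordinates. -/
noncomputable def Cyc.ind (q : orbitRel.Quotient (stabilizer G (S.pt 0 0)) α) (i j : Fin 2)
    (u : ZMod p) : ℤ := if rel (S.pt 0 0) q (S.pt i 0) (S.pt j u) = 1 then 1 else 0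

theorem Cyc.ind_cast (q : orbitRel.Quotient (stabilizer G (S.pt 0 0)) α) (i j : Fin 2)
    (u : ZMod p) : (S.ind q i j u : ℂ) = S.blk (rel (S.pt 0 0) q) i j u := by
  simp only [Cyc.ind, Cyc.blk]
  rcases rel_zero_or_one (S.pt 0 0) q (S.pt i 0) (S.pt j u) with h | h <;> simp [h]

/-- The integer eigenvalue. -/
noncomputable def Cyc.sZ (q : orbitRel.Quotient (stabilizer G (S.pt 0 0)) α) : ℤ :=
  ∑ u, S.ind q 0 0 u - ∑ u, S.ind q 0 1 u

theorem Cyc.sZ_cast (q : orbitRel.Quotient (stabilizer G (S.pt 0 0)) α) :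
    (S.sZ q : ℂ) = S.sL (rel (S.pt 0 0) q) := by
  simp [Cyc.sZ, S.sL_apply, S.M_zero_apply, S.ind_cast, Cyc.blk]

/-- The entries of `M - s`. -/
noncomputable def Cyc.nb (q : orbitRel.Quotient (stabilizer G (S.pt 0 0)) α) (i j : Fin 2)
    (u : ZMod p) : ℤ := S.ind q i j u - if i = j ∧ u = 0 then S.sZ q else 0

theorem Cyc.four_nb (v : ZMod p) (q : orbitRel.Quotient (stabilizer G (S.pt 0 0)) α)
    (i j : Fin 2) : four (fun u => (S.nb q i j u : ℂ)) v =
      S.M v (rel (S.pt 0 0) q) i j - if i = j then S.sL (rel (S.pt 0 0) q) else 0 := by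
  have : (fun u => (S.nb q i j u : ℂ)) = S.blk (rel (S.pt 0 0) q) i j -
      Pi.single 0 (if i = j then S.sL (rel (S.pt 0 0) q) else 0) := by
    funext u
    by_cases hu : u = 0 <;> by_cases hij : i = j <;>
      simp [Cyc.nb, hu, hij, S.ind_cast, S.sZ_cast]
  rw [this, four_sub, four_single, S.M_apply]

theorem Cyc.common_iff_rows {v : ZMod p} {φ : Fin 2 → ℂ} : S.Common v φ ↔
    ∀ q i, four (fun u => (S.nb q i 0 u : ℂ)) v * φ 0 +
      four (fun u => (S.nb q i 1 u : ℂ)) v * φ 1 = 0 := by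
  constructor
  · intro h q i
    have := h _ (isInv_rel (S.pt 0 0) q) i
    rw [S.four_nb, S.four_nb]
    fin_cases i <;> simp at this ⊢ <;> linear_combination this
  · intro h
    refine S.common_of_rel fun q i => ?_
    have := h q i
    rw [S.four_nb, S.four_nb] at this
    fin_cases i <;> simp at this ⊢ <;> linear_combination this

theorem cast_conv (f g : ZMod p → ℤ) :
    (fun u => ((conv f g u : ℤ) : ℂ)) = conv (fun u => (f u : ℂ)) (fun u => (g u : ℂ)) := by
  funext u; simp [conv]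

/-- A common eigenvector at one place gives one at every place. -/
theorem Cyc.common_all {v : ZMod p} (hv : v ≠ 0) {φ : Fin 2 → ℂ} (hφ : φ ≠ 0)
    (h : S.Common v φ) {v' : ZMod p} (hv' : v' ≠ 0) :
    ∃ φ' : Fin 2 → ℂ, φ' ≠ 0 ∧ S.Common v' φ' := by
  rw [S.common_iff_rows] at h
  have hminor : ∀ q q' i i', four (fun u => (S.nb q i 0 u : ℂ)) v' *
      four (fun u => (S.nb q' i' 1 u : ℂ)) v' - four (fun u => (S.nb q i 1 u : ℂ)) v' *
      four (fun u => (S.nb q' i' 0 u : ℂ)) v' = 0 := by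
    intro q q' i i'
    let F : ZMod p → ℤ := conv (S.nb q i 0) (S.nb q' i' 1) - conv (S.nb q i 1) (S.nb q' i' 0)
    have hF : ∀ w, four (fun u => (F u : ℂ)) w = four (fun u => (S.nb q i 0 u : ℂ)) w *
        four (fun u => (S.nb q' i' 1 u : ℂ)) w - four (fun u => (S.nb q i 1 u : ℂ)) w *
        four (fun u => (S.nb q' i' 0 u : ℂ)) w := by
      intro w
      rw [← four_conv, ← four_conv, ← cast_conv, ← cast_conv, ← four_sub]
      congr 1
      funext u
      simp [F]
    rw [← hF]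
    refine four_eq_zero_of_four_eq_zero F hv hv' ?_
    rw [hF]
    have a := h q i
    have b := h q' i'
    obtain hne | hne : φ 0 ≠ 0 ∨ φ 1 ≠ 0 := by
      by_contra hc
      push Not at hc
      exact hφ (funext fun l => by fin_cases l; exacts [hc.1, hc.2])
    · refine (mul_eq_zero.mp ?_).resolve_right hne
      linear_combination four (fun u => (S.nb q' i' 1 u : ℂ)) v * a -
        four (fun u => (S.nb q i 1 u : ℂ)) v * b
    · refine (mul_eq_zero.mp ?_).resolve_right hne
      linear_combination four (fun u => (S.nb q i 0 u : ℂ)) v * b -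
        four (fun u => (S.nb q' i' 0 u : ℂ)) v * a
  by_cases hex : ∃ q i, four (fun u => (S.nb q i 0 u : ℂ)) v' ≠ 0 ∨
      four (fun u => (S.nb q i 1 u : ℂ)) v' ≠ 0
  · obtain ⟨q, i, hqi⟩ := hex
    refine ⟨![four (fun u => (S.nb q i 1 u : ℂ)) v', -four (fun u => (S.nb q i 0 u : ℂ)) v'],
      fun e => ?_, ?_⟩
    · have e0 := congrFun e 0
      have e1 := congrFun e 1
      simp at e0 e1
      exact hqi.elim (fun h => h e1) (fun h => h e0)
    · rw [S.common_iff_rows]
      intro q' i'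
      simp
      linear_combination hminor q' q i' i
  · push Not at hex
    refine ⟨![1, 0], fun e => one_ne_zero (congrFun e 0), ?_⟩
    rw [S.common_iff_rows]
    intro q' i'
    simp [(hex q' i').1]

/-- Scalar Fourier block at one place gives it everywhere. -/
theorem Cyc.scalar_all {v : ZMod p} (hv : v ≠ 0)
    (h : ∀ q i j, four (fun u => (S.nb q i j u : ℂ)) v = 0) {v' : ZMod p} (hv' : v' ≠ 0)
    (q : orbitRel.Quotient (stabilizer G (S.pt 0 0)) α) (i j : Fin 2) :
    four (fun u => (S.nb q i j u : ℂ)) v' = 0 :=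
  four_eq_zero_of_four_eq_zero _ hv hv' (h q i j)

end Cfsg.Agent.Lib.Perm.TwoPrime
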