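import Mathlib.Algebra.Order.BigOperators.Ring.Finset
import Mathlib.Data.Rat.Cast.Order
import Mathlib.Tactic

/-! The Diophantine part of Wielandt's theorem on degree twice a prime. -/

set_option autoImplicit false

namespace Cfsg.Agent.Lib.Perm.TwoPrimeArith

open Finset

theorem eq_or_eq_neg {s t : ℤ} (h : s * (s + 1) = t * (t + 1)) : t = s ∨ t = -1 - s := by
  have : (t - s) * (t + s + 1) = 0 := by linear_combination -h
  rcases mul_eq_zero.mp this with h | h <;> omega

theorem term_eq {s k : ℤ} (hk : k = s * (2 * s + 1)) (hs : s ≠ 0) :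
    (s : ℚ) ^ 2 / k = s / (2 * s + 1) := by
  subst hk
  have : (2 * (s : ℚ) + 1) ≠ 0 := by
    have : (2 * s + 1 : ℤ) ≠ 0 := by omega
    exact_mod_cast this
  have hs' : (s : ℚ) ≠ 0 := by exact_mod_cast hs
  push_cast
  field_simp

theorem main {ι : Type*} [Fintype ι] [DecidableEq ι] (s k γ β : ι → ℤ) (d t : ℤ)
    (hd : 0 < d) (ht : 0 < t) (hγ : ∀ i, 1 ≤ γ i) (hβ : ∀ i, 0 ≤ β i)
    (hc : ∀ i, 2 * s i * (s i + 1) = d * γ i) (hk : ∀ i, k i + s i = d * (γ i + 2 * β i))
    (hkpos : ∀ i, 0 < k i) (hsum : ∑ i, (γ i + 2 * β i) = 2 * t)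
    (hcard : t + 1 ≤ (Fintype.card ι : ℤ)) (hone : ∑ i, (s i : ℚ) ^ 2 / k i = 1) :
    Fintype.card ι = 2 ∧ ∃ a : ℕ, 0 < a ∧ d * t = 2 * a ^ 2 + 2 * a ∧
      ∀ i, k i = a * (2 * a + 1) ∨ k i = (a + 1) * (2 * a + 1) := by
  classical
  have hs0 : ∀ i, s i ≠ 0 ∧ s i ≠ -1 := by
    intro i
    have h1 : 0 < d * γ i := mul_pos hd (hγ i)
    constructor <;> intro h <;> have := hc i <;> rw [h] at this <;> omega
  have hk1 : ∀ i, γ i + 2 * β i = 1 → k i = s i * (2 * s i + 1) := by
    intro i hi
    have h1 := hk i
    rw [hi] at h1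
    have hg : γ i = 1 := by have := hβ i; have := hγ i; omega
    have h2 := hc i
    rw [hg] at h2
    linear_combination h1 - h2
  have hterm : ∀ i, 0 < (s i : ℚ) ^ 2 / k i := fun i => by
    have : (s i : ℚ) ≠ 0 := by exact_mod_cast (hs0 i).1
    have : (0 : ℚ) < k i := by exact_mod_cast hkpos i
    positivity
  -- two suborbits of smallest size
  obtain ⟨i, j, hij, hi, hj⟩ : ∃ i j, i ≠ j ∧ γ i + 2 * β i = 1 ∧ γ j + 2 * β j = 1 := by
    by_contra hc'
    push Not at hc'
    have hall : ∀ i, 1 ≤ γ i + 2 * β i := fun i => by have := hγ i; have := hβ i; omega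
    by_cases hex : ∃ i, γ i + 2 * β i = 1
    · obtain ⟨i, hi⟩ := hex
      have h2 : ∀ j ∈ univ.erase i, (2 : ℤ) ≤ γ j + 2 * β j := fun j hj => by
        have := hall j; have := hc' i j (Ne.symm (ne_of_mem_erase hj)) hi; omega
      have := card_nsmul_le_sum _ _ _ h2
      rw [card_erase_of_mem (mem_univ i), card_univ, nsmul_eq_mul] at this
      have hs' := add_sum_erase univ (fun j => γ j + 2 * β j) (mem_univ i)
      simp only [hi, hsum] at hs'
      have : 1 ≤ Fintype.card ι := Fintype.card_pos_iff.mpr ⟨i⟩
      push_cast [Nat.cast_sub this] at *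
      linarith
    · push Not at hex
      have h2 : ∀ j ∈ (univ : Finset ι), (2 : ℤ) ≤ γ j + 2 * β j := fun j _ => by
        have := hall j; have := hex j; omega
      have := card_nsmul_le_sum _ _ _ h2
      rw [card_univ, nsmul_eq_mul, hsum] at this
      push_cast at this
      linarith
  have hgi : γ i = 1 := by have := hβ i; have := hγ i; omega
  have hdi : d = 2 * s i * (s i + 1) := by rw [hc i, hgi, mul_one]
  -- opposite signs finish
  have hopp : ∀ l m, l ≠ m → γ l + 2 * β l = 1 → γ m + 2 * β m = 1 → s m = -1 - s l →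
      Fintype.card ι = 2 := by
    intro l m hlm hl hm hs
    have e : ∑ x ∈ ({l, m} : Finset ι), (s x : ℚ) ^ 2 / k x = 1 := by
      rw [sum_pair hlm, term_eq (hk1 l hl) (hs0 l).1, term_eq (hk1 m hm) (hs0 m).1, hs]
      have : (2 * (s l : ℚ) + 1) ≠ 0 := by
        have : (2 * s l + 1 : ℤ) ≠ 0 := by omega
        exact_mod_cast this
      push_cast
      rw [show 2 * ((-1 : ℚ) - s l) + 1 = -(2 * s l + 1) by ring, div_neg, ← sub_eq_add_neg,
        div_sub_div_same, div_eq_one_iff_eq this]
      ring
    by_contra h2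
    obtain ⟨x, hx⟩ : ∃ x, x ∉ ({l, m} : Finset ι) := by
      by_contra hall
      push Not at hall
      apply h2
      rw [← card_univ, show (univ : Finset ι) = {l, m} from by ext y; simpa using hall y,
        card_pair hlm]
    have := sum_add_sum_compl ({l, m} : Finset ι) (fun x => (s x : ℚ) ^ 2 / k x)
    rw [e, hone] at this
    have hpos : 0 < ∑ x ∈ ({l, m} : Finset ι)ᶜ, (s x : ℚ) ^ 2 / k x :=
      sum_pos (fun y _ => hterm y) ⟨x, mem_compl.mpr hx⟩
    linarith
  by_cases hcard2 : Fintype.card ι = 2
  · refine ⟨hcard2, ?_⟩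
    have ht1 : t = 1 := by rw [hcard2] at hcard; push_cast at hcard; omega
    have huniv : (univ : Finset ι) = {i, j} :=
      (eq_of_subset_of_card_le (subset_univ _) (by rw [card_univ, hcard2, card_pair hij])).symm
    have hgj : γ j = 1 := by have := hβ j; have := hγ j; omega
    have hji : s j = -1 - s i := by
      have hdj : d = 2 * s j * (s j + 1) := by rw [hc j, hgj, mul_one]
      rcases eq_or_eq_neg (s := s i) (t := s j) (by linarith [hdi, hdj]) with h | h
      · exfalso
        rw [huniv, sum_pair hij, term_eq (hk1 i hi) (hs0 i).1, term_eq (hk1 j hj) (hs0 j).1, h,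
          ← add_div] at hone
        have : (2 * (s i : ℚ) + 1) ≠ 0 := by
          have : (2 * s i + 1 : ℤ) ≠ 0 := by omega
          exact_mod_cast this
        rw [div_eq_one_iff_eq this] at hone
        linarith
      · exact h
    have hall : ∀ x, x = i ∨ x = j := fun x => by
      have := mem_univ x; rw [huniv] at this; simpa using this
    rcases lt_or_gt_of_ne (hs0 i).1 with hneg | hpos
    · refine ⟨(-1 - s i).toNat, by have := (hs0 i).2; omega, ?_, fun x => ?_⟩
      · rw [ht1, mul_one, hdi, Int.toNat_of_nonneg (by omega)]; ring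
      · rw [Int.toNat_of_nonneg (by omega)]
        rcases hall x with rfl | rfl
        · exact Or.inr (by rw [hk1 _ hi]; ring)
        · exact Or.inl (by rw [hk1 _ hj, hji])
    · refine ⟨(s i).toNat, by omega, ?_, fun x => ?_⟩
      · rw [ht1, mul_one, hdi, Int.toNat_of_nonneg (by omega)]; ring
      · rw [Int.toNat_of_nonneg (by omega)]
        rcases hall x with rfl | rfl
        · exact Or.inl (hk1 _ hi)
        · exact Or.inr (by rw [hk1 _ hj, hji]; ring)
  · exfalso
    have hsame : ∀ l, γ l + 2 * β l = 1 → s l = s i := by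
      intro l hl
      by_contra hne
      have hli : i ≠ l := fun e => hne (by rw [e])
      have hgl : γ l = 1 := by have := hβ l; have := hγ l; omega
      have hdl : d = 2 * s l * (s l + 1) := by rw [hc l, hgl, mul_one]
      rcases eq_or_eq_neg (s := s i) (t := s l) (by linarith [hdi, hdl]) with h | h
      · exact hne h
      · exact hcard2 (hopp i l hli hi hl h)
    have hsum2 := add_sum_erase univ (fun x => (s x : ℚ) ^ 2 / k x) (mem_univ i)
    have hje : j ∈ univ.erase i := by simp [Ne.symm hij]
    have hsum3 := add_sum_erase (univ.erase i) (fun x => (s x : ℚ) ^ 2 / k x) hje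
    simp only [hone] at hsum2
    rw [← hsum3] at hsum2
    rw [term_eq (hk1 i hi) (hs0 i).1, term_eq (hk1 j hj) (hs0 j).1, hsame j hj] at hsum2
    set R := ∑ x ∈ (univ.erase i).erase j, (s x : ℚ) ^ 2 / k x with hR
    have hRnn : 0 ≤ R := sum_nonneg fun x _ => (hterm x).le
    rcases lt_or_gt_of_ne (hs0 i).1 with hneg | hpos
    · have h2 : (s i : ℚ) ≤ -2 := by
        have : s i ≤ -2 := by have := (hs0 i).2; omega
        exact_mod_cast this
      have : (1 : ℚ) < 2 * ((s i : ℚ) / (2 * s i + 1)) := by
        rw [← mul_div_assoc, lt_div_iff_of_neg (by linarith)]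
        linarith
      linarith
    have hS : (1 : ℚ) ≤ s i := by exact_mod_cast hpos
    have hRval : R = 1 / (2 * (s i : ℚ) + 1) := by
      have : (2 * (s i : ℚ) + 1) ≠ 0 := by linarith
      field_simp at hsum2 ⊢
      linarith
    set U := (univ.erase i).erase j with hU
    have hUcard : (U.card : ℤ) = Fintype.card ι - 2 := by
      rw [hU, card_erase_of_mem hje, card_erase_of_mem (mem_univ i), card_univ]
      have : 2 ≤ Fintype.card ι := by rw [← card_pair hij]; exact card_le_univ _
      omega
    have hUn : ∑ x ∈ U, (γ x + 2 * β x) = 2 * t - 2 := by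
      have e1 := add_sum_erase univ (fun x => γ x + 2 * β x) (mem_univ i)
      have e2 := add_sum_erase (univ.erase i) (fun x => γ x + 2 * β x) hje
      simp only [hi, hj, hsum] at e1 e2
      rw [hU]
      omega
    by_cases hex : ∃ l ∈ U, γ l + 2 * β l = 1
    · obtain ⟨l, hlU, hl⟩ := hex
      have hle : (s i : ℚ) / (2 * s i + 1) ≤ R := by
        rw [hR, ← term_eq (hk1 i hi) (hs0 i).1, hk1 i hi, ← hsame l hl, ← hk1 l hl]
        exact single_le_sum (fun x _ => (hterm x).le) hlU
      rw [hRval, div_le_div_iff_of_pos_right (by linarith)] at hle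
      have hUl : U = {l} := by
        by_contra hne
        obtain ⟨x, hxU, hxl⟩ : ∃ x ∈ U, x ≠ l := by
          by_contra hh
          push Not at hh
          exact hne (eq_singleton_iff_unique_mem.mpr ⟨hlU, hh⟩)
        have h2 := single_lt_sum (f := fun x => (s x : ℚ) ^ 2 / k x) hxl hlU hxU (hterm x)
          (fun y _ _ => (hterm y).le)
        rw [term_eq (hk1 l hl) (hs0 l).1, hsame l hl, ← hR, hRval] at h2
        rw [div_lt_div_iff_of_pos_right (by linarith)] at h2
        linarith
      rw [hUl, sum_singleton, hl] at hUn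
      omega
    · push Not at hex
      have h2 : ∀ x ∈ U, (2 : ℤ) ≤ γ x + 2 * β x := fun x hx => by
        have := hex x hx; have := hγ x; have := hβ x; omega
      have heq : ∑ x ∈ U, (γ x + 2 * β x) = ∑ _x ∈ U, (2 : ℤ) := by
        refine le_antisymm ?_ (sum_le_sum h2)
        rw [sum_const, hUn, nsmul_eq_mul]
        push_cast
        omega
      have hexact : ∀ x ∈ U, γ x + 2 * β x = 2 := fun x hx =>
        ((sum_eq_sum_iff_of_le h2).mp heq.symm x hx).symm
      obtain ⟨x, hx⟩ : U.Nonempty := by
        rw [← card_pos]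
        have : 2 < Fintype.card ι := lt_of_le_of_ne
          (by rw [← card_pair hij]; exact card_le_univ _) (Ne.symm hcard2)
        omega
      have hg : γ x = 2 := by have := hexact x hx; have := hγ x; have := hβ x; omega
      have hkx : k x = s x * (2 * s x + 1) := by
        have h1 := hk x
        rw [hexact x hx] at h1
        have h3 := hc x
        rw [hg] at h3
        linear_combination h1 - h3
      have hsq : s x * (s x + 1) = 2 * (s i * (s i + 1)) := by
        have h3 := hc x
        rw [hg, hdi] at h3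
        linarith
      have hlt : 1 / (2 * (s i : ℚ) + 1) < (s x : ℚ) ^ 2 / k x := by
        rw [term_eq hkx (hs0 x).1]
        rcases lt_or_gt_of_ne (hs0 x).1 with hxn | hxp
        · have h2' : (s x : ℚ) ≤ -2 := by
            have : s x ≤ -2 := by have := (hs0 x).2; omega
            exact_mod_cast this
          calc (1 : ℚ) / (2 * (s i : ℚ) + 1) ≤ 1 / 3 := by gcongr; linarith
            _ < 1 / 2 := by norm_num
            _ < _ := by rw [lt_div_iff_of_neg (by linarith)]; linarith
        · have hgt : s i < s x := by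
            by_contra hle
            push Not at hle
            nlinarith
          have h2' : (2 : ℚ) ≤ s x := by
            have : 2 ≤ s x := by omega
            exact_mod_cast this
          calc (1 : ℚ) / (2 * (s i : ℚ) + 1) ≤ 1 / 3 := by gcongr; linarith
            _ < _ := by rw [div_lt_div_iff₀ (by norm_num) (by linarith)]; linarith
      have := single_le_sum (f := fun x => (s x : ℚ) ^ 2 / k x) (fun y _ => (hterm y).le) hx
      rw [← hR, hRval] at this
      exact absurd (this.trans_lt hlt) (lt_irrefl _)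

end Cfsg.Agent.Lib.Perm.TwoPrimeArith
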