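import Cfsg.Agent.Lib.Perm.TwoPrimeMain
import Mathlib.GroupTheory.QuotientGroup.Basic
import Mathlib.Algebra.Field.ZMod

/-! Conclusion of Wielandt's theorem on primitive groups of degree twice a prime. -/

set_option autoImplicit false
set_option linter.unusedSectionVars false
set_option maxHeartbeats 1000000

namespace Cfsg.Agent.Lib.Perm.TwoPrime

open MulAction Matrix Finset
open Cfsg.Agent.Lib.Perm.ZModFourier Cfsg.Agent.Lib.Perm.Orbital
open scoped ComplexConjugate

variable {p : ℕ} [hp : Fact p.Prime] {G : Type*} [Group G] {α : Type*} [MulAction G α]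
  [Fintype α] [DecidableEq α] [IsPretransitive G α] (S : Cyc p G α)

/-- The multipliers fixing all diagonal counts. -/
def Cyc.Qs : Subgroup (ZMod p)ˣ where
  carrier := {w | ∀ (q : orbitRel.Quotient (stabilizer G (S.pt 0 0)) α) (u : ZMod p),
    S.eps q ((w : ZMod p) * u) = S.eps q u}
  one_mem' q u := by simp
  mul_mem' {w w'} h h' q u := by rw [Units.val_mul, mul_assoc, h q, h' q]
  inv_mem' {w} h q u := by rw [← h q, Units.mul_inv_cancel_left]

theorem Cyc.DL_eq_iff (v v' : (ZMod p)ˣ) :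
    (∀ q : orbitRel.Quotient (stabilizer G (S.pt 0 0)) α,
      S.DL (v : ZMod p) (rel (S.pt 0 0) q) = S.DL (v' : ZMod p) (rel (S.pt 0 0) q)) ↔
      v⁻¹ * v' ∈ S.Qs := by
  classical
  have key : ∀ (w : (ZMod p)ˣ) (q : orbitRel.Quotient (stabilizer G (S.pt 0 0)) α),
      four (fun u : ZMod p => (S.eps q (((w⁻¹ : (ZMod p)ˣ) : ZMod p) * u) : ℂ)) (v : ZMod p)
      = four (fun u => (S.eps q u : ℂ)) ((v * w : (ZMod p)ˣ) : ZMod p) := by
    intro w q
    simp only [four]
    refine Fintype.sum_equiv (Equiv.mulLeft₀ ((w⁻¹ : (ZMod p)ˣ) : ZMod p) (Units.ne_zero _)) _ _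
      fun u => ?_
    simp only [Equiv.mulLeft₀_apply, Units.val_mul]
    congr 2
    rw [show (((w⁻¹ : (ZMod p)ˣ) : ZMod p) * u * ((v : ZMod p) * (w : ZMod p))) =
      u * v * ((w⁻¹ : (ZMod p)ˣ) * (w : ZMod p)) by ring, Units.inv_mul, mul_one]
  constructor
  · intro h
    have hinv : ∀ (q : orbitRel.Quotient (stabilizer G (S.pt 0 0)) α) (u : ZMod p), S.eps q (((v⁻¹ * v')⁻¹ : (ZMod p)ˣ) * u) = S.eps q u := by
      intro q u
      let f : ZMod p → ℤ := fun u => S.eps q (((v⁻¹ * v')⁻¹ : (ZMod p)ˣ) * u) - S.eps q u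
      have hf : four (fun u => (f u : ℂ)) (v : ZMod p) = 0 := by
        rw [show (fun u => (f u : ℂ)) = (fun u =>
          (S.eps q (((v⁻¹ * v')⁻¹ : (ZMod p)ˣ) * u) : ℂ)) - fun u => (S.eps q u : ℂ) by
            funext u; simp only [f, Pi.sub_apply, Int.cast_sub], four_sub, key, mul_inv_cancel_left, S.four_eps, S.four_eps, h q,
          sub_self]
      have h0 : f u = f 0 := eq_const_of_four_eq_zero f v.ne_zero hf u 0
      simp only [f, mul_zero, sub_self] at h0
      exact sub_eq_zero.mp h0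
    exact inv_mem_iff.mp hinv
  · intro h q
    have h' : ((v⁻¹ * v')⁻¹ : (ZMod p)ˣ) ∈ S.Qs := inv_mem h
    rw [← S.four_eps, ← S.four_eps]
    have := key (v⁻¹ * v') q
    rw [mul_inv_cancel_left] at this
    rw [← this]
    congr 1
    funext u
    rw [h' q u]

theorem card_dvd_of_invariant (Q : Subgroup (ZMod p)ˣ) (P : ZMod p → Prop) [DecidablePred P]
    (hP : ∀ w ∈ Q, ∀ u, P ((w : ZMod p) * u) ↔ P u) :
    Nat.card Q ∣ ((Finset.univ.erase (0 : ZMod p)).filter P).card := by
  classical
  have e1 : ((Finset.univ.erase (0 : ZMod p)).filter P).card =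
      Nat.card {u : (ZMod p)ˣ // P u} := by
    rw [Nat.card_eq_fintype_card, Fintype.card_subtype]
    symm
    refine Finset.card_bij (fun u _ => (u : ZMod p)) (fun u hu => ?_)
      (fun a _ b _ h => Units.ext h) (fun b hb => ?_)
    · simp only [mem_filter, mem_univ, true_and] at hu
      simp [hu, u.ne_zero]
    · simp only [mem_filter, mem_erase, mem_univ, and_true] at hb
      exact ⟨Units.mk0 b hb.1, by simp [hb.2], rfl⟩
  let T : Set ((ZMod p)ˣ ⧸ Q) := QuotientGroup.mk '' {u : (ZMod p)ˣ | P u}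
  have e2 : {u : (ZMod p)ˣ | P u} = QuotientGroup.mk ⁻¹' T := by
    ext u
    refine ⟨fun h => ⟨u, h, rfl⟩, ?_⟩
    rintro ⟨u', hu', he⟩
    have hmem : u'⁻¹ * u ∈ Q := QuotientGroup.eq.mp he
    have := (hP _ hmem (u' : ZMod p)).mpr hu'
    rw [← Units.val_mul] at this
    rwa [show u'⁻¹ * u * u' = u by rw [mul_comm u'⁻¹ u, inv_mul_cancel_right]] at this
  rw [e1, show Nat.card {u : (ZMod p)ˣ // P u} = Nat.card ↥{u : (ZMod p)ˣ | P u} from rfl, e2,
    Nat.card_congr (QuotientGroup.preimageMkEquivSubgroupProdSet Q T), Nat.card_prod]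
  exact dvd_mul_right _ _

theorem Cyc.main [FaithfulSMul G α] (hG : IsPreprimitive G α) :
    IsMultiplyPretransitive G α 2 ∨
      (Nat.card (orbitRel.Quotient (stabilizer G (S.pt 0 0)) α) = 3 ∧
        ∃ a : ℕ, 0 < a ∧ p = 2 * a ^ 2 + 2 * a + 1 ∧ ∀ b, b ≠ S.pt 0 0 →
          Nat.card (orbit (stabilizer G (S.pt 0 0)) b) = a * (2 * a + 1) ∨
          Nat.card (orbit (stabilizer G (S.pt 0 0)) b) = (a + 1) * (2 * a + 1)) := by
  classical
  obtain ⟨v₀, hv₀, φ₀, hφ₀, hc₀⟩ := S.exists_common hG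
  have hφ : ∀ v : ZMod p, v ≠ 0 → ∃ φ : Fin 2 → ℂ, φ ≠ 0 ∧ S.Common v φ :=
    fun v hv => S.common_all hv₀ hφ₀ hc₀ hv
  by_cases hsc : ∀ q i j, four (fun u => (S.nb q i j u : ℂ)) (1 : ZMod p) = 0
  · exact Or.inl (S.two_transitive_of_scalar hsc)
  right
  have : Fintype (orbitRel.Quotient (stabilizer G (S.pt 0 0)) α) := Fintype.ofFinite _
  have hsr : ∀ v : ZMod p, v ≠ 0 → ∃ q, S.rL v (rel (S.pt 0 0) q) ≠ S.sL (rel (G := G) (S.pt 0 0) q) := by
    intro v hv
    by_contra hall
    push Not at hall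
    obtain ⟨φ, hne, hc⟩ := hφ v hv
    refine hsc fun q i j => S.scalar_all hv (fun q i j => ?_) one_ne_zero q i j
    rw [S.four_nb, S.scalar_of_rL_eq hne hc (isInv_rel _ q) (hall q)]
    simp [Matrix.one_apply]
  -- classes of places
  set Q := S.Qs
  set T := (ZMod p)ˣ ⧸ Q
  have : Fintype T := Fintype.ofFinite _
  set d := Nat.card Q with hd
  set t := Nat.card T with ht
  have hdpos : 0 < d := Nat.card_pos
  have htpos : 0 < t := Nat.card_pos
  have hdt : d * t = p - 1 := by
    rw [hd, ht, mul_comm, ← Subgroup.card_eq_card_quotient_mul_card_subgroup,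
      Nat.card_eq_fintype_card, ZMod.card_units]
  have hrclass : ∀ v v' : (ZMod p)ˣ, v⁻¹ * v' ∈ Q → ∀ C, IsInv G C →
      S.rL (v : ZMod p) C = S.rL (v' : ZMod p) C := by
    intro v v' h C hC
    rw [expand (S.pt 0 0) hC]
    simp only [map_sum, map_smul]
    refine sum_congr rfl fun q _ => ?_
    rw [Cyc.rL, LinearMap.sub_apply, (S.DL_eq_iff v v').mpr h q]
    rfl
  let L : Option (Option T) → (Matrix α α ℂ →ₗ[ℂ] ℂ) := fun i => match i with
    | none => S.kL
    | some none => S.sL
    | some (some c) => S.rL ((Quotient.out c : (ZMod p)ˣ) : ZMod p)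
  have hLmul : ∀ i C E, IsInv G C → IsInv G E → L i (C * E) = L i C * L i E := by
    intro i C E hC hE
    rcases i with _ | _ | c
    · exact S.kL_mul hC hE
    · exact S.sL_mul hC hE
    · obtain ⟨φ, hne, hc⟩ := hφ _ (Quotient.out c).ne_zero
      exact S.rL_mul hne hc hC hE
  have hL1 : ∀ i, L i 1 = 1 := by
    intro i
    rcases i with _ | _ | c
    · exact S.kL_one
    · exact S.sL_one
    · exact S.rL_one _
  let J : Matrix α α ℂ := Matrix.of fun _ _ => 1
  have hJ : IsInv G J := isInv_ones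
  have hJk : S.kL J ≠ 0 := by
    have : Nonempty α := ⟨S.pt 0 0⟩
    simp [S.kL_apply, J, Fintype.card_ne_zero]
  have hJs : S.sL J = 0 := by simp [S.sL_apply, S.M_zero_apply, J]
  have hJr : ∀ v : ZMod p, v ≠ 0 → S.rL v J = 0 := by
    intro v hv
    have : ∀ i j, S.M v J i j = 0 := fun i j => by
      rw [S.M_apply]; exact four_const 1 hv
    simp [S.rL_apply, this, hJs]
  have hdist : ∀ i j, i ≠ j → ∃ C, IsInv G C ∧ L i C ≠ L j C := by
    intro i j hij
    rcases i with _ | _ | c <;> rcases j with _ | _ | c'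
    · exact absurd rfl hij
    · exact ⟨J, hJ, by simp only [L]; rw [hJs]; exact hJk⟩
    · exact ⟨J, hJ, by simp only [L]; rw [hJr _ (Quotient.out c').ne_zero]; exact hJk⟩
    · exact ⟨J, hJ, by simp only [L]; rw [hJs]; exact hJk.symm⟩
    · exact absurd rfl hij
    · obtain ⟨q, hq⟩ := hsr _ (Quotient.out c').ne_zero
      exact ⟨_, isInv_rel _ q, fun e => hq e.symm⟩
    · exact ⟨J, hJ, by simp only [L]; rw [hJr _ (Quotient.out c).ne_zero]; exact hJk.symm⟩
    · obtain ⟨q, hq⟩ := hsr _ (Quotient.out c).ne_zero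
      exact ⟨_, isInv_rel _ q, hq⟩
    · by_contra hall
      push Not at hall
      apply hij
      have hmem : (Quotient.out c)⁻¹ * Quotient.out c' ∈ Q := by
        refine (S.DL_eq_iff _ _).mp fun q => ?_
        have := hall _ (isInv_rel (S.pt 0 0) q)
        simpa [L, Cyc.rL] using this
      have := QuotientGroup.eq.mpr hmem
      rw [QuotientGroup.out_eq', QuotientGroup.out_eq'] at this
      rw [this]
  set q₀ := cls (G := G) (S.pt 0 0) (S.pt 0 0) with hq₀
  let I := {q : orbitRel.Quotient (stabilizer G (S.pt 0 0)) α // q ≠ q₀}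
  have hIcard : Fintype.card I + 1 = Nat.card (orbitRel.Quotient (stabilizer G (S.pt 0 0)) α) := by
    rw [Nat.card_eq_fintype_card, Fintype.card_subtype_compl (fun q => q = q₀), Fintype.card_subtype_eq]
    have : 0 < Fintype.card (orbitRel.Quotient (stabilizer G (S.pt 0 0)) α) :=
      Fintype.card_pos_iff.mpr ⟨q₀⟩
    omega
  have hcount : t + 1 ≤ Fintype.card I := by
    have := card_le_of_homs (S.pt 0 0) L hLmul hL1 hdist
    rw [← hIcard, Fintype.card_option, Fintype.card_option, ← Nat.card_eq_fintype_card, ← ht] at this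
    omega
  -- the trace relation
  have hTsum : ∀ C, IsInv G C → ∑ v ∈ (univ : Finset (ZMod p)).erase 0, S.rL v C =
      (d : ℂ) * ∑ c : T, S.rL ((Quotient.out c : (ZMod p)ˣ) : ZMod p) C := by
    intro C hC
    have e : ∑ v ∈ (univ : Finset (ZMod p)).erase 0, S.rL v C =
        ∑ u : (ZMod p)ˣ, S.rL (u : ZMod p) C := by
      symm
      refine Finset.sum_bij (fun u _ => (u : ZMod p)) (fun u _ => by simp [u.ne_zero])
        (fun a _ b _ h => Units.ext h) (fun b hb => ?_) (fun u _ => rfl)
      exact ⟨Units.mk0 b (ne_of_mem_erase hb), mem_univ _, rfl⟩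
    rw [e, ← Finset.sum_fiberwise univ (fun u : (ZMod p)ˣ => (u : T)), mul_sum]
    refine sum_congr rfl fun c _ => ?_
    rw [sum_congr rfl fun u hu => hrclass u (Quotient.out c) (QuotientGroup.eq.mp (by
      rw [QuotientGroup.out_eq']; exact (mem_filter.mp hu).2)) C hC, sum_const, nsmul_eq_mul]
    congr 2
    rw [← Fintype.card_subtype, ← Nat.card_eq_fintype_card]
    have := Nat.card_congr (QuotientGroup.preimageMkEquivSubgroupProdSet Q {c})
    rw [Nat.card_prod, Nat.card_eq_fintype_card (α := ({c} : Set T))] at this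
    rw [hd]
    refine Eq.trans ?_ (this.trans (by simp))
    exact Nat.card_congr (Equiv.subtypeEquivRight fun x => by simp)
  have hrel0 : rel (S.pt 0 0) q₀ = (1 : Matrix α α ℂ) := by
    refine isInv_ext (S.pt 0 0) (isInv_rel _ _) isInv_one fun y => ?_
    rw [rel_apply_base, Matrix.one_apply]
    by_cases hy : y = S.pt 0 0
    · rw [if_pos (by rw [hy]), if_pos hy.symm]
    · rw [if_neg (fun e => hy ((cls_eq_self_iff _).mp e)), if_neg (Ne.symm hy)]
  let E : Matrix α α ℂ := ∑ q : orbitRel.Quotient (stabilizer G (S.pt 0 0)) α,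
    (S.sL (rel (S.pt 0 0) q) / (S.kN q : ℂ)) • (rel (S.pt 0 0) q)ᵀ
  have hE : IsInv G E := isInv_sum _ _ fun q _ => isInv_smul _ (isInv_transpose (isInv_rel _ q))
  have hEdiag : ∀ C, IsInv G C → (E * C) (S.pt 0 0) (S.pt 0 0) = S.sL C := by
    suffices ∀ e : orbitRel.Quotient (stabilizer G (S.pt 0 0)) α,
        (E * rel (S.pt 0 0) e) (S.pt 0 0) (S.pt 0 0) = S.sL (rel (S.pt 0 0) e) by
      intro C hC
      rw [expand (S.pt 0 0) hC]
      simp only [Matrix.mul_sum, Matrix.mul_smul, Matrix.sum_apply, Matrix.smul_apply, map_sum,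
        map_smul, this]
    intro e
    rw [show E * rel (S.pt 0 0) e = ∑ q : orbitRel.Quotient (stabilizer G (S.pt 0 0)) α,
      (S.sL (rel (S.pt 0 0) q) / (S.kN q : ℂ)) • ((rel (S.pt 0 0) q)ᵀ * rel (S.pt 0 0) e) from by
      simp only [E, Matrix.sum_mul, Matrix.smul_mul]]
    simp only [Matrix.sum_apply, Matrix.smul_apply,
      Matrix.mul_apply, Matrix.transpose_apply, smul_eq_mul]
    have hprod : ∀ q x, rel (G := G) (S.pt 0 0) q x (S.pt 0 0) * rel (S.pt 0 0) e x (S.pt 0 0) =
        if q = e then rel (G := G) (S.pt 0 0) e x (S.pt 0 0) else 0 := by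
      intro q x
      obtain ⟨g, hg⟩ := exists_smul_eq G (S.pt 0 0) x
      have h : ∀ q', rel (G := G) (S.pt 0 0) q' x (S.pt 0 0) =
          if cls (S.pt 0 0) (g⁻¹ • S.pt 0 0) = q' then (1 : ℂ) else 0 := by
        intro q'
        have h := isInv_rel (S.pt 0 0) q' g⁻¹ x (S.pt 0 0)
        rw [← hg, inv_smul_smul, rel_apply_base] at h
        rw [← hg, ← h]
      rw [h q, h e]
      split_ifs <;> simp_all
    simp only [hprod]
    rw [sum_eq_single e (fun q _ hq => by simp [hq]) (by simp)]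
    have : ∑ x, rel (S.pt 0 0) e x (S.pt 0 0) = (S.kN e : ℂ) := by
      rw [S.kN_cast, ← S.kL_transpose (isInv_rel _ e)]; rfl
    simp only [if_true, this]
    rw [div_mul_cancel₀]
    exact Nat.cast_ne_zero.mpr (S.kN_pos e).ne'
  have hsE : S.sL E = 2 := by
    let c : Option (Option T) → ℂ := fun i => match i with
      | none => S.kL E
      | some none => p * S.sL E - 2 * p
      | some (some x) => d * S.rL ((Quotient.out x : (ZMod p)ˣ) : ZMod p) E
    have hc : c = 0 := by
      refine eq_zero_of_homs L hLmul hL1 hdist c fun C hC => ?_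
      have h := S.trace_formula (isInv_mul hE hC)
      rw [hTsum _ (isInv_mul hE hC), hEdiag C hC, S.kL_mul hE hC, S.sL_mul hE hC, mul_sum] at h
      have e2 : ∀ x : T, (d : ℂ) * S.rL ((Quotient.out x : (ZMod p)ˣ) : ZMod p) (E * C) =
          d * S.rL ((Quotient.out x : (ZMod p)ˣ) : ZMod p) E *
            S.rL ((Quotient.out x : (ZMod p)ˣ) : ZMod p) C := fun x => by
        obtain ⟨φ, hne, hcm⟩ := hφ _ (Quotient.out x).ne_zero
        rw [S.rL_mul hne hcm hE hC, mul_assoc]
      simp only [e2] at h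
      simp only [Fintype.sum_option, c, L]
      linear_combination -h
    have := congrFun hc (some none)
    simp only [c, Pi.zero_apply] at this
    have hpne : (p : ℂ) ≠ 0 := Nat.cast_ne_zero.mpr hp.out.ne_zero
    exact mul_left_cancel₀ hpne (by linear_combination this)
  have hone : ∑ q : I, (S.sZ q.1 : ℚ) ^ 2 / ((S.kN q.1 : ℤ) : ℚ) = 1 := by
    have h2 : (∑ q, (S.sZ q : ℚ) ^ 2 / ((S.kN q : ℤ) : ℚ) : ℚ) = 2 := by
      apply Rat.cast_injective (α := ℂ)
      push_cast
      rw [← hsE]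
      simp only [E, map_sum, map_smul, smul_eq_mul, S.sL_transpose (isInv_rel _ _), S.sZ_cast]
      exact sum_congr rfl fun q _ => by ring
    rw [← add_sum_erase univ _ (mem_univ q₀)] at h2
    have h0 : (S.sZ q₀ : ℚ) ^ 2 / ((S.kN q₀ : ℤ) : ℚ) = 1 := by
      have hs : S.sZ q₀ = 1 := by
        exact_mod_cast (show (S.sZ q₀ : ℂ) = 1 by rw [S.sZ_cast, hrel0, S.sL_one])
      have hk : S.kN q₀ = 1 := by
        exact_mod_cast (show (S.kN q₀ : ℂ) = 1 by rw [S.kN_cast, hrel0, S.kL_one])
      simp [hs, hk]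
    rw [h0] at h2
    rw [← Finset.sum_subtype ((univ : Finset _).erase q₀) (fun q => by simp)
      (fun q => (S.sZ q : ℚ) ^ 2 / ((S.kN q : ℤ) : ℚ))]
    linarith
  -- each suborbit
  let c1 : orbitRel.Quotient (stabilizer G (S.pt 0 0)) α → ℕ := fun q =>
    ((univ.erase (0 : ZMod p)).filter fun u => S.eps q u = 1).card
  let c2 : orbitRel.Quotient (stabilizer G (S.pt 0 0)) α → ℕ := fun q =>
    ((univ.erase (0 : ZMod p)).filter fun u => S.eps q u = 2).card
  have heps3 : ∀ q u, S.eps q u = 0 ∨ S.eps q u = 1 ∨ S.eps q u = 2 := by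
    intro q u
    rcases S.ind_le q 0 0 u with h | h <;> rcases S.ind_le q 1 1 u with h' | h' <;>
      simp [Cyc.eps, h, h']
  have hsum12 : ∀ q : I, ∑ u, S.eps q.1 u = (c1 q.1 : ℤ) + 2 * (c2 q.1 : ℤ) ∧
      ∑ u, (2 * S.eps q.1 u - S.eps q.1 u ^ 2) = (c1 q.1 : ℤ) := by
    intro q
    rw [← add_sum_erase univ _ (mem_univ (0 : ZMod p)),
      ← add_sum_erase univ (fun u => 2 * S.eps q.1 u - S.eps q.1 u ^ 2) (mem_univ (0 : ZMod p)),
      S.eps_zero q.1 q.2]
    constructor
    · simp only [c1, c2, card_filter, Nat.cast_sum, mul_sum, ← sum_add_distrib, zero_add]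
      refine sum_congr rfl fun u _ => ?_
      rcases heps3 q.1 u with h | h | h <;> simp [h]
    · simp only [c1, card_filter, Nat.cast_sum, mul_zero, zero_add, zero_pow two_ne_zero, sub_zero]
      refine sum_congr rfl fun u _ => ?_
      rcases heps3 q.1 u with h | h | h <;> simp [h]
  have hks : ∀ q, (S.kN q : ℤ) + S.sZ q = ∑ u, S.eps q u := by
    intro q
    have : (((S.kN q : ℤ) + S.sZ q : ℤ) : ℂ) = ((∑ u, S.eps q u : ℤ) : ℂ) := by
      push_cast
      rw [S.kN_cast, S.sZ_cast, ← four_zero (fun u => (S.eps q u : ℂ)), S.four_eps,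
        ← (S.zero_block (isInv_rel _ q)).1, S.sL_apply,
        show S.DL 0 (rel (S.pt 0 0) q) = S.M 0 (rel (S.pt 0 0) q) 0 0 +
          S.M 0 (rel (S.pt 0 0) q) 1 1 from rfl, (S.zero_block (isInv_rel _ q)).2.2]
      ring
    exact_mod_cast this
  have hsq : ∀ q : I, (c1 q.1 : ℤ) = 2 * S.sZ q.1 * (S.sZ q.1 + 1) := by
    intro q
    set A := rel (S.pt 0 0) q.1 with hA
    have hAI : IsInv G A := isInv_rel _ _
    have hreal : ∀ x y, conj (A x y) = A x y := fun x y => by
      rcases rel_zero_or_one (S.pt 0 0) q.1 x y with h | h <;> simp [A, h]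
    have h := S.trace_formula (isInv_mul (isInv_transpose hAI) hAI)
    have hdiag : (Aᵀ * A) (S.pt 0 0) (S.pt 0 0) = S.kL A := by
      rw [← S.kL_transpose hAI, S.kL_apply, Matrix.mul_apply]
      refine sum_congr rfl fun x _ => ?_
      rcases rel_zero_or_one (S.pt 0 0) q.1 x (S.pt 0 0) with h | h <;> simp [A, h]
    have hs : conj (S.sL A) = S.sL A := by
      rw [hA, show S.sL (rel (S.pt 0 0) q.1) = (S.sZ q.1 : ℂ) from (S.sZ_cast q.1).symm,
        map_intCast]
    have hr : ∀ v ∈ (univ : Finset (ZMod p)).erase 0, S.rL v (Aᵀ * A) =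
        (conj (S.DL v A) - S.sL A) * (S.DL v A - S.sL A) := by
      intro v hv
      obtain ⟨φ, hne, hc⟩ := hφ v (ne_of_mem_erase hv)
      rw [S.rL_mul hne hc (isInv_transpose hAI) hAI, S.rL_apply, S.rL_apply,
        S.sL_transpose hAI, S.M_transpose v hAI hreal]
      simp [Cyc.DL, Matrix.conjTranspose_apply, Complex.star_def]
    rw [hdiag, S.kL_mul (isInv_transpose hAI) hAI, S.sL_mul (isInv_transpose hAI) hAI,
      S.kL_transpose hAI, S.sL_transpose hAI, sum_congr rfl hr] at h
    have hall : ∑ v : ZMod p, (conj (S.DL v A) - S.sL A) * (S.DL v A - S.sL A) =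
        (p : ℂ) * (∑ u, ((S.eps q.1 u : ℂ)) ^ 2) + p * S.sL A ^ 2 := by
      simp only [hA, ← S.four_eps]
      have h0 := sum_four (fun u => (S.eps q.1 u : ℂ))
      rw [S.eps_zero q.1 q.2] at h0
      simp only [Int.cast_zero, mul_zero] at h0
      have h1 : ∑ v, conj (four (fun u => (S.eps q.1 u : ℂ)) v) = 0 := by
        rw [← map_sum, h0, map_zero]
      have h2 := sum_normSq_four (fun u => (S.eps q.1 u : ℝ))
      simp only [Complex.ofReal_intCast] at h2
      calc ∑ v : ZMod p, (conj (four (fun u => (S.eps q.1 u : ℂ)) v) - S.sL (rel (S.pt 0 0) q.1)) *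
            (four (fun u => (S.eps q.1 u : ℂ)) v - S.sL (rel (S.pt 0 0) q.1))
          = ∑ v, (four (fun u => (S.eps q.1 u : ℂ)) v * conj (four (fun u => (S.eps q.1 u : ℂ)) v))
            - S.sL (rel (S.pt 0 0) q.1) * ∑ v, four (fun u => (S.eps q.1 u : ℂ)) v
            - S.sL (rel (S.pt 0 0) q.1) * ∑ v, conj (four (fun u => (S.eps q.1 u : ℂ)) v)
            + ∑ _v : ZMod p, S.sL (rel (S.pt 0 0) q.1) ^ 2 := by
              simp only [mul_sum, ← sum_sub_distrib, ← sum_add_distrib]
              exact sum_congr rfl fun v _ => by ring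
        _ = _ := by
              rw [h2, h0, h1, sum_const, card_univ, ZMod.card, nsmul_eq_mul]
              simp only [mul_zero, sub_zero, sq]
    have hzero : S.DL 0 A = S.kL A + S.sL A := by
      rw [← (S.zero_block hAI).1, S.sL_apply,
        show S.DL 0 A = S.M 0 A 0 0 + S.M 0 A 1 1 from rfl, (S.zero_block hAI).2.2]
      ring
    have hk' : conj (S.kL A) = S.kL A := by
      rw [hA, show S.kL (rel (S.pt 0 0) q.1) = (S.kN q.1 : ℂ) from (S.kN_cast q.1).symm,
        map_natCast]
    rw [← add_sum_erase univ _ (mem_univ (0 : ZMod p)), hzero, map_add, hk', hs] at hall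
    have hkey : ((c1 q.1 : ℤ) : ℂ) = ((2 * S.sZ q.1 * (S.sZ q.1 + 1) : ℤ) : ℂ) := by
      rw [← (hsum12 q).2]
      push_cast
      rw [sum_sub_distrib, ← mul_sum]
      have hks' : (∑ u, (S.eps q.1 u : ℂ)) = S.kL A + S.sL A := by
        rw [← four_zero (fun u => (S.eps q.1 u : ℂ)), S.four_eps, ← hA, hzero]
      have hpne : (p : ℂ) ≠ 0 := Nat.cast_ne_zero.mpr hp.out.ne_zero
      rw [S.sZ_cast, ← hA]
      refine mul_left_cancel₀ hpne ?_
      linear_combination 2 * (p : ℂ) * hks' + hall + h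
    exact_mod_cast hkey
  have hdvd1 : ∀ q, d ∣ c1 q := fun q => card_dvd_of_invariant Q _ fun w hw u => by rw [hw q u]
  have hdvd2 : ∀ q, d ∣ c2 q := fun q => card_dvd_of_invariant Q _ fun w hw u => by rw [hw q u]
  have htot : ∑ q : I, (c1 q.1 + 2 * c2 q.1 : ℤ) = 2 * ((d * t : ℕ) : ℤ) := by
    rw [sum_congr rfl fun q _ => (hsum12 q).1.symm, hdt]
    rw [← Finset.sum_subtype ((univ : Finset _).erase q₀) (fun q => by simp)
      (fun q => ∑ u, S.eps q u)]
    have h := add_sum_erase univ (fun q => ∑ u, S.eps q u) (mem_univ q₀)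
    have h0 : ∑ u, S.eps q₀ u = 2 := by
      rw [← hks]
      have hs : S.sZ q₀ = 1 := by
        exact_mod_cast (show (S.sZ q₀ : ℂ) = 1 by rw [S.sZ_cast, hrel0, S.sL_one])
      have hk : (S.kN q₀ : ℤ) = 1 := by
        exact_mod_cast (show (S.kN q₀ : ℂ) = 1 by rw [S.kN_cast, hrel0, S.kL_one])
      omega
    have hall : ∑ q, ∑ u, S.eps q u = 2 * (p : ℤ) := by
      rw [sum_comm]
      simp [Cyc.eps, sum_add_distrib, S.sum_ind, mul_comm]
    simp only [h0, hall] at h
    have := hp.out.one_le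
    push_cast [Nat.cast_sub this]
    linarith
  -- no suborbit has vanishing number of single diagonal entries
  have hpos_h : ∀ q : I, 0 < c1 q.1 + 2 * c2 q.1 := by
    intro q
    by_contra h0
    push Not at h0
    have h1 : c1 q.1 = 0 := by omega
    have h2 : c2 q.1 = 0 := by omega
    have hk := hks q.1
    rw [(hsum12 q).1, h1, h2] at hk
    simp only [Nat.cast_zero, mul_zero, add_zero] at hk
    have hsq' := hsq q
    rw [h1] at hsq'
    have hkp : 0 < (S.kN q.1 : ℤ) := by exact_mod_cast S.kN_pos q.1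
    have hk1 : S.kN q.1 = 1 := by
      rcases mul_eq_zero.mp hsq'.symm with h | h <;> omega
    have hne : Quotient.out q.1 ≠ S.pt 0 0 := fun e => q.2 (by
      conv_lhs => rw [← cls_out (S.pt 0 0) q.1, e])
    have hbot := stabilizer_eq_bot_of_fixes (S.pt 0 0) hG hne (fun g hg => ?_)
    swap
    · have hsub : Subsingleton {y // cls (S.pt 0 0) y = q.1} :=
        (Nat.card_eq_one_iff_unique.mp hk1).1
      have hg' : cls (S.pt 0 0) (g • Quotient.out q.1) = q.1 :=
        ((cls_eq_iff _).mpr ⟨g, hg, rfl⟩).trans (cls_out _ q.1)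
      exact congrArg Subtype.val
        (@Subsingleton.elim _ hsub ⟨g • Quotient.out q.1, hg'⟩ ⟨Quotient.out q.1, cls_out _ q.1⟩)
    have : Nontrivial α := ⟨_, _, hne⟩
    have hco := IsPreprimitive.isCoatom_stabilizer_of_isPreprimitive (G := G) (S.pt 0 0)
    rw [hbot] at hco
    have htop : Subgroup.zpowers S.sig = ⊤ := by
      refine hco.2 _ (bot_lt_iff_ne_bot.mpr fun e => ?_)
      have hone : S.sig = 1 := Subgroup.zpowers_eq_bot.mp e
      have := S.shift 0 0
      rw [hone, one_smul] at this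
      have := congrArg Prod.snd (S.bij.1 (show (fun z : Fin 2 × ZMod p => S.pt z.1 z.2) (0, 0) =
        (fun z : Fin 2 × ZMod p => S.pt z.1 z.2) (0, 0 + 1) from this))
      simp at this
    obtain ⟨g, hg⟩ := exists_smul_eq G (S.pt 0 0) (S.pt 1 0)
    have hfin : IsOfFinOrder S.sig := by
      refine isOfFinOrder_iff_pow_eq_one.mpr ⟨p, hp.out.pos, ?_⟩
      refine FaithfulSMul.eq_of_smul_eq_smul (α := α) fun x => ?_
      obtain ⟨⟨i, u⟩, rfl⟩ := S.bij.2 x
      simp [S.shiftn]
    obtain ⟨n, rfl⟩ := (hfin.mem_powers_iff_mem_zpowers).mpr (htop ▸ Subgroup.mem_top g :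
      g ∈ Subgroup.zpowers S.sig)
    simp only [S.shiftn] at hg
    exact zero_ne_one (congrArg Prod.fst (S.bij.1
      (show (fun z : Fin 2 × ZMod p => S.pt z.1 z.2) (0, 0 + (n : ZMod p)) =
        (fun z : Fin 2 × ZMod p => S.pt z.1 z.2) (1, 0) from hg)))
  have hc1pos : ∀ q : I, 0 < c1 q.1 := by
    intro q
    by_contra hq0
    push Not at hq0
    have hq0' : c1 q.1 = 0 := by omega
    have heven : ∀ (e : I) (hce : c1 e.1 = 0) (u : ZMod p), S.ind e.1 0 0 u = S.ind e.1 1 1 u := by
      intro e hce u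
      by_cases hu : u = 0
      · subst hu; rw [S.rel_self_apply e.1 0 0 0 rfl e.2, S.rel_self_apply e.1 1 1 0 rfl e.2]
      have hne : S.eps e.1 u ≠ 1 := fun h => by
        have : u ∈ (univ.erase (0 : ZMod p)).filter fun u => S.eps e.1 u = 1 := by simp [hu, h]
        rw [card_eq_zero.mp hce] at this
        simp at this
      rcases S.ind_le e.1 0 0 u with h | h <;> rcases S.ind_le e.1 1 1 u with h' | h' <;>
        simp [Cyc.eps, h, h'] at hne ⊢
    have hrne : ∀ v : ZMod p, v ≠ 0 → S.rL v (rel (S.pt 0 0) q.1) ≠ S.sL (rel (S.pt 0 0) q.1) := by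
      intro v hv he
      let f : ZMod p → ℤ := fun u => S.eps q.1 u - if u = 0 then 2 * S.sZ q.1 else 0
      have hf : four (fun u => (f u : ℂ)) v = 0 := by
        have : (fun u => (f u : ℂ)) = (fun u => (S.eps q.1 u : ℂ)) -
            Pi.single 0 (2 * S.sL (rel (S.pt 0 0) q.1)) := by
          funext u
          by_cases hu : u = 0 <;> simp [f, hu, S.sZ_cast]
        rw [this, four_sub, four_single, S.four_eps]
        rw [Cyc.rL, LinearMap.sub_apply] at he
        linear_combination he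
      have hval : ∀ u, u ≠ 0 → S.eps q.1 u = -(2 * S.sZ q.1) := fun u hu => by
        have := eq_const_of_four_eq_zero f hv hf u 0
        simpa [f, hu, S.eps_zero q.1 q.2] using this
      have h1 := hks q.1
      rw [← add_sum_erase univ _ (mem_univ (0 : ZMod p)), S.eps_zero q.1 q.2, zero_add,
        sum_congr rfl fun u hu => hval u (ne_of_mem_erase hu), sum_const,
        card_erase_of_mem (mem_univ _), card_univ, ZMod.card, nsmul_eq_mul] at h1
      have hsq' := hsq q
      rw [hq0'] at hsq'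
      have hkp : 0 < (S.kN q.1 : ℤ) := by exact_mod_cast S.kN_pos q.1
      rcases mul_eq_zero.mp hsq'.symm with h | h
      · have hs : S.sZ q.1 = 0 := by omega
        rw [hs] at h1
        simp at h1
        omega
      · have hs : S.sZ q.1 = -1 := by omega
        rw [hs] at h1
        have hk : (S.kN q.1 : ℤ) = 2 * p - 1 := by
          push_cast [Nat.cast_sub hp.out.one_le] at h1
          linarith
        have hex : ∃ e : I, e ≠ q := Fintype.exists_ne_of_one_lt_card (by omega) q
        obtain ⟨e, he⟩ := hex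
        have hlt : S.kN q.1 + S.kN e.1 + S.kN q₀ ≤ 2 * p := by
          have hdis : ∀ x y : orbitRel.Quotient (stabilizer G (S.pt 0 0)) α, S.kN x =
              (univ.filter fun z => cls (S.pt 0 0) z = x).card := fun x _ => by
            rw [Cyc.kN, Nat.card_eq_fintype_card, Fintype.card_subtype]
          have hcard : Fintype.card α = 2 * p := by
            rw [← Fintype.card_congr (Equiv.ofBijective _ S.bij), Fintype.card_prod, Fintype.card_fin,
              ZMod.card]
          rw [← hcard, ← card_univ, hdis _ q.1, hdis _ q.1, hdis _ q.1]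
          have hfib := card_eq_sum_card_fiberwise (s := (univ : Finset α))
            (t := (univ : Finset (orbitRel.Quotient (stabilizer G (S.pt 0 0)) α)))
            (f := fun z => cls (S.pt 0 0) z) (fun _ _ => mem_univ _)
          rw [hfib]
          have hne1 : q.1 ≠ e.1 := fun h => he (Subtype.ext h.symm)
          calc _ = ∑ x ∈ ({q.1, e.1, q₀} : Finset _),
                (univ.filter fun z => cls (S.pt 0 0) z = x).card := by
                rw [sum_insert (by simp [hne1, q.2]), sum_insert (by simp [e.2]), sum_singleton,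
                  add_assoc]
            _ ≤ _ := sum_le_sum_of_subset (subset_univ _)
        have := S.kN_pos e.1
        have := S.kN_pos q₀
        omega
    have hall0 : ∀ e : I, c1 e.1 = 0 := by
      intro e
      have hd0 : ∀ u, S.ind e.1 0 0 u - S.ind e.1 1 1 u = 0 := by
        obtain ⟨φ, hne, hc⟩ := hφ 1 one_ne_zero
        have hcomm := S.M_comm hne hc (isInv_rel (S.pt 0 0) q.1) (isInv_rel (S.pt 0 0) e.1)
        have h01 := congrFun (congrFun hcomm 0) 1
        have h10 := congrFun (congrFun hcomm 1) 0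
        simp only [Matrix.mul_apply, Fin.sum_univ_two] at h01 h10
        have hq11 : S.M 1 (rel (S.pt 0 0) q.1) 1 1 = S.M 1 (rel (S.pt 0 0) q.1) 0 0 := by
          rw [S.M_apply, S.M_apply]
          congr 1
          funext u
          rw [← S.ind_cast, ← S.ind_cast, heven q hq0' u]
        rw [hq11] at h01 h10
        have hy : S.M 1 (rel (S.pt 0 0) q.1) 0 1 ≠ 0 ∨ S.M 1 (rel (S.pt 0 0) q.1) 1 0 ≠ 0 := by
          by_contra hboth
          push Not at hboth
          apply hrne 1 one_ne_zero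
          have a := hc _ (isInv_rel (S.pt 0 0) q.1) 0
          have b := hc _ (isInv_rel (S.pt 0 0) q.1) 1
          rw [hboth.1] at a
          rw [hboth.2, hq11] at b
          have hx : S.M 1 (rel (S.pt 0 0) q.1) 0 0 = S.sL (rel (S.pt 0 0) q.1) := by
            by_cases h0 : φ 0 = 0
            · have h1 : φ 1 ≠ 0 := fun h1 => hne (funext fun l => by
                fin_cases l <;> assumption)
              exact mul_right_cancel₀ h1 (by linear_combination b)
            · exact mul_right_cancel₀ h0 (by linear_combination a)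
          rw [S.rL_apply, hq11, hx]
          ring
        have hd1 : S.M 1 (rel (S.pt 0 0) e.1) 0 0 - S.M 1 (rel (S.pt 0 0) e.1) 1 1 = 0 := by
          rcases hy with h | h
          · exact (mul_eq_zero.mp (by linear_combination -h01 :
              S.M 1 (rel (S.pt 0 0) q.1) 0 1 *
                (S.M 1 (rel (S.pt 0 0) e.1) 0 0 - S.M 1 (rel (S.pt 0 0) e.1) 1 1) = 0)).resolve_left h
          · exact (mul_eq_zero.mp (by linear_combination h10 :
              S.M 1 (rel (S.pt 0 0) q.1) 1 0 *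
                (S.M 1 (rel (S.pt 0 0) e.1) 0 0 - S.M 1 (rel (S.pt 0 0) e.1) 1 1) = 0)).resolve_left h
        intro u
        have hf : four (fun u => ((S.ind e.1 0 0 u - S.ind e.1 1 1 u : ℤ) : ℂ)) 1 = 0 := by
          rw [show (fun u => ((S.ind e.1 0 0 u - S.ind e.1 1 1 u : ℤ) : ℂ)) =
            S.blk (rel (S.pt 0 0) e.1) 0 0 - S.blk (rel (S.pt 0 0) e.1) 1 1 by
              funext u; simp [S.ind_cast], four_sub]
          exact hd1
        have := eq_const_of_four_eq_zero _ one_ne_zero hf u 0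
        simp only [S.rel_self_apply e.1 0 0 0 rfl e.2, S.rel_self_apply e.1 1 1 0 rfl e.2,
          sub_self] at this
        exact this
      refine card_eq_zero.mpr (filter_eq_empty_iff.mpr fun u _ h => ?_)
      have := hd0 u
      rcases S.ind_le e.1 0 0 u with h' | h' <;> simp [Cyc.eps] at h <;> omega
    have hge : ∀ e : I, (2 * d : ℤ) ≤ c1 e.1 + 2 * c2 e.1 := by
      intro e
      have := hpos_h e
      rw [hall0 e] at this
      have h2 := Nat.le_of_dvd (by omega) (hdvd2 e.1)
      rw [hall0 e]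
      push_cast
      omega
    have := card_nsmul_le_sum (univ : Finset I) _ _ fun e _ => hge e
    rw [htot, card_univ, nsmul_eq_mul] at this
    push_cast at this
    have : (d : ℤ) * (t + 1) ≤ d * (Fintype.card I) := by
      apply mul_le_mul_of_nonneg_left (by exact_mod_cast hcount) (by positivity)
    nlinarith
  -- arithmetic
  choose γ hγ using fun q : I => hdvd1 q.1
  choose β hβ using fun q : I => hdvd2 q.1
  have hd' : (0 : ℤ) < d := by exact_mod_cast hdpos
  obtain ⟨hI2, a, ha, hdta, hk⟩ := TwoPrimeArith.main (fun q : I => S.sZ q.1)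
    (fun q : I => (S.kN q.1 : ℤ)) (fun q => (γ q : ℤ)) (fun q => (β q : ℤ)) d t hd'
    (by exact_mod_cast htpos)
    (fun q => by
      have := hc1pos q
      rw [hγ q] at this
      exact_mod_cast (Nat.pos_of_mul_pos_left this))
    (fun q => by positivity)
    (fun q => by rw [← hsq q, hγ q]; push_cast; ring)
    (fun q => by rw [hks, (hsum12 q).1, hγ q, hβ q]; push_cast; ring)
    (fun q => by exact_mod_cast S.kN_pos q.1)
    (by
      refine mul_left_cancel₀ hd'.ne' ?_
      rw [mul_sum]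
      calc _ = ∑ q : I, (c1 q.1 + 2 * c2 q.1 : ℤ) := sum_congr rfl fun q _ => by
            rw [hγ q, hβ q]; push_cast; ring
        _ = _ := by rw [htot]; push_cast; ring)
    (by exact_mod_cast hcount) hone
  refine ⟨by omega, a, ha, ?_, fun b hb => ?_⟩
  · have h1 : d * t = 2 * a ^ 2 + 2 * a := by exact_mod_cast hdta
    have := hp.out.one_le
    omega
  · have hq : cls (G := G) (S.pt 0 0) b ≠ q₀ := fun e => hb ((cls_eq_self_iff _).mp e)
    rw [card_suborbit (S.pt 0 0) (b := b) rfl]
    rcases hk ⟨_, hq⟩ with h | h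
    · left; exact_mod_cast h
    · right; exact_mod_cast h

end Cfsg.Agent.Lib.Perm.TwoPrime
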