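import Cfsg.Agent.Lib.Perm.TwoPrime
import Cfsg.Agent.Lib.Perm.TwoPrimeArith
import Mathlib.GroupTheory.Index
import Mathlib.GroupTheory.Coset.Card

/-! Wielandt's theorem on primitive groups of degree twice a prime. -/

set_option autoImplicit false
set_option linter.unusedSectionVars false

namespace Cfsg.Agent.Lib.Perm.TwoPrime

open MulAction Matrix Finset
open Cfsg.Agent.Lib.Perm.ZModFourier Cfsg.Agent.Lib.Perm.Orbital
open scoped ComplexConjugate

variable {p : ℕ} [hp : Fact p.Prime] {G : Type*} [Group G] {α : Type*} [MulAction G α]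
  [Fintype α] [DecidableEq α] [IsPretransitive G α] (S : Cyc p G α)

theorem four_neg (f : ZMod p → ℂ) (v : ZMod p) : four (fun u => f (-u)) v = four f (-v) := by
  simp only [four]
  refine Fintype.sum_equiv (Equiv.neg _) _ _ fun u => ?_
  simp

theorem Cyc.exists_common (hG : IsPreprimitive G α) :
    ∃ v : ZMod p, v ≠ 0 ∧ ∃ φ : Fin 2 → ℂ, φ ≠ 0 ∧ S.Common v φ := by
  classical
  refine ⟨-1, neg_ne_zero.mpr one_ne_zero, ?_⟩
  by_contra hnone
  push Not at hnone
  let e := Equiv.ofBijective _ S.bij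
  let w : α → ℤ := fun x => if (e.symm x).1 = 0 then 1 else -1
  have hw : ∀ i u, w (S.pt i u) = if i = 0 then 1 else -1 := fun i u => by
    have : e.symm (S.pt i u) = (i, u) := e.symm_apply_eq.mpr rfl
    simp only [w, this]
  have heig : ∀ C, IsInv G C → ∀ x, ∑ y, C x y * (w y : ℂ) = S.sL C * (w x : ℂ) := by
    intro C hC x
    obtain ⟨⟨i, u⟩, rfl⟩ := S.bij.2 x
    rw [S.sum_pts, Fin.sum_univ_two]
    have key : ∀ j, ∑ t, C (S.pt i u) (S.pt j t) = S.M 0 C i j := fun j => by
      rw [S.M_zero_apply]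
      refine Fintype.sum_equiv (Equiv.subRight u) _ _ fun t => ?_
      rw [S.inv_shift hC i j u t]; rfl
    simp only [hw, if_true, one_ne_zero, if_false, Int.cast_one, Int.cast_neg, mul_one, mul_neg,
      sum_neg_distrib, key]
    rw [S.sL_apply]
    fin_cases i
    · simp; ring
    · simp [(S.zero_block hC).2.1, (S.zero_block hC).2.2]; ring
  have hconst : ∀ (g : G) j u u', w (g⁻¹ • S.pt j u) = w (g⁻¹ • S.pt j u') := by
    intro g
    let f : α → ℂ := fun x => (w (g⁻¹ • x) : ℂ)
    have hf : ∀ C, IsInv G C → ∀ x, ∑ y, C x y * f y = S.sL C * f x := by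
      intro C hC x
      rw [show f x = (w (g⁻¹ • x) : ℂ) from rfl, ← heig C hC (g⁻¹ • x)]
      refine Fintype.sum_equiv (MulAction.toPerm g⁻¹) _ _ fun y => ?_
      simp [f, hC g⁻¹ x y]
    let φ : Fin 2 → ℂ := fun j => four (fun u => f (S.pt j u)) 1
    have hc : S.Common (-1) φ := by
      intro C hC i
      have hM : ∀ j, S.M (-1) C i j * φ j =
          four (conv (fun u => f (S.pt j u)) fun u => S.blk C i j (-u)) 1 := fun j => by
        rw [four_conv, four_neg, S.M_apply]; exact mul_comm _ _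
      rw [hM, hM, ← four_add, show φ i = four (fun u => f (S.pt i u)) 1 from rfl, ← four_smul]
      congr 1
      funext u
      rw [Pi.smul_apply, smul_eq_mul, ← hf C hC, S.sum_pts, Fin.sum_univ_two, Pi.add_apply]
      simp only [conv, Cyc.blk]
      congr 1 <;>
      · refine sum_congr rfl fun t _ => ?_
        rw [S.inv_shift hC i _ u t, neg_sub, mul_comm]
    intro j u u'
    have h0 : φ j = 0 := by
      by_contra hne
      exact hnone φ (fun e => hne (congrFun e j)) hc
    exact eq_const_of_four_eq_zero (fun u => w (g⁻¹ • S.pt j u)) one_ne_zero h0 u u'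
  let B : Set α := {x | w x = 1}
  have hmemB : ∀ x ∈ B, ∃ u, x = S.pt 0 u := by
    intro x hx
    obtain ⟨⟨i, u⟩, rfl⟩ := S.bij.2 x
    fin_cases i
    · exact ⟨u, rfl⟩
    · exact absurd hx (by simp [B, hw])
  have hgood : ∀ (g : G) x y, x ∈ B → y ∈ B → w (g • x) = w (g • y) := by
    intro g x y hx hy
    obtain ⟨u, rfl⟩ := hmemB x hx
    obtain ⟨u', rfl⟩ := hmemB y hy
    simpa using hconst g⁻¹ 0 u u'
  have hB : IsBlock G B := by
    rw [isBlock_iff_smul_eq_of_nonempty]
    rintro g ⟨x, ⟨x', hx', rfl⟩, hx⟩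
    ext y
    rw [Set.mem_smul_set_iff_inv_smul_mem]
    constructor
    · intro hy
      show w y = 1
      have := hgood g (g⁻¹ • y) x' hy hx'
      rw [smul_inv_smul] at this
      rw [this]; exact hx
    · intro hy
      show w (g⁻¹ • y) = 1
      have := hgood g⁻¹ y (g • x') hy hx
      rw [inv_smul_smul] at this
      rw [this]; exact hx'
  rcases hG.isTrivialBlock_of_isBlock hB with hs | hu
  · have := hs (show S.pt 0 0 ∈ B by simp [B, hw]) (show S.pt 0 1 ∈ B by simp [B, hw])
    have := congrArg Prod.snd (S.bij.1 (show (fun z : Fin 2 × ZMod p => S.pt z.1 z.2) (0, 0) =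
      (fun z : Fin 2 × ZMod p => S.pt z.1 z.2) (0, 1) from this))
    exact zero_ne_one this
  · have : S.pt 1 0 ∈ B := hu ▸ Set.mem_univ _
    simp [B, hw] at this

/-- The suborbit size. -/
noncomputable def Cyc.kN (q : orbitRel.Quotient (stabilizer G (S.pt 0 0)) α) : ℕ :=
  Nat.card {y // cls (S.pt 0 0) y = q}

theorem Cyc.kN_cast (q : orbitRel.Quotient (stabilizer G (S.pt 0 0)) α) :
    (S.kN q : ℂ) = S.kL (rel (S.pt 0 0) q) := by
  classical
  rw [S.kL_apply, row_sum_rel, Cyc.kN, Nat.card_eq_fintype_card, Fintype.card_subtype]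

theorem Cyc.kN_pos (q : orbitRel.Quotient (stabilizer G (S.pt 0 0)) α) : 0 < S.kN q := by
  have : Nonempty {y // cls (S.pt 0 0) y = q} := ⟨⟨_, cls_out _ q⟩⟩
  exact Nat.card_pos

theorem Cyc.sum_ind [Fintype (orbitRel.Quotient (stabilizer G (S.pt 0 0)) α)] (i j : Fin 2)
    (u : ZMod p) : ∑ q, S.ind q i j u = 1 := by
  classical
  obtain ⟨g, hg⟩ := exists_smul_eq G (S.pt 0 0) (S.pt i 0)
  have : ∀ q, S.ind q i j u = if cls (S.pt 0 0) (g⁻¹ • S.pt j u) = q then 1 else 0 := by
    intro q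
    have h := isInv_rel (S.pt 0 0) q g⁻¹ (S.pt i 0) (S.pt j u)
    rw [← hg, inv_smul_smul] at h
    simp only [Cyc.ind]
    rw [← hg, ← h, rel_apply_base]
    split_ifs <;> simp_all
  simp [this]

/-- The diagonal count. -/
noncomputable def Cyc.eps (q : orbitRel.Quotient (stabilizer G (S.pt 0 0)) α) (u : ZMod p) : ℤ :=
  S.ind q 0 0 u + S.ind q 1 1 u

theorem Cyc.ind_le (q : orbitRel.Quotient (stabilizer G (S.pt 0 0)) α) (i j : Fin 2)
    (u : ZMod p) : S.ind q i j u = 0 ∨ S.ind q i j u = 1 := by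
  classical
  simp only [Cyc.ind]; split_ifs <;> simp

theorem Cyc.four_eps (q : orbitRel.Quotient (stabilizer G (S.pt 0 0)) α) (v : ZMod p) :
    four (fun u => (S.eps q u : ℂ)) v = S.DL v (rel (S.pt 0 0) q) := by
  have : (fun u => (S.eps q u : ℂ)) =
      S.blk (rel (S.pt 0 0) q) 0 0 + S.blk (rel (S.pt 0 0) q) 1 1 := by
    funext u; simp [Cyc.eps, S.ind_cast]
  rw [this, four_add]
  rfl

theorem Cyc.rel_self_apply (q : orbitRel.Quotient (stabilizer G (S.pt 0 0)) α) (i j : Fin 2)
    (u : ZMod p) (h : S.pt i 0 = S.pt j u) (hq : q ≠ cls (S.pt 0 0) (S.pt 0 0)) :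
    S.ind q i j u = 0 := by
  classical
  obtain ⟨g, hg⟩ := exists_smul_eq G (S.pt 0 0) (S.pt i 0)
  simp only [Cyc.ind, ← h, ← hg, isInv_rel (S.pt 0 0) q g, rel_apply_base, if_neg (Ne.symm hq),
    zero_ne_one, if_false]

theorem Cyc.eps_zero (q : orbitRel.Quotient (stabilizer G (S.pt 0 0)) α)
    (hq : q ≠ cls (S.pt 0 0) (S.pt 0 0)) : S.eps q 0 = 0 := by
  rw [Cyc.eps, S.rel_self_apply q 0 0 0 rfl hq, S.rel_self_apply q 1 1 0 rfl hq, add_zero]

theorem isTwoTransitive_of_unique {a : α}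
    {q : orbitRel.Quotient (stabilizer G a) α} (h : ∀ y, y ≠ a → cls a y = q) :
    IsMultiplyPretransitive G α 2 := by
  rw [SubMulAction.ofStabilizer.isMultiplyPretransitive (a := a), is_one_pretransitive_iff]
  refine ⟨fun x y => ?_⟩
  obtain ⟨g, hg, hgx⟩ := (cls_eq_iff a).mp ((h y.1 y.2).trans (h x.1 x.2).symm)
  exact ⟨⟨g, hg⟩, Subtype.ext hgx⟩

theorem Cyc.two_transitive_of_scalar
    (h : ∀ q i j, four (fun u => (S.nb q i j u : ℂ)) (1 : ZMod p) = 0) :
    IsMultiplyPretransitive G α 2 := by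
  classical
  have key : ∀ q, q ≠ cls (S.pt 0 0) (S.pt 0 0) →
      ∀ y, y ≠ S.pt 0 0 → cls (G := G) (S.pt 0 0) y = q := by
    intro q hq
    have h00 := eq_const_of_four_eq_zero (fun u => S.nb q 0 0 u) one_ne_zero (h q 0 0)
    have h01 := eq_const_of_four_eq_zero (fun u => S.nb q 0 1 u) one_ne_zero (h q 0 1)
    have e00 : ∀ u, u ≠ 0 → S.ind q 0 0 u = -S.sZ q := by
      intro u hu
      have := h00 u 0
      simpa [Cyc.nb, hu, S.rel_self_apply q 0 0 0 rfl hq] using this
    have e01 : ∀ u, S.ind q 0 1 u = S.ind q 0 1 0 := fun u => by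
      simpa [Cyc.nb] using h01 u 0
    set c := S.ind q 0 1 0
    have hs : S.sZ q = ((p : ℤ) - 1) * -S.sZ q - p * c := by
      conv_lhs => rw [Cyc.sZ]
      rw [← add_sum_erase univ _ (mem_univ (0 : ZMod p)), S.rel_self_apply q 0 0 0 rfl hq, zero_add,
        sum_congr rfl fun u hu => e00 u (ne_of_mem_erase hu), sum_congr rfl fun u _ => e01 u,
        sum_const, sum_const, card_erase_of_mem (mem_univ _), card_univ, ZMod.card]
      simp [hp.out.one_le]
    have hsc : S.sZ q = -c := by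
      have : (p : ℤ) * (S.sZ q + c) = 0 := by linear_combination hs
      rcases mul_eq_zero.mp this with h' | h'
      · exact absurd h' (by exact_mod_cast hp.out.ne_zero)
      · linarith
    have hc1 : c = 1 := by
      rcases S.ind_le q 0 1 0 with hc0 | hc0
      · exfalso
        obtain ⟨⟨i, u⟩, hy⟩ := S.bij.2 (Quotient.out q)
        have h1 : S.ind q 0 i u = 1 := by
          simp only [Cyc.ind, rel_apply_base]
          rw [show S.pt i u = Quotient.out q from hy, if_pos (cls_out _ q), if_pos rfl]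
        fin_cases i
        · by_cases hu : u = 0
          · subst hu; simp [S.rel_self_apply q 0 0 0 rfl hq] at h1
          · simp [e00 u hu, hsc, c, hc0] at h1
        · simp [e01 u, c, hc0] at h1
      · exact hc0
    intro y hy
    obtain ⟨⟨i, u⟩, rfl⟩ := S.bij.2 y
    have h1 : S.ind q 0 i u = 1 := by
      fin_cases i
      · have hu : u ≠ 0 := fun e => hy (by simp [e])
        simpa [hsc, hc1] using e00 u hu
      · simpa [hc1] using e01 u
    simp only [Cyc.ind, rel_apply_base] at h1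
    by_contra hne
    simp [if_neg hne] at h1
  have hy0 : S.pt 1 0 ≠ S.pt 0 0 := fun e => by
    have := congrArg Prod.fst (S.bij.1 (show (fun z : Fin 2 × ZMod p => S.pt z.1 z.2) (1, 0) =
      (fun z : Fin 2 × ZMod p => S.pt z.1 z.2) (0, 0) from e))
    exact one_ne_zero this
  refine isTwoTransitive_of_unique (a := S.pt 0 0) (q := cls (S.pt 0 0) (S.pt 1 0)) ?_
  exact key _ fun e => hy0 ((cls_eq_self_iff _).mp e)

/-- Two matrices agreeing on a vector and its orthogonal are equal. -/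
theorem eq_of_agree {A B : Matrix (Fin 2) (Fin 2) ℂ} {φ : Fin 2 → ℂ} (hφ : φ ≠ 0)
    (h1 : ∀ i, A i 0 * φ 0 + A i 1 * φ 1 = B i 0 * φ 0 + B i 1 * φ 1)
    (h2 : ∀ i, A i 0 * -conj (φ 1) + A i 1 * conj (φ 0) =
      B i 0 * -conj (φ 1) + B i 1 * conj (φ 0)) : A = B := by
  have hN : φ 0 * conj (φ 0) + φ 1 * conj (φ 1) ≠ 0 := by
    intro h
    rw [Complex.mul_conj, Complex.mul_conj, ← Complex.ofReal_add, Complex.ofReal_eq_zero] at h
    have a := (add_eq_zero_iff_of_nonneg (Complex.normSq_nonneg _) (Complex.normSq_nonneg _)).mp h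
    exact hφ (funext fun l => by
      fin_cases l; exacts [Complex.normSq_eq_zero.mp a.1, Complex.normSq_eq_zero.mp a.2])
  ext i j
  refine sub_eq_zero.mp ((mul_eq_zero.mp ?_).resolve_right hN)
  fin_cases j
  · simp only [Fin.zero_eta, Fin.isValue]
    linear_combination conj (φ 0) * h1 i - φ 1 * h2 i
  · simp only [Fin.mk_one, Fin.isValue]
    linear_combination conj (φ 1) * h1 i + φ 0 * h2 i

theorem Cyc.eig {v : ZMod p} {φ : Fin 2 → ℂ} (h : S.Common v φ) {C : Matrix α α ℂ}
    (hC : IsInv G C) :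
    (S.M v C 0 0 * -conj (φ 1) + S.M v C 0 1 * conj (φ 0) = S.rL v C * -conj (φ 1)) ∧
      (S.M v C 1 0 * -conj (φ 1) + S.M v C 1 1 * conj (φ 0) = S.rL v C * conj (φ 0)) := by
  classical
  have : Fintype (orbitRel.Quotient (stabilizer G (S.pt 0 0)) α) := Fintype.ofFinite _
  have hq : ∀ q : orbitRel.Quotient (stabilizer G (S.pt 0 0)) α,
      let C := rel (S.pt 0 0) q
      (S.M v C 0 0 * -conj (φ 1) + S.M v C 0 1 * conj (φ 0) = S.rL v C * -conj (φ 1)) ∧
      (S.M v C 1 0 * -conj (φ 1) + S.M v C 1 1 * conj (φ 0) = S.rL v C * conj (φ 0)) := by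
    intro q C
    have hI : IsInv G C := isInv_rel _ q
    have hreal : ∀ x y, conj (C x y) = C x y := fun x y => by
      rcases rel_zero_or_one (S.pt 0 0) q x y with h | h <;> simp [C, h]
    have hs : conj (S.sL C) = S.sL C := by
      rw [show S.sL C = (S.sZ q : ℂ) from (S.sZ_cast q).symm, map_intCast]
    have h' := h Cᵀ (isInv_transpose hI)
    rw [S.M_transpose v hI hreal, S.sL_transpose hI] at h'
    have a := congrArg conj (h' 0)
    have b := congrArg conj (h' 1)
    simp only [Matrix.conjTranspose_apply, map_add, map_mul, Complex.star_def, Complex.conj_conj,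
      hs] at a b
    rw [S.rL_apply]
    constructor
    · linear_combination b
    · linear_combination -a
  rw [expand (S.pt 0 0) hC]
  simp only [map_sum, map_smul, Matrix.sum_apply, Matrix.smul_apply, smul_eq_mul, sum_mul,
    ← sum_add_distrib]
  exact ⟨sum_congr rfl fun q _ => by
      linear_combination (C (S.pt 0 0) (Quotient.out q)) * (hq q).1,
    sum_congr rfl fun q _ => by
      linear_combination (C (S.pt 0 0) (Quotient.out q)) * (hq q).2⟩

theorem Cyc.rL_mul {v : ZMod p} {φ : Fin 2 → ℂ} (hφ : φ ≠ 0) (h : S.Common v φ)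
    {C E : Matrix α α ℂ} (hC : IsInv G C) (hE : IsInv G E) :
    S.rL v (C * E) = S.rL v C * S.rL v E := by
  have a := S.eig h (isInv_mul hC hE)
  have b := S.eig h hC
  have c := S.eig h hE
  rw [S.M_mul v hE] at a
  simp only [Matrix.mul_apply, Fin.sum_univ_two] at a
  by_cases h1 : conj (φ 1) = 0
  · have h0 : conj (φ 0) ≠ 0 := fun h0 => hφ (funext fun l => by
      fin_cases l
      · exact (map_eq_zero _).mp h0
      · exact (map_eq_zero _).mp h1)
    exact mul_right_cancel₀ h0 (by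
      linear_combination -a.2 + S.rL v E * b.2 + S.M v C 1 0 * c.1 + S.M v C 1 1 * c.2)
  · exact mul_right_cancel₀ (neg_ne_zero.mpr h1) (by
      linear_combination -a.1 + S.rL v E * b.1 + S.M v C 0 0 * c.1 + S.M v C 0 1 * c.2)

theorem Cyc.M_comm {v : ZMod p} {φ : Fin 2 → ℂ} (hφ : φ ≠ 0) (h : S.Common v φ)
    {C E : Matrix α α ℂ} (hC : IsInv G C) (hE : IsInv G E) :
    S.M v C * S.M v E = S.M v E * S.M v C := by
  refine eq_of_agree hφ (fun i => ?_) (fun i => ?_)
  · simp only [Matrix.mul_apply, Fin.sum_univ_two]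
    linear_combination S.M v C i 0 * h E hE 0 + S.M v C i 1 * h E hE 1 + S.sL E * h C hC i -
      S.M v E i 0 * h C hC 0 - S.M v E i 1 * h C hC 1 - S.sL C * h E hE i
  · simp only [Matrix.mul_apply, Fin.sum_univ_two]
    have b := S.eig h hC
    have c := S.eig h hE
    fin_cases i <;> simp only [Fin.zero_eta, Fin.mk_one, Fin.isValue]
    · linear_combination S.M v C 0 0 * c.1 + S.M v C 0 1 * c.2 + S.rL v E * b.1 -
        S.M v E 0 0 * b.1 - S.M v E 0 1 * b.2 - S.rL v C * c.1
    · linear_combination S.M v C 1 0 * c.1 + S.M v C 1 1 * c.2 + S.rL v E * b.2 -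
        S.M v E 1 0 * b.1 - S.M v E 1 1 * b.2 - S.rL v C * c.2

theorem Cyc.scalar_of_rL_eq {v : ZMod p} {φ : Fin 2 → ℂ} (hφ : φ ≠ 0) (h : S.Common v φ)
    {C : Matrix α α ℂ} (hC : IsInv G C) (hr : S.rL v C = S.sL C) :
    S.M v C = S.sL C • 1 := by
  have b := S.eig h hC
  rw [hr] at b
  refine eq_of_agree hφ (fun i => ?_) (fun i => ?_)
  · rw [h C hC i]
    fin_cases i <;> simp
  · fin_cases i <;> simp
    · linear_combination b.1
    · linear_combination b.2

end Cfsg.Agent.Lib.Perm.TwoPrime
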