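import Mathlib.NumberTheory.LegendreSymbol.AddCharacter
import Mathlib.Analysis.SpecialFunctions.Complex.CircleAddChar
import Mathlib.RingTheory.Polynomial.Cyclotomic.Roots
import Mathlib.Data.Complex.BigOperators
import Mathlib.Algebra.Field.ZMod
import Mathlib.Tactic

/-! Fourier sums over `ZMod p` and the rational independence of `p`-th roots of unity. -/

set_option autoImplicit false

namespace Cfsg.Agent.Lib.Perm.ZModFourier

open Finset
open scoped ComplexConjugate

variable {p : ℕ} [hp : Fact p.Prime]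

/-- The Fourier sum of `f` at `v`. -/
noncomputable def four (f : ZMod p → ℂ) (v : ZMod p) : ℂ :=
  ∑ u, f u * ZMod.stdAddChar (u * v)

/-- Convolution. -/
def conv {R : Type*} [CommRing R] (f g : ZMod p → R) (w : ZMod p) : R :=
  ∑ u, f u * g (w - u)

theorem four_zero (f : ZMod p → ℂ) : four f 0 = ∑ u, f u := by simp [four]

theorem four_add (f g : ZMod p → ℂ) (v : ZMod p) : four (f + g) v = four f v + four g v := by
  simp [four, add_mul, sum_add_distrib]

theorem four_sub (f g : ZMod p → ℂ) (v : ZMod p) : four (f - g) v = four f v - four g v := by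
  simp [four, sub_mul, sum_sub_distrib]

theorem four_smul (c : ℂ) (f : ZMod p → ℂ) (v : ZMod p) : four (c • f) v = c * four f v := by
  simp [four, mul_sum, mul_assoc]

theorem four_const (c : ℂ) {v : ZMod p} (hv : v ≠ 0) : four (fun _ => c) v = 0 := by
  rw [four, ← mul_sum, AddChar.sum_mulShift v (ZMod.isPrimitive_stdAddChar p), if_neg hv]
  simp

theorem four_single (c : ℂ) (v : ZMod p) : four (Pi.single 0 c) v = c := by
  rw [four, Finset.sum_eq_single 0]
  · simp
  · intro b _ hb; simp [hb]
  · simp

theorem four_conv (f g : ZMod p → ℂ) (v : ZMod p) :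
    four (conv f g) v = four f v * four g v := by
  simp only [four, conv, sum_mul]
  rw [sum_comm, sum_congr rfl]
  intro u _
  rw [mul_sum]
  refine Fintype.sum_equiv (Equiv.subRight u) _ _ fun w => ?_
  have : w * v = u * v + (w - u) * v := by ring
  simp only [Equiv.subRight_apply]
  rw [this, AddChar.map_add_eq_mul]
  ring

theorem conj_stdAddChar (x : ZMod p) :
    conj (ZMod.stdAddChar x : ℂ) = ZMod.stdAddChar (-x) := by
  rw [AddChar.map_neg_eq_inv, ZMod.stdAddChar_apply]
  exact (Complex.inv_eq_conj (Circle.norm_coe _)).symm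

theorem conj_four (f : ZMod p → ℂ) (v : ZMod p) :
    conj (four f v) = four (fun u => conj (f (-u))) v := by
  simp only [four, map_sum, map_mul, conj_stdAddChar]
  refine Fintype.sum_equiv (Equiv.neg _) _ _ fun u => ?_
  simp

theorem sum_four (f : ZMod p → ℂ) : ∑ v, four f v = p * f 0 := by
  simp only [four]
  rw [sum_comm, sum_eq_single 0]
  · simp [mul_comm]
  · intro b _ hb
    have h : ∑ v, ZMod.stdAddChar (b * v) = (0 : ℂ) := by
      simpa [hb, mul_comm] using
        AddChar.sum_mulShift b (ZMod.isPrimitive_stdAddChar p)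
    rw [← mul_sum, h, mul_zero]
  · simp

/-- Parseval for real-valued functions. -/
theorem sum_normSq_four (f : ZMod p → ℝ) :
    ∑ v, four (fun u => (f u : ℂ)) v * conj (four (fun u => (f u : ℂ)) v) =
      p * ∑ u, (f u : ℂ) * f u := by
  simp only [conj_four, Complex.conj_ofReal]
  rw [sum_congr rfl fun v _ => (four_conv _ _ v).symm, sum_four]
  congr 1
  simp [conv]

theorem stdAddChar_eq_pow (u : ZMod p) :
    (ZMod.stdAddChar u : ℂ) = (ZMod.stdAddChar (1 : ZMod p) : ℂ) ^ u.val := by
  rw [← AddChar.map_nsmul_eq_pow, nsmul_one, ZMod.natCast_zmod_val]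

theorem isPrimitiveRoot_stdAddChar :
    IsPrimitiveRoot (ZMod.stdAddChar (1 : ZMod p) : ℂ) p := by
  rw [IsPrimitiveRoot.iff_def]
  refine ⟨by rw [← AddChar.map_nsmul_eq_pow]; simp, fun l hl => ?_⟩
  rw [← AddChar.map_nsmul_eq_pow, ← (ZMod.stdAddChar (N := p)).map_zero_eq_one,
    ZMod.injective_stdAddChar.eq_iff, nsmul_one] at hl
  exact (ZMod.natCast_eq_zero_iff _ _).mp hl

open Polynomial in
/-- An integer function with vanishing Fourier sum at a nonzero place is constant. -/
theorem eq_const_of_four_eq_zero_one (f : ZMod p → ℤ)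
    (h : four (fun u => (f u : ℂ)) 1 = 0) : ∀ u, f u = f (-1) := by
  classical
  set ζ : ℂ := ZMod.stdAddChar (1 : ZMod p) with hζdef
  have hζ : IsPrimitiveRoot ζ p := isPrimitiveRoot_stdAddChar
  let g : ZMod p → ℤ := fun u => f u - f (-1)
  have hg : four (fun u => (g u : ℂ)) 1 = 0 := by
    have : (fun u => (g u : ℂ)) = (fun u => (f u : ℂ)) - fun _ => (f (-1) : ℂ) := by
      ext u; simp [g]
    rw [this, four_sub, h, four_const _ one_ne_zero, sub_zero]
  let P : ℚ[X] := ∑ u : ZMod p, C (g u : ℚ) * X ^ u.val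
  have hroot : aeval ζ P = 0 := by
    rw [← hg, four]
    simp only [P, map_sum]
    refine sum_congr rfl fun u _ => ?_
    rw [mul_one, stdAddChar_eq_pow u, map_mul, map_pow, aeval_X, aeval_C]
    simp [hζdef]
  have hcoeff : ∀ u : ZMod p, P.coeff u.val = g u := by
    intro u
    simp only [P, finsetSum_coeff, coeff_C_mul, coeff_X_pow]
    rw [sum_eq_single u]
    · simp
    · intro b _ hb
      rw [if_neg (fun e => hb (ZMod.val_injective p e.symm)), mul_zero]
    · simp
  intro u
  by_contra hu
  have hP : P ≠ 0 := by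
    intro h0
    have := hcoeff u
    rw [h0, coeff_zero] at this
    have : g u = 0 := by exact_mod_cast this.symm
    exact hu (sub_eq_zero.mp this)
  have hdeg : P.natDegree < p - 1 := by
    have hle : P.natDegree ≤ p - 1 := by
      refine natDegree_sum_le_of_forall_le _ _ fun b _ => (natDegree_C_mul_X_pow_le _ _).trans ?_
      have := b.val_lt
      omega
    rcases hle.eq_or_lt with he | hlt
    · exfalso
      apply hP
      rw [← leadingCoeff_eq_zero, leadingCoeff, he]
      have : P.coeff (-1 : ZMod p).val = 0 := by rw [hcoeff]; simp [g]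
      obtain ⟨m, rfl⟩ : ∃ m, p = m + 1 := ⟨p - 1, by have := hp.out.pos; omega⟩
      simpa [ZMod.val_neg_one] using this
    · exact hlt
  have hmin := Polynomial.natDegree_le_of_dvd (minpoly.dvd ℚ ζ hroot) hP
  rw [← cyclotomic_eq_minpoly_rat hζ hp.out.pos, natDegree_cyclotomic, Nat.totient_prime hp.out]
    at hmin
  omega

theorem eq_const_of_four_eq_zero (f : ZMod p → ℤ) {v : ZMod p} (hv : v ≠ 0)
    (h : four (fun u => (f u : ℂ)) v = 0) : ∀ u u', f u = f u' := by
  have h1 : four (fun u => ((f (u * v⁻¹) : ℤ) : ℂ)) 1 = 0 := by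
    rw [← h]
    simp only [four]
    refine Fintype.sum_equiv (Equiv.mulRight₀ v⁻¹ (inv_ne_zero hv)) _ _ fun u => ?_
    simp [mul_assoc, hv]
  have := eq_const_of_four_eq_zero_one (fun u => f (u * v⁻¹)) h1
  intro u u'
  have a := this (u * v)
  have b := this (u' * v)
  simp only [mul_assoc, mul_inv_cancel₀ hv, mul_one] at a b
  rw [a, b]

/-- Vanishing at one nonzero place implies vanishing at all of them. -/
theorem four_eq_zero_of_four_eq_zero (f : ZMod p → ℤ) {v v' : ZMod p} (hv : v ≠ 0)
    (hv' : v' ≠ 0) (h : four (fun u => (f u : ℂ)) v = 0) :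
    four (fun u => (f u : ℂ)) v' = 0 := by
  have hc : (fun u => (f u : ℂ)) = fun _ => (f 0 : ℂ) := by
    ext u; rw [eq_const_of_four_eq_zero f hv h u 0]
  rw [hc, four_const _ hv']

end Cfsg.Agent.Lib.Perm.ZModFourier
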